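import Mathlib
import Cfsg.Agent.Lib.Elusive.Cyclo

/-!
Arithmetic lemmas for the fixed subspace criteria.
-/

set_option autoImplicit false

namespace CfsgLib.Elus2

open CfsgLib.Elusive

theorem eq_div_of_sub_lt {i m j : ℕ} (h1 : i * j ≤ m) (h2 : m - i * j < i) : j = m / i :=
  (Nat.div_eq_of_lt_le (by rw [mul_comm]; exact h1) (by rw [add_mul, mul_comm]; omega)).symm

theorem div_pos_of_mod_lt {n c m : ℕ} (hm : m ≤ n) (h : n % c < m) : 1 ≤ n / c :=
  Nat.pos_of_ne_zero fun h3 => by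
    have h1 := Nat.mod_add_div n c
    rw [h3] at h1
    omega

theorem le_div_of_mul_le {c k n : ℕ} (hc : 0 < c) (h : c * k ≤ n) : k ≤ n / c :=
  (Nat.le_div_iff_mul_le hc).2 (by rw [mul_comm]; exact h)

theorem mod_le_sub {c k n : ℕ} (h : c * k ≤ n) : n % c ≤ n - c * k :=
  mod_le_of_eq_add (i := c) (a := k) (by omega)

theorem nd_arith {c m n : ℕ} (hm : m ≤ n) (hΩ : n % c < m) :
    (∀ k, 1 ≤ k → c * k ≤ n → ∃ j ≤ k, c * j ≤ m ∧ m - c * j ≤ n - c * k) ↔
      c ≤ m ∧ m % c ≤ n % c := by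
  have h1 := Nat.mod_add_div n c
  have h2 := Nat.mod_add_div m c
  constructor
  · intro h
    obtain ⟨j, -, h4, h5⟩ := h (n / c) (div_pos_of_mod_lt hm hΩ) (by omega)
    have h6 : 1 ≤ j := Nat.pos_of_ne_zero (by rintro rfl; omega)
    have h7 : c * 1 ≤ c * j := Nat.mul_le_mul_left c h6
    have h8 := mod_le_sub h4
    omega
  · rintro ⟨h3, h4⟩ k h5 h6
    have h7 := mod_le_sub h6
    rcases le_total k (m / c) with h8 | h8
    · have : c * k ≤ c * (m / c) := Nat.mul_le_mul_left c h8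
      exact ⟨k, le_rfl, by omega, by omega⟩
    · exact ⟨m / c, h8, by omega, by omega⟩

theorem exists_two_four {α β m : ℕ} (hm : m ≤ α + 2 * β) (h : α ≠ 0 ∨ Even m) :
    ∃ j ≤ α, ∃ l ≤ β, m = j + 2 * l := by
  rcases le_total β (m / 2) with h1 | h1
  · exact ⟨m - 2 * β, by omega, β, le_rfl, by omega⟩
  · refine ⟨m % 2, ?_, m / 2, h1, by omega⟩
    rw [Nat.even_iff] at h
    omega

end CfsgLib.Elus2
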