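import Mathlib
import Cfsg.Agent.Lib.Elusive.IsoUnip
import Cfsg.Agent.Lib.Elusive.DecompMat

/-!
General tools for fixed subspaces of isometries of prime order: counting lemmas, reduction to
elements of exact order, involutions, swaps and orthogonal decompositions.
-/

set_option autoImplicit false

namespace CfsgLib.Elus2

open Polynomial Module CfsgLib.MatConj CfsgLib.Forms CfsgLib.Elusive

variable {F : Type*} [Field F] {σ : F →+* F} {V : Type*} [AddCommGroup V] [Module F V]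
  {P : PQ σ V}

section Count

variable [Finite F] [FiniteDimensional F V]

/-- Counting lemma: the isometries of the orthogonal complement of `A` fix the base point. -/
theorem card_mul_dvd_perp (hP : P.Nondeg) {α : Type*} (act : (V ≃ₗ[F] V) → α → α)
    (h1 : ∀ a, act 1 a = a) (hmul : ∀ g h a, act (g * h) a = act g (act h a)) (Φ : α → Prop)
    (hΦ : ∀ g : V ≃ₗ[F] V, P.IsIso g → ∀ a, Φ a → Φ (act g a)) (a₀ : α) (h₀ : Φ a₀)
    (htr : ∀ a, Φ a → ∃ g : V ≃ₗ[F] V, P.IsIso g ∧ act g a₀ = a) {A : Submodule F V}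
    (hA : ND P A)
    (hfix : ∀ g : V ≃ₗ[F] V, P.IsIso g → (∀ a ∈ A, g a = a) → act g a₀ = a₀) :
    Nat.card {a // Φ a} * Nat.card (P.restrict (P.perp A)).isom ∣ Nat.card P.isom := by
  have := Fintype.ofFinite F
  have := finite_linearEquiv (F := F) (V := V)
  have hc := P.isCompl_perp hP hA
  refine card_mul_dvd (fun (g : P.isom) a => act g a) h1 (fun g h a => hmul g h a) Φ
    (fun g a => hΦ g g.2 a) a₀ h₀
    (fun a ha => by obtain ⟨g, hg, h⟩ := htr a ha; exact ⟨⟨g, hg⟩, h⟩)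
    ((sumIsom P hc le_rfl).comp (MonoidHom.inr _ _))
    ((sumIsom_injective P hc le_rfl).comp fun a b h => congrArg Prod.snd h) fun k => ?_
  refine hfix _ (sumIsom P hc le_rfl (1, k)).2 fun a ha => ?_
  exact sumEquiv_left hc _ ⟨a, ha⟩

theorem card_sub_mul_dvd_perp (hP : P.Nondeg) (Φ : Submodule F V → Prop)
    (hΦ : ∀ g : V ≃ₗ[F] V, P.IsIso g → ∀ U, Φ U → Φ (U.map g.toLinearMap))
    (U₀ : Submodule F V) (h₀ : Φ U₀)
    (htr : ∀ U, Φ U → ∃ g : V ≃ₗ[F] V, P.IsIso g ∧ U₀.map g.toLinearMap = U) {A : Submodule F V}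
    (hA : ND P A) (hle : U₀ ≤ A) :
    Nat.card {U // Φ U} * Nat.card (P.restrict (P.perp A)).isom ∣ Nat.card P.isom :=
  card_mul_dvd_perp hP (fun g U => U.map g.toLinearMap) map_one_equiv map_mul_equiv Φ hΦ U₀ h₀ htr
    hA fun _ _ h => map_eq_of_forall_eq fun a ha => h a (hle ha)

/-- Counting lemma with both the subspace and its orthogonal complement. -/
theorem card_sub_mul_dvd_both (hP : P.Nondeg) (Φ : Submodule F V → Prop)
    (hΦ : ∀ g : V ≃ₗ[F] V, P.IsIso g → ∀ U, Φ U → Φ (U.map g.toLinearMap))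
    (U₀ : Submodule F V) (h₀ : Φ U₀)
    (htr : ∀ U, Φ U → ∃ g : V ≃ₗ[F] V, P.IsIso g ∧ U₀.map g.toLinearMap = U) (hA : ND P U₀) :
    Nat.card {U // Φ U} * (Nat.card (P.restrict U₀).isom *
      Nat.card (P.restrict (P.perp U₀)).isom) ∣ Nat.card P.isom := by
  have hc := P.isCompl_perp hP hA
  rw [← Nat.card_prod]
  exact card_subspaces_mul_dvd P Φ hΦ U₀ h₀ htr (sumIsom P hc le_rfl)
    (sumIsom_injective P hc le_rfl) fun k => map_sumEquiv_left hc _

end Count

theorem isom_one (P : PQ σ V) : Isom P 1 := PQ.IsIso.id P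

theorem ND.map_iso {g : V →ₗ[F] V} (hg : P.IsIso g) {U : Submodule F V} (h : ND P U) :
    ND P (U.map g) := h.map hg.B_eq

theorem Plus.map_iso {g : V ≃ₗ[F] V} (hg : P.IsIso g) {U : Submodule F V} (h : Plus P U) :
    Plus P (U.map g.toLinearMap) := by
  obtain ⟨W, h1, h2, h3⟩ := h
  exact ⟨W.map g.toLinearMap, Submodule.map_mono h1, by
    rw [LinearEquiv.finrank_map_eq, LinearEquiv.finrank_map_eq, h2], h3.map hg⟩

theorem plus_map_iff {g : V ≃ₗ[F] V} (hg : P.IsIso g) {U : Submodule F V} :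
    Plus P (U.map g.toLinearMap) ↔ Plus P U := by
  refine ⟨fun h => ?_, Plus.map_iso hg⟩
  have := Plus.map_iso hg.symm h
  rwa [← Submodule.map_comp, LinearEquiv.symm_comp, Submodule.map_id] at this

theorem map_le_perp_map {g : V →ₗ[F] V} (hg : P.IsIso g) {A B : Submodule F V}
    (h : B ≤ P.perp A) : B.map g ≤ P.perp (A.map g) := by
  rintro _ ⟨b, hb, rfl⟩ _ ⟨a, ha, rfl⟩
  rw [hg.B_eq]; exact h hb a ha

theorem inv_neg_iff {T : End F V} {U : Submodule F V} : Inv (-T) U ↔ Inv T U := by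
  rw [← neg_one_smul F T]; exact inv_smul_iff (by simp)

theorem map_neg_eq (T : End F V) (U : Submodule F V) : U.map (-T) = U.map T := by
  rw [← neg_one_smul F T]; exact Submodule.map_smul _ _ _ (by simp)

variable [FiniteDimensional F V]

/-- Witt's theorem for isometric subspaces. -/
theorem exists_map_eq_of_isIso₂ (hP : P.Nondeg) {A B : Submodule F V} (e : A ≃ₗ[F] B)
    (he : (P.restrict A).IsIso₂ (P.restrict B) e) :
    ∃ g : V ≃ₗ[F] V, P.IsIso g ∧ (∀ a : A, g a = e a) ∧ A.map g.toLinearMap = B := by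
  obtain ⟨g, h1, h2⟩ := P.witt hP A (B.subtype.comp e.toLinearMap)
    (B.subtype_injective.comp e.injective) (fun x y => he.B_eq x y) (fun x => he.N_eq x)
  exact ⟨g, h1, h2, map_eq_of_equiv e h2⟩

/-- A totally singular subspace lies in a hyperbolic subspace of twice its dimension. -/
theorem exists_hyp (hP : P.Nondeg) {U W : Submodule F V} (hU : ND P U) (hW : P.TS W)
    (hle : W ≤ U) : ∃ H, ND P H ∧ W ≤ H ∧ H ≤ U ∧ finrank F H = 2 * finrank F W ∧ Plus P H := by
  obtain ⟨H, h1, -, h2, h3, h4, -⟩ := ts_split hP (isom_one P) (a := X - C 1)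
    (irreducible_X_sub_C 1).squarefree (by simp) hU (fun _ h => h) hW.2 (fun _ h => h) hle
  exact ⟨H, h1, h2, h3, h4, W, h2, h4.symm, hW⟩

/-- Isometries are transitive on pairs of complementary totally singular subspaces, with
prescribed action on the first member. -/
theorem exists_isom_pair (hP : P.Nondeg) {U W U' W' : Submodule F V} (h : IsCompl U W)
    (h' : IsCompl U' W') (hU : P.TS U) (hW : P.TS W) (hU' : P.TS U') (hW' : P.TS W')
    (e : U ≃ₗ[F] U') : ∃ g : V ≃ₗ[F] V, P.IsIso g ∧ (∀ u : U, g u = e u) ∧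
      W.map g.toLinearMap = W' := by
  classical
  have key : ∀ {U W : Submodule F V}, IsCompl U W → P.TS U → ∀ {k : ℕ} (b : Basis (Fin k) F U),
      ∃ f : Fin k → V, (∀ i, f i ∈ W) ∧ ∀ i j, P.B (f i) (b j) = if i = j then 1 else 0 := by
    intro U W h hU k b
    obtain ⟨a, ha, -⟩ := P.exists_dual_family hP (fun i => (b i : V))
      (b.linearIndependent.map' U.subtype U.ker_subtype) ⊥ disjoint_bot_right
    choose u w huw using fun i => exists_add_of_isCompl h (a i)
    refine ⟨fun i => w i, fun i => (w i).2, fun i j => ?_⟩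
    rw [← ha i j, huw i, P.B_add_left, hU.B_eq (u i).2 (b j).2, zero_add]
  have hdim : ∀ {U W : Submodule F V}, IsCompl U W → P.TS U → P.TS W →
      finrank F W = finrank F U := by
    intro U W h hU hW
    have h1 := hU.two_mul_finrank_le hP
    have h2 := hW.two_mul_finrank_le hP
    have h3 := Submodule.finrank_add_eq_of_isCompl h
    omega
  let b := Module.finBasis F U
  let b' := b.map e
  obtain ⟨f, hf, hf'⟩ := key h hU b
  obtain ⟨f', hg, hg'⟩ := key h' hU' b'
  have l1 := P.linearIndependent_hyperbolic (fun i => (b i : V)) f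
    (fun i j => hU.B_eq (b i).2 (b j).2) (fun i j => hW.B_eq (hf i) (hf j)) hf'
  have l2 := P.linearIndependent_hyperbolic (fun i => (b' i : V)) f'
    (fun i j => hU'.B_eq (b' i).2 (b' j).2) (fun i j => hW'.B_eq (hg i) (hg j)) hg'
  obtain ⟨g, g1, g2⟩ := P.witt_family hP _ _ l1 l2 (by
    rintro (i | i) (j | j)
    · exact (hU'.B_eq (b' i).2 (b' j).2).trans (hU.B_eq (b i).2 (b j).2).symm
    · simp only [Sum.elim_inl, Sum.elim_inr]
      rw [P.symm, P.symm (f j), hf', hg']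
    · simp only [Sum.elim_inl, Sum.elim_inr]
      rw [hf', hg']
    · exact (hW'.B_eq (hg i) (hg j)).trans (hW.B_eq (hf i) (hf j)).symm) (by
    rintro (i | i)
    · exact P.Λ.sub_mem (hU'.1 _ (b' i).2) (hU.1 _ (b i).2)
    · exact P.Λ.sub_mem (hW'.1 _ (hg i)) (hW.1 _ (hf i)))
  refine ⟨g, g1, fun u => ?_, ?_⟩
  · have : g.toLinearMap.comp U.subtype = U'.subtype.comp e.toLinearMap :=
      b.ext fun i => g2 (Sum.inl i)
    exact LinearMap.congr_fun this u
  · have h1 : Submodule.span F (Set.range f) = W := by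
      refine Submodule.eq_of_le_of_finrank_eq (Submodule.span_le.2 ?_) ?_
      · rintro _ ⟨i, rfl⟩; exact hf i
      · rw [finrank_span_eq_card (b := f) (l1.comp Sum.inr Sum.inr_injective), hdim h hU hW,
          Fintype.card_fin]
    refine Submodule.eq_of_le_of_finrank_eq ?_ ?_
    · rw [← h1, Submodule.map_span, Submodule.span_le]
      rintro _ ⟨_, ⟨i, rfl⟩, rfl⟩
      have := g2 (Sum.inr i)
      simp only [Sum.elim_inr] at this
      rw [LinearEquiv.coe_coe, this]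
      exact hg i
    · rw [LinearEquiv.finrank_map_eq, hdim h hU hW, hdim h' hU' hW', e.finrank_eq]

/-- The number of ordered polar pairs times the order of the Levi factor divides the order of the
isometry group. -/
theorem card_pairs_mul_dvd [Finite F] (hP : P.Nondeg) {U W : Submodule F V} (h : IsCompl U W)
    (hU : P.TS U) (hW : P.TS W) :
    Nat.card {Z : Submodule F V × Submodule F V // IsCompl Z.1 Z.2 ∧ P.TS Z.1 ∧ P.TS Z.2} *
      Nat.card (U ≃ₗ[F] U) ∣ Nat.card P.isom := by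
  have := Fintype.ofFinite F
  have := finite_linearEquiv (F := F) (V := V)
  choose g g1 g2 g3 using fun e : U ≃ₗ[F] U => exists_isom_pair hP h h hU hW hU hW e
  have huniq : ∀ a b : V ≃ₗ[F] V, P.IsIso a → P.IsIso b → (∀ u : U, a u = b u) →
      U.map a.toLinearMap = U → W.map a.toLinearMap = W → W.map b.toLinearMap = W → a = b := by
    intro a b ha hb h1 h2 h3 h4
    ext v
    obtain ⟨u, w, rfl⟩ := exists_add_of_isCompl h v
    rw [map_add, map_add, h1]
    congr 1
    rw [← sub_eq_zero]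
    refine hP _ fun y => ?_
    obtain ⟨u', w', rfl⟩ := exists_add_of_isCompl h y
    have e1 : a w ∈ W := h3.le (Submodule.mem_map_of_mem w.2)
    have e2 : b w ∈ W := h4.le (Submodule.mem_map_of_mem w.2)
    rw [P.B_add_right, hW.B_eq (W.sub_mem e1 e2) w'.2, add_zero]
    obtain ⟨u'', hu, h5⟩ : (u' : V) ∈ U.map a.toLinearMap := h2.ge u'.2
    rw [← h5, P.B_sub_left, LinearEquiv.coe_coe, ha.B_eq, h1 ⟨u'', hu⟩, hb.B_eq, sub_self]
  have g4 : ∀ e, U.map (g e).toLinearMap = U := fun e => map_eq_of_equiv e (g2 e)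
  let φ : (U ≃ₗ[F] U) →* P.isom := MonoidHom.mk' (fun e => ⟨g e, g1 e⟩) fun a b => Subtype.ext
    (huniq _ _ (g1 _) ((g1 a).comp (g1 b)) (fun u => by
      change g (a * b) u = g a (g b u)
      rw [g2, g2, g2]; rfl) (g4 _) (g3 _) (by
      change W.map (g a * g b).toLinearMap = W
      rw [map_mul_equiv, g3, g3]))
  refine card_mul_dvd (fun (a : P.isom) (Z : Submodule F V × Submodule F V) =>
      (Z.1.map (a : V ≃ₗ[F] V).toLinearMap, Z.2.map (a : V ≃ₗ[F] V).toLinearMap))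
    (fun Z => Prod.ext (map_one_equiv _) (map_one_equiv _))
    (fun a b Z => Prod.ext (map_mul_equiv _ _ _) (map_mul_equiv _ _ _)) _
    (fun a Z hZ => ⟨isCompl_map_equiv hZ.1 _, hZ.2.1.map a.2, hZ.2.2.map a.2⟩) (U, W) ⟨h, hU, hW⟩
    (fun Z hZ => ?_) φ (fun a b hab => ?_) fun e => Prod.ext (g4 e) (g3 e)
  · have h1 := hU.two_mul_finrank_le hP
    have h2 := hW.two_mul_finrank_le hP
    have h3 := Submodule.finrank_add_eq_of_isCompl h
    have h4 := hZ.2.1.two_mul_finrank_le hP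
    have h5 := hZ.2.2.two_mul_finrank_le hP
    have h6 := Submodule.finrank_add_eq_of_isCompl hZ.1
    obtain ⟨e⟩ := FiniteDimensional.nonempty_linearEquiv_of_finrank_eq (R := F) (M := U)
      (M' := Z.1) (by omega)
    obtain ⟨a, a1, a2, a3⟩ := exists_isom_pair hP h hZ.1 hU hW hZ.2.1 hZ.2.2 e
    exact ⟨⟨a, a1⟩, Prod.ext (map_eq_of_equiv e a2) a3⟩
  · ext u
    have : g a = g b := congrArg Subtype.val hab
    rw [← g2, ← g2, this]

/-- The isometry interchanging a subspace and its orthogonal complement. -/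
theorem exists_swap (hP : P.Nondeg) {A : Submodule F V} (hA : ND P A) (e : A ≃ₗ[F] P.perp A)
    (he : (P.restrict A).IsIso₂ (P.restrict (P.perp A)) e) :
    ∃ T : End F V, Isom P T ∧ T ^ 2 = 1 ∧ (∀ a : A, T a = e a) ∧
      ∀ b : P.perp A, T b = e.symm b := by
  have hc := P.isCompl_perp hP hA
  obtain ⟨g, h1, h2⟩ := exists_equiv_of_isCompl hc hc.symm e e.symm
  refine ⟨g.toLinearMap, ?_, ?_, h1, h2⟩
  · refine isom_of_add hc.sup_eq_top le_rfl (fun a ha b hb => ?_) (fun x hx y hy => ?_)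
      (fun x hx => ?_) (fun x hx y hy => ?_) fun x hx => ?_
    · rw [LinearEquiv.coe_coe, h1 ⟨a, ha⟩, h2 ⟨b, hb⟩, P.B_eq_zero_comm]
      exact (e ⟨a, ha⟩).2 _ (e.symm ⟨b, hb⟩).2
    · rw [LinearEquiv.coe_coe, h1 ⟨x, hx⟩, h1 ⟨y, hy⟩]
      exact he.B_eq ⟨x, hx⟩ ⟨y, hy⟩
    · rw [LinearEquiv.coe_coe, h1 ⟨x, hx⟩]
      exact he.N_eq ⟨x, hx⟩
    · rw [LinearEquiv.coe_coe, h2 ⟨x, hx⟩, h2 ⟨y, hy⟩]
      exact he.symm.B_eq ⟨x, hx⟩ ⟨y, hy⟩
    · rw [LinearEquiv.coe_coe, h2 ⟨x, hx⟩]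
      exact he.symm.N_eq ⟨x, hx⟩
  · ext v
    obtain ⟨a, b, rfl⟩ := exists_add_of_isCompl hc v
    simp [sq, h1, h2]

section Id

variable {P : PQ (RingHom.id F) V}

omit [FiniteDimensional F V] in
theorem eq_or_eq_neg_of_pow (hP : P.Nondeg) [Nontrivial V] {T : End F V} (hT : Isom P T) {r : ℕ}
    {z : F} (h : T ^ r = z • 1) : z = 1 ∨ z = -1 :=
  mul_self_eq_one_iff.1 (norm_eq_one_of_isIso hP (h ▸ isIso_pow hT r))

theorem isPE_cases (hP : P.Nondeg) {T : End F V} (hT : Isom P T) {r : ℕ} (h : IsPE r T) :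
    T ^ r = 1 ∨ T ^ r = -1 := by
  have := Module.nontrivial_of_finrank_pos (Nat.pos_of_ne_zero h.finrank_ne_zero)
  obtain ⟨z, hz⟩ := h.1
  rcases eq_or_eq_neg_of_pow hP hT hz with rfl | rfl
  · left; rw [hz, one_smul]
  · right; rw [hz, neg_smul, one_smul]

omit [FiniteDimensional F V] in
theorem isPE_of_ne (hP : P.Nondeg) {T : End F V} (hT : Isom P T) {r : ℕ} {z : F}
    (h : T ^ r = z • 1) (h1 : T ≠ 1) (h2 : T ≠ -1) : IsPE r T := by
  refine ⟨⟨z, h⟩, fun c hc => ?_⟩
  have : Nontrivial V := by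
    by_contra h3
    rw [not_nontrivial_iff_subsingleton] at h3
    exact h1 (Subsingleton.elim _ _)
  rcases eq_or_eq_neg_of_pow hP hT (r := 1) (by rw [pow_one, hc]) with rfl | rfl
  · exact h1 (by rw [hc, one_smul])
  · exact h2 (by rw [hc, neg_smul, one_smul])

omit [FiniteDimensional F V] in
theorem isPE_of_odd (hP : P.Nondeg) {T : End F V} (hT : Isom P T) {r : ℕ} (hr : Odd r)
    (h : T ^ r = 1) (h1 : T ≠ 1) : IsPE r T := by
  refine isPE_of_ne hP hT (z := 1) (by rw [h, one_smul]) h1 fun h2 => h1 ?_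
  rw [h2, hr.neg_one_pow] at h
  rw [h2, h]

/-- For odd `r`, elements of order `r` modulo scalars reduce to elements of order `r`. -/
theorem forall_isPE_odd (hP : P.Nondeg) {r : ℕ} (hr : Odd r) (A Φ : End F V → Prop)
    (hA : ∀ T, Isom P T → T ^ r = 1 → A T) (hΦ : ∀ T, Φ (-T) → Φ T) :
    (∀ T, Isom P T → A T → IsPE r T → Φ T) ↔ ∀ T, Isom P T → T ^ r = 1 → T ≠ 1 → Φ T := by
  refine ⟨fun h T h1 h2 h3 => h T h1 (hA T h1 h2) (isPE_of_odd hP h1 hr h2 h3),
    fun h T h1 _ h3 => ?_⟩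
  rcases isPE_cases hP h1 h3 with h4 | h4
  · exact h T h1 h4 fun h5 => h3.2 1 (by rw [h5, one_smul])
  · refine hΦ T (h _ (isIso_neg h1) (by rw [hr.neg_pow, h4, neg_neg]) fun h5 => h3.2 (-1) ?_)
    rw [neg_smul, one_smul, ← h5, neg_neg]

end Id

section Invol

omit [FiniteDimensional F V] in
theorem sq_apply {T : End F V} {z : F} (h : T ^ 2 = z • 1) (v : V) : T (T v) = z • v := by
  have := LinearMap.congr_fun h v
  rwa [sq] at this

omit [FiniteDimensional F V] in
theorem fix_neg_le_perp (h2 : (2 : F) ≠ 0) {T : End F V} (hT : Isom P T) :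
    fix (-T) ≤ P.perp (fix T) := by
  intro v hv w hw
  have h1 := hT.B_eq w v
  have h3 : T v = -v := by rw [← neg_eq_iff_eq_neg, ← LinearMap.neg_apply]; exact mem_fix.1 hv
  rw [mem_fix.1 hw, h3, map_neg] at h1
  exact (mul_eq_zero.1 (show 2 * P.B w v = 0 by linear_combination -h1)).resolve_left h2

omit [FiniteDimensional F V] in
theorem Inv.eq_sup_invol (h2 : (2 : F) ≠ 0) {T : End F V} (h : T ^ 2 = 1) {W : Submodule F V}
    (hW : Inv T W) : W ⊓ fix T ⊔ W ⊓ fix (-T) = W := by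
  refine le_antisymm (sup_le inf_le_left inf_le_left) fun v hv => ?_
  have h1 : T (T v) = v := by rw [sq_apply (z := 1) (by rw [h, one_smul]), one_smul]
  have : v = (2 : F)⁻¹ • (v + T v) + (2 : F)⁻¹ • (v - T v) := by
    rw [← smul_add, show v + T v + (v - T v) = (2 : F) • v by rw [two_smul]; abel, smul_smul,
      inv_mul_cancel₀ h2, one_smul]
  rw [this]
  refine Submodule.add_mem_sup (Submodule.smul_mem _ _ ⟨W.add_mem hv (hW v hv), ?_⟩)
    (Submodule.smul_mem _ _ ⟨W.sub_mem hv (hW v hv), ?_⟩)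
  · rw [SetLike.mem_coe, mem_fix, map_add, h1, add_comm]
  · rw [SetLike.mem_coe, mem_fix, LinearMap.neg_apply, map_sub, h1, neg_sub]

omit [FiniteDimensional F V] in
theorem nd_inf_invol (h2 : (2 : F) ≠ 0) {T : End F V} (hT : Isom P T) (h : T ^ 2 = 1)
    {W : Submodule F V} (hW : Inv T W) (hN : ND P W) :
    ND P (W ⊓ fix T) ∧ ND P (W ⊓ fix (-T)) := by
  rw [← Inv.eq_sup_invol h2 h hW] at hN
  exact hN.of_sup (inf_le_right.trans ((fix_neg_le_perp h2 hT).trans (P.perp_anti inf_le_right)))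

omit [FiniteDimensional F V] in
theorem nd_fix_invol (hP : P.Nondeg) (h2 : (2 : F) ≠ 0) {T : End F V} (hT : Isom P T)
    (h : T ^ 2 = 1) : ND P (fix T) ∧ ND P (fix (-T)) := by
  simpa using nd_inf_invol h2 hT h (inv_top T) (nd_top hP)

omit [FiniteDimensional F V] in
theorem fix_sup_fix_neg (h2 : (2 : F) ≠ 0) {T : End F V} (h : T ^ 2 = 1) :
    fix T ⊔ fix (-T) = ⊤ := by
  simpa using Inv.eq_sup_invol h2 h (inv_top T)

theorem finrank_inf_invol (h2 : (2 : F) ≠ 0) {T : End F V} (hT : Isom P T) (h : T ^ 2 = 1)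
    {W : Submodule F V} (hW : Inv T W) (hN : ND P W) :
    finrank F (W ⊓ fix T : Submodule F V) + finrank F (W ⊓ fix (-T) : Submodule F V) =
      finrank F W := by
  rw [← (nd_inf_invol h2 hT h hW hN).1.finrank_sup
    (inf_le_right.trans ((fix_neg_le_perp h2 hT).trans (P.perp_anti inf_le_right))),
    Inv.eq_sup_invol h2 h hW]

theorem finrank_fix_invol (hP : P.Nondeg) (h2 : (2 : F) ≠ 0) {T : End F V} (hT : Isom P T)
    (h : T ^ 2 = 1) : finrank F (fix T) + finrank F (fix (-T)) = finrank F V := by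
  rw [← (nd_fix_invol hP h2 hT h).1.finrank_sup (fix_neg_le_perp h2 hT), fix_sup_fix_neg h2 h,
    finrank_top]

theorem perp_fix_invol (hP : P.Nondeg) (h2 : (2 : F) ≠ 0) {T : End F V} (hT : Isom P T)
    (h : T ^ 2 = 1) : P.perp (fix T) = fix (-T) := by
  refine (Submodule.eq_of_le_of_finrank_eq (fix_neg_le_perp h2 hT) ?_).symm
  have h1 := finrank_fix_invol hP h2 hT h
  have h3 := P.finrank_perp hP (fix T)
  omega

omit [FiniteDimensional F V] in
theorem inv_sup_invol {T : End F V} {A B : Submodule F V} (hA : A ≤ fix T) (hB : B ≤ fix (-T)) :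
    Inv T (A ⊔ B) := (inv_of_le_fix hA).sup (inv_neg_iff.1 (inv_of_le_fix hB))

/-- The involution with prescribed nondegenerate `-1`-eigenspace. -/
theorem exists_invol (hP : P.Nondeg) (h2 : (2 : F) ≠ 0) {A : Submodule F V} (hA : ND P A) :
    ∃ T : End F V, Isom P T ∧ T ^ 2 = 1 ∧ fix T = P.perp A ∧ fix (-T) = A := by
  obtain ⟨T, h1, h3, h4, -⟩ := exists_sum hP hA (isIso_neg (isom_one _)) (isom_one _)
  have hc := P.isCompl_perp hP hA
  have h5 : T ^ 2 = 1 := by
    ext v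
    obtain ⟨a, b, rfl⟩ := exists_add_of_isCompl hc v
    simp [sq, h3, h4]
  have h6 : P.perp A ≤ fix T := fun b hb => mem_fix.2 (h4 ⟨b, hb⟩)
  have h7 : A ≤ fix (-T) := fun a ha => mem_fix.2 (by simp [h3 ⟨a, ha⟩])
  have h8 := finrank_fix_invol hP h2 h1 h5
  have h9 := P.finrank_perp hP A
  have h10 := Submodule.finrank_mono h6
  have h11 := Submodule.finrank_mono h7
  exact ⟨T, h1, h5, (Submodule.eq_of_le_of_finrank_eq h6 (by omega)).symm,
    (Submodule.eq_of_le_of_finrank_eq h7 (by omega)).symm⟩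

end Invol

/-- Orthogonal permuted decompositions. -/
abbrev OPD (P : PQ σ V) (T : End F V) (a t : ℕ) (U : Submodule F V) : Prop :=
  PD (ND P) (fun A B => B ≤ P.perp A) T a t U

theorem OPD.sup {T : End F V} {a t t' : ℕ} {U U' : Submodule F V} (h : OPD P T a t U)
    (h' : OPD P T a t' U') (hU : ND P U) (hd : U' ≤ P.perp U) : OPD P T a (t + t') (U ⊔ U') :=
  PD.sup h h' (hU.disjoint hd) fun _ hA _ hB =>
    ⟨hB.trans (hd.trans (P.perp_anti hA)), P.le_perp_comm.1 (hB.trans (hd.trans (P.perp_anti hA)))⟩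

/-- Inductive construction of a permuted orthogonal decomposition. -/
theorem opd_of_step (hP : P.Nondeg) {T : End F V} (hT : Isom P T) (a : ℕ)
    (G : Submodule F V → ℕ → Prop)
    (hs : ∀ U t, ND P U → Inv T U → finrank F U = a * (t + 1) → G U (t + 1) →
      ∃ W s, 1 ≤ s ∧ s ≤ t + 1 ∧ W ≤ U ∧ ND P W ∧ Inv T W ∧ OPD P T a s W ∧
        G (U ⊓ P.perp W) (t + 1 - s)) (t : ℕ) :
    ∀ U, ND P U → Inv T U → finrank F U = a * t → G U t → OPD P T a t U := by
  induction t using Nat.strong_induction_on with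
  | _ t ih =>
  intro U h1 h2 h3 h4
  rcases t with _ | t
  · rw [Submodule.finrank_eq_zero.1 h3]
    exact PD.zero a
  obtain ⟨W, s, a1, a2, a3, a4, a5, a6, a7⟩ := hs U t h1 h2 h3 h4
  have h5 := h1.finrank_inf_perp hP a3
  have h6 := ih (t + 1 - s) (by omega) _ (a4.inf_perp hP h1 a3) (h2.inf (a5.perp hP hT))
    (by rw [a6.1, h3] at h5; rw [Nat.mul_sub]; omega) a7
  have h7 := a6.sup h6 a4 inf_le_right
  rwa [a4.sup_inf_perp hP a3, Nat.add_sub_cancel' a2] at h7

theorem OPD.single (hP : P.Nondeg) {T : End F V} (hT : Isom P T) {a : ℕ} {U : Submodule F V}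
    (h1 : ND P U) (h2 : Inv T U) (h3 : finrank F U = a) : OPD P T a 1 U :=
  PD.single h3 h1 (h2.map_eq (hT.injective hP))

theorem OPD.swap (hP : P.Nondeg) {T : End F V} (hT : Isom P T) {z : F} (hz : z ≠ 0)
    (h : T ^ 2 = z • 1) {A : Submodule F V} (h1 : ND P A) (h2 : A.map T ≤ P.perp A) :
    ND P (A ⊔ A.map T) ∧ Inv T (A ⊔ A.map T) ∧ OPD P T (finrank F A) 2 (A ⊔ A.map T) := by
  have h3 : (A.map T).map T = A := by
    rw [← Submodule.map_comp, ← End.mul_eq_comp, ← sq]; exact map_pow_eq_of_smul hz h A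
  have h4 : finrank F (A.map T) = finrank F A :=
    (LinearEquiv.finrank_eq (Submodule.equivMapOfInjective _ (hT.injective hP) A)).symm
  refine ⟨h1.sup (ND.map_iso hT h1) h2, ?_, PD.swap (hT.injective hP) h3
    (by rw [h1.finrank_sup h2, h4, mul_two]) h1 (ND.map_iso hT h1) h2 (P.le_perp_comm.1 h2)⟩
  rw [inv_iff_map_le, Submodule.map_sup, h3, sup_comm]

section SD

variable [Fintype F] {p r : ℕ} [hp : Fact p.Prime] [CharP F p] [hr : Fact r.Prime]
  {sd : Prop} {b c : ℕ}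

omit [FiniteDimensional F V] in
theorem exists_card_eq (h : SDData σ r sd b c) (hσ : ∀ x, σ (σ x) = x) {t : Multiset F[X]}
    (h1 : ∀ f ∈ t, f ∈ cyc F r) (h2 : t.map (tilde σ) = t) : ∃ k, b * Multiset.card t = c * k := by
  by_cases hs : sd
  · exact ⟨_, by rw [h.c_sd hs]⟩
  · obtain ⟨t₀, h3⟩ := exists_eq_add_map _ t h2 (fun f hf h4 => hs ((h.sd_iff f (h1 f hf)).1 h4))
      fun f hf => tilde_tilde hσ (mem_cyc.1 (h1 f hf)).2.1 (coeff_ne_of_mem_cyc (h1 f hf))
    refine ⟨Multiset.card t₀, ?_⟩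
    rw [h.c_nsd hs, h3, Multiset.card_add, Multiset.card_map]
    ring

/-- Splitting of an invariant nondegenerate subspace into its fixed and moved parts. -/
theorem nd_split (hP : P.Nondeg) (hrp : r ≠ p) {T : End F V} (hT : Isom P T) (hTr : T ^ r = 1)
    {W : Submodule F V} (hW : Inv T W) (hN : ND P W) :
    ND P (W ⊓ fix T) ∧ ND P (W ⊓ P.perp (fix T)) ∧ Inv T (W ⊓ P.perp (fix T)) ∧
      finrank F (W ⊓ fix T : Submodule F V) + finrank F (W ⊓ P.perp (fix T) : Submodule F V) =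
        finrank F W := by
  have h1 := hW.eq_sup_fix hrp hT hTr
  have h2 : W ⊓ P.perp (fix T) ≤ P.perp (W ⊓ fix T) := inf_le_right.trans (P.perp_anti inf_le_right)
  have h3 := (h1 ▸ hN : ND P (W ⊓ fix T ⊔ W ⊓ P.perp (fix T))).of_sup h2
  exact ⟨h3.1, h3.2, hW.inf ((inv_fix T).perp hP hT), by rw [← h3.1.finrank_sup h2, ← h1]⟩

end SD

end CfsgLib.Elus2
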