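import Mathlib
import Cfsg.Agent.Lib.Elus2.Gen
import Cfsg.Agent.Lib.MatConj.PrimeForm
import Cfsg.Agent.Lib.MatConj.FormUnip
import Cfsg.Agent.Lib.Symp.Order

/-!
Fixed subspaces of symplectic isometries of prime order.
-/

set_option autoImplicit false

namespace CfsgLib.Elus2

open Polynomial Module CfsgLib.MatConj CfsgLib.Forms CfsgLib.Elusive

variable {F : Type*} [Field F] {V : Type*} [AddCommGroup V] [Module F V]

section Arith

theorem c_dvd {i c j : ℕ} (hc : c = if Even i then i else 2 * i) (h : i ∣ 2 * j) : c ∣ 2 * j := by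
  split_ifs at hc with h1
  · rwa [hc]
  · rw [hc]
    exact Nat.mul_dvd_mul_left 2
      ((Nat.coprime_two_right.2 (Nat.not_even_iff_odd.1 h1)).dvd_of_dvd_mul_left h)

theorem c_even {i c : ℕ} (hc : c = if Even i then i else 2 * i) : Even c := by
  split_ifs at hc with h1
  · rwa [hc]
  · rw [hc]; exact even_two_mul i

/-- The prime-to-`q` part of the order of the symplectic group. -/
def spo (q m : ℕ) : ℕ := ∏ i ∈ Finset.range m, (q ^ (2 * (i + 1)) - 1)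

theorem spo_ne_zero {q : ℕ} (hq : 1 < q) (m : ℕ) : spo q m ≠ 0 :=
  Finset.prod_ne_zero_iff.2 fun i _ => Nat.sub_ne_zero_of_lt (Nat.one_lt_pow (by omega) hq)

theorem spo_add (q m k : ℕ) :
    spo q (m + k) = spo q m * ∏ i ∈ Finset.range k, (q ^ (2 * (m + i + 1)) - 1) :=
  Finset.prod_range_add _ _ _

theorem spo_succ (q m : ℕ) : spo q (m + 1) = spo q m * (q ^ (2 * (m + 1)) - 1) :=
  Finset.prod_range_succ _ _

theorem exists_of_dvd_prod_sp {r q m k : ℕ} (hr : r.Prime) (hq : 0 < q)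
    (h : r ∣ ∏ i ∈ Finset.range k, (q ^ (2 * (m + i + 1)) - 1)) :
    ∃ j, m < j ∧ j ≤ m + k ∧ orderOf (q : ZMod r) ∣ 2 * j := by
  obtain ⟨i, h1, h2⟩ := (Prime.dvd_finsetProd_iff hr.prime _).1 h
  rw [Finset.mem_range] at h1
  exact ⟨m + i + 1, by omega, by omega, (dvd_pow_sub_one_iff hq _).1 h2⟩

theorem mod_lt_of_exists {n k i c : ℕ} (hc : c = if Even i then i else 2 * i)
    (h : ∃ j, n - k < 2 * j ∧ 2 * j ≤ n ∧ i ∣ 2 * j) : n % c < k := by
  obtain ⟨j, h1, h2, h3⟩ := h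
  exact mod_lt_of_ord_dvd ⟨2 * j, h1, h2, c_dvd hc h3⟩

theorem spo_eq_glo_mul {q : ℕ} (hq : 0 < q) (m : ℕ) :
    spo q m = glo q m * ∏ i ∈ Finset.range m, (q ^ (i + 1) + 1) := by
  rw [spo, glo, ← Finset.prod_mul_distrib]
  refine Finset.prod_congr rfl fun i _ => ?_
  obtain ⟨a, ha⟩ : ∃ a, q ^ (i + 1) = a + 1 := ⟨q ^ (i + 1) - 1, by
    have := Nat.pow_pos (n := i + 1) hq; omega⟩
  rw [mul_comm 2, pow_mul, ha, Nat.add_sub_cancel]
  exact Nat.sub_eq_of_eq_add (by ring)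

end Arith

section SD

variable [Fintype F] {p r : ℕ} [hp : Fact p.Prime] [CharP F p] [hr : Fact r.Prime]

theorem sdData_id (hrp : r ≠ p) (h2 : r ≠ 2) {i c : ℕ}
    (hi : i = orderOf (Fintype.card F : ZMod r)) (hc : c = if Even i then i else 2 * i) :
    SDData (RingHom.id F) r (Even i) i c :=
  ⟨fun _ hf => good_of_mem_cyc hrp h2 hf, fun _ hf => by rw [tilde_id_eq_iff hrp h2 hf, hi], hi,
    fun h => by rw [hc, if_pos h], fun h => by rw [hc, if_neg h]⟩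

omit [Fintype F] hr in
theorem ssEd_eq_edOf (e : ℕ) (t : Multiset F[X]) : ssEd e t = edOf e t := by
  rw [ssEd, edOf, Multiset.map_replicate, add_comm]

theorem c_le_sub_one (hrp : r ≠ p) (h2 : r ≠ 2) {i c : ℕ}
    (hi : i = orderOf (Fintype.card F : ZMod r)) (hc : c = if Even i then i else 2 * i) :
    c ∣ r - 1 := by
  obtain ⟨j, hj⟩ := hr.out.even_sub_one h2
  rw [hj, ← two_mul]
  refine c_dvd hc ?_
  rw [two_mul, ← hj, hi]
  exact orderOf_dvd_sub_one (not_dvd_card hrp)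

theorem div_ord_pos (hrp : r ≠ p) : 0 < (r - 1) / orderOf (Fintype.card F : ZMod r) :=
  card_cyc (F := F) hrp ▸ card_cyc_pos hrp

omit [Fintype F] hr in
theorem two_ne_zero_of_ne (h : 2 ≠ p) : (2 : F) ≠ 0 := by
  have := cast_ne_zero (F := F) (r := 2) h
  exact_mod_cast this

omit hr in
theorem card_mod_four (h : 2 ≠ p) : Fintype.card F % 4 = 1 ∨ Fintype.card F % 4 = 3 := by
  have := not_dvd_card (F := F) h
  omega

omit hr in
theorem isSquare_neg_one_iff' (h : 2 ≠ p) : IsSquare (-1 : F) ↔ Fintype.card F % 4 = 1 := by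
  have := card_mod_four (F := F) h
  exact isSquare_neg_one_iff (by omega)

omit hr in
theorem not_sq_neg_one (h : 2 ≠ p) (h3 : Fintype.card F % 4 ≠ 1) (b : F) : b ^ 2 ≠ -1 :=
  fun hb => h3 ((isSquare_neg_one_iff' h).1 ⟨b, by rw [← hb, sq]⟩)

end SD

variable {P : PQ (RingHom.id F) V}

section Alt

variable (hΛ : P.Λ = ⊤)
include hΛ

theorem alt_sing (x : V) : P.Sing x := by
  unfold PQ.Sing; rw [hΛ]; trivial

theorem alt_self (x : V) : P.B x x = 0 := (alt_sing hΛ x).self_eq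

theorem alt_eps : P.ε = -1 := by
  have := P.Λ_le 1 (by rw [hΛ]; trivial)
  simp only [map_one, mul_one] at this
  linear_combination this

theorem alt_symm (x y : V) : P.B y x = -P.B x y := by
  rw [P.symm, alt_eps hΛ]; simp

theorem alt_ts {U : Submodule F V} (h : U ≤ P.perp U) : P.TS U := ⟨fun x _ => alt_sing hΛ x, h⟩

theorem alt_ts_iff {U : Submodule F V} : P.TS U ↔ ∀ u ∈ U, ∀ v ∈ U, P.B u v = 0 :=
  ⟨fun h _ hu _ hv => h.B_eq hu hv, fun h => alt_ts hΛ fun v hv u hu => h u hu v hv⟩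

theorem alt_isIso {g : V → V} (h : ∀ x y, P.B (g x) (g y) = P.B x y) : P.IsIso g :=
  ⟨h, fun _ => by rw [hΛ]; trivial⟩

theorem alt_badData (h2 : (2 : F) ≠ 0) : BadData P Odd :=
  Or.inr ⟨rfl, h2, fun k => by
    rw [alt_eps hΛ]
    rcases Nat.even_or_odd k with h | h
    · simp [h.neg_one_pow, h.add_one]
    · rw [h.neg_one_pow]
      refine iff_of_false (Nat.not_odd_iff_even.2 h.add_one) fun h3 => h2 ?_
      linear_combination h3⟩

theorem alt_nd_pair {x y : V} (h : P.B y x ≠ 0) : ND P (Submodule.span F {x, y}) ∧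
    finrank F (Submodule.span F {x, y}) = 2 := by
  have h1 : P.B ((P.B y x)⁻¹ • y) x = 1 := by
    rw [P.B_smul_left]; exact inv_mul_cancel₀ h
  have h2 : Submodule.span F {x, (P.B y x)⁻¹ • y} = Submodule.span F {x, y} := by
    rw [Submodule.span_insert, Submodule.span_insert,
      Submodule.span_singleton_smul_eq (IsUnit.mk0 _ (inv_ne_zero h))]
  rw [← h2]
  exact ⟨P.disjoint_perp_pair (alt_self hΛ _) (alt_self hΛ _) h1,
    P.finrank_span_pair (alt_self hΛ _) h1⟩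

theorem alt_exists_plane {Y : Submodule F V} (hY : ND P Y) (h0 : Y ≠ ⊥) :
    ∃ A, A ≤ Y ∧ ND P A ∧ finrank F A = 2 := by
  obtain ⟨y, hy, hy0⟩ := Submodule.exists_mem_ne_zero_of_ne_bot h0
  obtain ⟨x, hx, h⟩ := nd_iff'.1 hY y hy hy0
  refine ⟨_, Submodule.span_le.2 ?_, alt_nd_pair hΛ h⟩
  rintro _ (rfl | rfl)
  exacts [hx, hy]

variable [FiniteDimensional F V]

theorem alt_multiples (hP : P.Nondeg) {U : Submodule F V} (hU : ND P U) :
    ∃ k, finrank F U = 2 * k ∧ ∀ j ≤ k, ∃ W, W ≤ U ∧ ND P W ∧ finrank F W = 2 * j := by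
  obtain ⟨k, h1, h2⟩ := multiples_of_blocks hP (isom_one P) hU (fun _ h => h) two_ne_zero
    fun Y _ h2 _ h4 => by
      obtain ⟨A, a1, a2, a3⟩ := alt_exists_plane hΛ h2 h4
      exact ⟨A, a1, a2, fun _ h => h, a3⟩
  refine ⟨k, h1, fun j hj => ?_⟩
  obtain ⟨W, a1, a2, -, a3⟩ := h2 j hj
  exact ⟨W, a1, a2, a3⟩

theorem alt_even (hP : P.Nondeg) {U : Submodule F V} (hU : ND P U) : Even (finrank F U) := by
  obtain ⟨k, h, -⟩ := alt_multiples hΛ hP hU
  exact h ▸ even_two_mul k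

theorem alt_exists_nd (hP : P.Nondeg) {U : Submodule F V} (hU : ND P U) {m : ℕ} (hm : Even m)
    (h : m ≤ finrank F U) : ∃ W, W ≤ U ∧ ND P W ∧ finrank F W = m := by
  obtain ⟨k, h1, h2⟩ := alt_multiples hΛ hP hU
  obtain ⟨j, rfl⟩ := hm
  rw [← two_mul] at h ⊢
  exact h2 j (by omega)

theorem alt_plus (hP : P.Nondeg) {U : Submodule F V} (hU : ND P U) : Plus P U := by
  refine nd_induction hP (isom_one P) hU (fun _ h => h) (fun A _ => Plus P A) (Plus P) ?_ plus_bot ?_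
  · intro Y _ h2 _ h4
    obtain ⟨A, a1, a2, a3⟩ := alt_exists_plane hΛ h2 h4
    have h0 : A ≠ ⊥ := fun h => by rw [h, finrank_bot] at a3; exact two_ne_zero a3.symm
    obtain ⟨y, hy, hy0⟩ := Submodule.exists_mem_ne_zero_of_ne_bot h0
    exact ⟨A, a1, h0, a2, fun _ h => h, Submodule.span F {y},
      (Submodule.span_singleton_le_iff_mem _ _).2 hy, by rw [finrank_span_singleton hy0, a3],
      P.ts_span_singleton (alt_sing hΛ y)⟩
  · intro A Y _ a1 _ a3 _ _ b3 b4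
    exact a3.sup b4 (a1.disjoint b3) b3

theorem alt_exists_ts (hP : P.Nondeg) {U : Submodule F V} (hU : ND P U) {e : ℕ}
    (h : 2 * e ≤ finrank F U) : ∃ W, W ≤ U ∧ P.TS W ∧ finrank F W = e := by
  obtain ⟨W, h1, h2, h3⟩ := alt_plus hΛ hP hU
  obtain ⟨W', h4, h5⟩ := exists_le_finrank_eq (W := W) (m := e) (by omega)
  exact ⟨W', h4.trans h1, h3.mono h4, h5⟩

theorem alt_exists_isIso₂ {V' : Type*} [AddCommGroup V'] [Module F V'] [FiniteDimensional F V']
    {P' : PQ (RingHom.id F) V'} (hΛ' : P'.Λ = ⊤) (hP : P.Nondeg) (hP' : P'.Nondeg)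
    (h : finrank F V = finrank F V') : ∃ e : V ≃ₗ[F] V', P.IsIso₂ P' e := by
  obtain ⟨m, hm⟩ := alt_even hΛ hP (nd_top hP)
  rw [finrank_top, ← two_mul] at hm
  obtain ⟨e, he⟩ := P.exists_isIso₂_spPQ hP hΛ hm
  obtain ⟨e', he'⟩ := P'.exists_isIso₂_spPQ hP' hΛ' (h ▸ hm)
  refine ⟨e.trans e'.symm, hΛ'.trans hΛ.symm, fun x y => ?_, fun _ => by rw [hΛ]; trivial⟩
  rw [LinearEquiv.trans_apply, LinearEquiv.trans_apply, he'.symm.B_eq, he.B_eq]

theorem alt_nd_trans (hP : P.Nondeg) {U W : Submodule F V} (hU : ND P U) (hW : ND P W)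
    (h : finrank F U = finrank F W) : ∃ g : V ≃ₗ[F] V, P.IsIso g ∧ U.map g.toLinearMap = W := by
  obtain ⟨e, he⟩ := alt_exists_isIso₂ (P := P.restrict U) (P' := P.restrict W) hΛ hΛ hU.nondeg
    hW.nondeg h
  obtain ⟨g, h1, -, h2⟩ := exists_map_eq_of_isIso₂ hP e he
  exact ⟨g, h1, h2⟩

theorem alt_exists_isom (hP : P.Nondeg) {s : Multiset (F[X] × ℕ)} (hs : AltReal s)
    (h : mdeg s = finrank F V) : ∃ T, Isom P T ∧ ed T = s := by
  obtain ⟨m, hm⟩ := alt_even hΛ hP (nd_top hP)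
  rw [finrank_top, ← two_mul] at hm
  obtain ⟨e, he⟩ := P.exists_isIso₂_spPQ hP hΛ hm
  obtain ⟨A, hA⟩ := hs.exists_sp (m := m) (h.trans hm)
  obtain ⟨T, h1, h2⟩ := exists_isom_of_isIso₂ he.symm (T := Matrix.toLin' A.1)
    ((spPQ_isIso _ _ _).2 ((mem_sp_iff _).1 A.2))
  exact ⟨T, h1, h2.trans hA⟩

theorem alt_exists_neg_one (hP : P.Nondeg) : ∃ T, Isom P T ∧ T ^ 2 = -1 := by
  obtain ⟨m, hm⟩ := alt_even hΛ hP (nd_top hP)
  rw [finrank_top, ← two_mul] at hm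
  obtain ⟨e, he⟩ := P.exists_isIso₂_spPQ hP hΛ hm
  refine ⟨_, Isom.conj he.symm (T := Matrix.toLin' (Matrix.J (Fin m) F))
    ((spPQ_isIso _ _ _).2 ((mem_sp_iff _).1 (SymplecticGroup.J_mem _ _))), ?_⟩
  ext v
  simp [sq, LinearEquiv.conj_apply, Matrix.mulVec_mulVec, Matrix.J_squared, Matrix.neg_mulVec]

theorem alt_card_isom [Fintype F] (hP : P.Nondeg) {m : ℕ} (hm : finrank F V = 2 * m) :
    Nat.card P.isom = Fintype.card F ^ (m ^ 2) * spo (Fintype.card F) m := by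
  obtain ⟨e, he⟩ := P.exists_isIso₂_spPQ hP hΛ hm
  rw [Nat.card_congr (PQ.isomCongr he).toEquiv, ← Nat.card_congr (spEquiv (Fin m) F).toEquiv,
    CfsgLib.Symp.card_sp]
  rfl

omit [FiniteDimensional F V] in
/-- An isometry with square `-1` in odd characteristic has an invariant nondegenerate plane
spanned by a vector and its image. -/
theorem alt_block_neg_one (h2 : (2 : F) ≠ 0) {T : End F V} (hT : Isom P T) (h : T ^ 2 = -1)
    {Y : Submodule F V} (hY : ND P Y) (hI : Inv T Y) (h0 : Y ≠ ⊥) :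
    ∃ v ∈ Y, v ≠ 0 ∧ ND P (Submodule.span F {v, T v}) ∧
      finrank F (Submodule.span F {v, T v}) = 2 ∧ Inv T (Submodule.span F {v, T v}) := by
  have h1 : ∀ v, T (T v) = -v := fun v => by
    rw [sq_apply (z := -1) (by rw [h, neg_smul, one_smul]), neg_smul, one_smul]
  have : ∃ v ∈ Y, P.B (T v) v ≠ 0 := by
    by_contra hc
    push Not at hc
    obtain ⟨y, hy, hy0⟩ := Submodule.exists_mem_ne_zero_of_ne_bot h0
    obtain ⟨x, hx, h3⟩ := nd_iff'.1 hY y hy hy0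
    have h4 := hc (y + T x) (Y.add_mem hy (hI x hx))
    have h5 := hT.B_eq y x
    rw [map_add T, h1, P.B_add_left, P.B_add_right, P.B_add_right, hc y hy, h5, map_neg,
      LinearMap.neg_apply, LinearMap.neg_apply, alt_symm hΛ y x, alt_symm hΛ (T x) x, hc x hx] at h4
    exact h3 ((mul_eq_zero.1 (show 2 * P.B y x = 0 by linear_combination h4)).resolve_left h2)
  obtain ⟨v, hv, h3⟩ := this
  refine ⟨v, hv, by rintro rfl; simp at h3, (alt_nd_pair hΛ h3).1, (alt_nd_pair hΛ h3).2, ?_⟩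
  rw [inv_iff_map_le, Submodule.map_span, Submodule.span_le]
  rintro _ ⟨_, rfl | rfl, rfl⟩
  · exact Submodule.subset_span (by simp)
  · rw [h1]; exact Submodule.neg_mem _ (Submodule.subset_span (by simp))

/-- In odd characteristic an involution modulo scalars has invariant nondegenerate planes. -/
theorem alt_block_two (hP : P.Nondeg) (h2 : (2 : F) ≠ 0) {T : End F V} (hT : Isom P T)
    (h : IsPE 2 T) {Y : Submodule F V} (hY : ND P Y) (hI : Inv T Y) (h0 : Y ≠ ⊥) :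
    ∃ A, A ≤ Y ∧ ND P A ∧ Inv T A ∧ finrank F A = 2 := by
  rcases isPE_cases hP hT h with h | h
  · obtain ⟨h3, h4⟩ := nd_inf_invol h2 hT h hI hY
    by_cases h5 : Y ⊓ fix T = ⊥
    · have h6 := Inv.eq_sup_invol h2 h hI
      rw [h5, bot_sup_eq] at h6
      obtain ⟨A, a1, a2, a3⟩ := alt_exists_plane hΛ hY h0
      exact ⟨A, a1, a2, inv_neg_iff.1 (inv_of_le_fix (a1.trans (h6.ge.trans inf_le_right))), a3⟩
    · obtain ⟨A, a1, a2, a3⟩ := alt_exists_plane hΛ h3 h5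
      exact ⟨A, a1.trans inf_le_left, a2, inv_of_le_fix (a1.trans inf_le_right), a3⟩
  · obtain ⟨v, hv, -, a1, a2, a3⟩ := alt_block_neg_one hΛ h2 hT h hY hI h0
    refine ⟨_, Submodule.span_le.2 ?_, a1, a3, a2⟩
    rintro _ (rfl | rfl)
    exacts [hv, hI v hv]

theorem alt_nd_two (hP : P.Nondeg) (h2 : (2 : F) ≠ 0) {T : End F V} (hT : Isom P T)
    (h : IsPE 2 T) {U : Submodule F V} (hU : ND P U) (hI : Inv T U) {m : ℕ} (hm : Even m)
    (hle : m ≤ finrank F U) : ∃ W, W ≤ U ∧ ND P W ∧ Inv T W ∧ finrank F W = m := by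
  obtain ⟨k, h3, h4⟩ := multiples_of_blocks hP hT hU hI two_ne_zero
    fun Y _ a2 a3 a4 => alt_block_two hΛ hP h2 hT h a2 a3 a4
  obtain ⟨j, rfl⟩ := hm
  rw [← two_mul] at hle ⊢
  exact h4 j (by omega)

section Fin

variable [Fintype F] {p r : ℕ} [hp : Fact p.Prime] [CharP F p] [hr : Fact r.Prime]

omit hr in
theorem alt_not_dvd_card_ts (hP : P.Nondeg) {m : ℕ} (hm : 2 * m ≤ finrank F V) :
    ¬ p ∣ Nat.card {U : Submodule F V // finrank F U = m ∧ P.TS U} := by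
  refine not_dvd_card_ts P m (fun U W _ h2 h3 h4 => ?_) fun U W h1 h2 h3 => h1.exists_map_eq hP h2 h3
  rw [Nat.card_congr (Equiv.subtypeUnivEquiv fun w : W => alt_sing hΛ (w : V))]
  refine char_dvd_card_submodule fun h => ?_
  have h5 := finrank_sup_of_disjoint h3
  have h6 := P.finrank_perp hP U
  rw [h4] at h5
  omega

theorem alt_mod_lt (hP : P.Nondeg) (hrp : r ≠ p) {i c : ℕ}
    (hi : i = orderOf (Fintype.card F : ZMod r)) (hc : c = if Even i then i else 2 * i)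
    {A : Submodule F V} (hA : ND P A) {N : ℕ} (hN : r ∣ N)
    (h : N * Nat.card (P.restrict (P.perp A)).isom ∣ Nat.card P.isom) :
    finrank F V % c < finrank F A := by
  obtain ⟨a, ha⟩ := alt_even hΛ hP hA
  obtain ⟨b, hb⟩ := alt_even hΛ hP (hA.perp hP)
  have h1 := P.finrank_perp hP A
  rw [alt_card_isom (P := P.restrict (P.perp A)) hΛ (hA.perp hP).nondeg (m := b) (by omega),
    alt_card_isom hΛ hP (m := b + a) (by omega), spo_add] at h
  obtain ⟨j, h2, h3, h4⟩ := exists_of_dvd_prod_sp hr.out Fintype.card_pos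
    (prime_dvd_of_mul_dvd hr.out (not_dvd_card hrp) (spo_ne_zero Fintype.one_lt_card _) h hN)
  exact mod_lt_of_exists hc ⟨j, by omega, by omega, hi ▸ h4⟩

theorem alt_exists_ss (hP : P.Nondeg) (hrp : r ≠ p) (h2 : r ≠ 2) {e : ℕ} {t : Multiset F[X]}
    (h1 : ∀ f ∈ t, f ∈ cyc F r) (h3 : t.map (tilde (RingHom.id F)) = t) (he : Even e)
    (h : e + orderOf (Fintype.card F : ZMod r) * Multiset.card t = finrank F V) :
    ∃ T, Isom P T ∧ ed T = ssEd e t := by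
  refine alt_exists_isom hΛ hP ?_ (by rw [mdeg_ssEd hrp e h1, h])
  obtain ⟨k, rfl⟩ := he
  rw [← two_mul, ssEd_eq_edOf]
  exact altReal_edOf hr.out hrp h2 (fun f hf => mem_cycFac.2 (mem_cyc.1 (h1 f hf))) h3 k

theorem alt_exists_ss' (hP : P.Nondeg) (hrp : r ≠ p) (h2 : r ≠ 2) {i c : ℕ}
    (hi : i = orderOf (Fintype.card F : ZMod r)) (hc : c = if Even i then i else 2 * i)
    (k : ℕ) (t : Multiset F[X]) (h0 : c * k ≤ finrank F V)
    (h1 : ∀ f ∈ t, f ∈ cyc F r) (h3 : t.map (tilde (RingHom.id F)) = t)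
    (h : i * Multiset.card t = c * k) :
    ∃ T, Isom P T ∧ ed T = ssEd (finrank F V - c * k) t := by
  refine alt_exists_ss hΛ hP hrp h2 h1 h3 ?_ (by rw [← hi, h]; omega)
  have := alt_even hΛ hP (nd_top hP)
  rw [finrank_top] at this
  exact (Nat.even_sub h0).2 (iff_of_true this ((c_even hc).mul_right k))

omit [Fintype F] hr in
theorem alt_exists_unip (hP : P.Nondeg) {μ : Multiset ℕ} (h1 : ∀ a ∈ μ, 0 < a)
    (h2 : ∀ a, Odd a → Even (μ.count a)) (h3 : μ.sum = finrank F V) :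
    ∃ T, Isom P T ∧ ed T = unEd μ :=
  alt_exists_isom hΛ hP (altReal_pm (Or.inl rfl) h1 h2) (by rw [← h3]; exact mdeg_unEd μ)

end Fin

end Alt

theorem spPQ_Λ (l : Type*) [Fintype l] [DecidableEq l] (F : Type*) [Field F] :
    (spPQ l F).Λ = ⊤ := rfl

theorem finrank_sum_fun (F : Type*) [Field F] (d : ℕ) : finrank F (Fin d ⊕ Fin d → F) = 2 * d := by
  simp [two_mul]

theorem forall_sp_iff {l : Type*} [Fintype l] [DecidableEq l] (r : ℕ)
    (Φ : End F (l ⊕ l → F) → Prop) :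
    (∀ x : Matrix.symplecticGroup l F,
      (∃ c : F, ((x ^ r : Matrix.symplecticGroup l F) : Matrix (l ⊕ l) (l ⊕ l) F) = c • 1) →
      (∀ c : F, (x : Matrix (l ⊕ l) (l ⊕ l) F) ≠ c • 1) →
        Φ (Matrix.toLin' (x : Matrix (l ⊕ l) (l ⊕ l) F))) ↔
    ∀ T : End F (l ⊕ l → F), Isom (spPQ l F) T → IsPE r T → Φ T := by
  constructor
  · intro h T hd hT
    obtain ⟨A, rfl⟩ := Matrix.toLin'.surjective T
    rw [isPE_toLin'_iff] at hT
    exact h ⟨A, (mem_sp_iff _).2 hd.B_eq⟩ hT.1 hT.2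
  · intro h x h1 h2
    exact h _ ((spPQ_isIso _ _ _).2 ((mem_sp_iff _).1 x.2)) ((isPE_toLin'_iff _ r).2 ⟨h1, h2⟩)

theorem sp_ts_iff {d : ℕ} {W : Submodule F (Fin d ⊕ Fin d → F)} :
    (∀ u ∈ W, ∀ v ∈ W, Cfsg.sympForm d F u v = 0) ↔ (spPQ (Fin d) F).TS W := by
  simp only [alt_ts_iff (spPQ_Λ _ _), spPQ_B, spB_eq_sympForm]

theorem sp_nd_iff {d : ℕ} {W : Submodule F (Fin d ⊕ Fin d → F)} :
    (∀ u ∈ W, u ≠ 0 → ∃ v ∈ W, Cfsg.sympForm d F u v ≠ 0) ↔ ND (spPQ (Fin d) F) W := by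
  simp only [nd_iff', spPQ_B, spB_eq_sympForm]

theorem sp_perp_iff {d : ℕ} {W W' : Submodule F (Fin d ⊕ Fin d → F)} :
    (∀ u ∈ W, ∀ v ∈ W', Cfsg.sympForm d F u v = 0) ↔ W' ≤ (spPQ (Fin d) F).perp W := by
  simp only [← spB_eq_sympForm]
  exact ⟨fun h v hv u hu => h u hu v hv, fun h u hu v hv => h hv u hu⟩

end CfsgLib.Elus2
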