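import Mathlib
import Cfsg.Agent.Lib.Elus2.Sp

/-!
Involutory isometries of alternating forms in characteristic two, and arithmetic lemmas.
-/

set_option autoImplicit false

namespace CfsgLib.Elus2

open Polynomial Module CfsgLib.MatConj CfsgLib.Forms CfsgLib.Elusive

variable {F : Type*} [Field F] {V : Type*} [AddCommGroup V] [Module F V]
  {P : PQ (RingHom.id F) V}

theorem span_pair_le {U : Submodule F V} {x y : V} (hx : x ∈ U) (hy : y ∈ U) :
    Submodule.span F {x, y} ≤ U := by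
  rw [Submodule.span_le]
  rintro _ (rfl | rfl)
  exacts [hx, hy]

theorem inv_span_pair {T : End F V} {x y : V} (hx : T x ∈ Submodule.span F {x, y})
    (hy : T y ∈ Submodule.span F {x, y}) : Inv T (Submodule.span F {x, y}) := by
  rw [inv_iff_map_le, Submodule.map_span, Set.image_pair]
  exact span_pair_le hx hy

theorem mem_span_pair_left (x y : V) : x ∈ Submodule.span F {x, y} := Submodule.subset_span (by simp)

theorem mem_span_pair_right (x y : V) : y ∈ Submodule.span F {x, y} :=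
  Submodule.subset_span (by simp)

section Two

variable [CharP F 2] (hΛ : P.Λ = ⊤)
include hΛ

theorem alt_block_char_two {T : End F V} (hT : Isom P T) (h : T ^ 2 = 1) {Y : Submodule F V}
    (hY : ND P Y) (hI : Inv T Y) (h0 : Y ≠ ⊥) :
    (∃ A, A ≤ Y ∧ ND P A ∧ Inv T A ∧ finrank F A = 2 ∧
      ((∃ v, P.B v (T v) ≠ 0) ∨ A ≤ fix T)) ∨
    ∃ B, B ≤ Y ∧ ND P B ∧ finrank F B = 2 ∧ B.map T ≤ P.perp B := by
  have h1 : ∀ v, T (T v) = v := fun v => by
    rw [sq_apply (z := 1) (by rw [h, one_smul]), one_smul]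
  have h2 : (2 : F) = 0 := CharTwo.two_eq_zero
  by_cases h3 : ∃ v ∈ Y, P.B v (T v) ≠ 0
  · obtain ⟨v, hv, h3⟩ := h3
    refine Or.inl ⟨_, span_pair_le (hI v hv) hv, (alt_nd_pair hΛ h3).1, inv_span_pair ?_
      (mem_span_pair_left _ _), (alt_nd_pair hΛ h3).2, Or.inl ⟨v, h3⟩⟩
    rw [h1]; exact mem_span_pair_right _ _
  push Not at h3
  by_cases h4 : Y ≤ fix T
  · obtain ⟨A, a1, a2, a3⟩ := alt_exists_plane hΛ hY h0
    exact Or.inl ⟨A, a1, a2, inv_of_le_fix (a1.trans h4), a3, Or.inr (a1.trans h4)⟩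
  right
  obtain ⟨w, hw, h5⟩ := SetLike.not_le_iff_exists.1 h4
  rw [mem_fix, ← sub_eq_zero] at h5
  obtain ⟨v, hv, h6⟩ := nd_iff'.1 hY _ (Y.sub_mem (hI w hw) hw) h5
  set s := P.B (T w - w) v with hs
  set y := w + (1 + s⁻¹ * P.B w v) • (T w - w) with hy
  have hyY : y ∈ Y := Y.add_mem hw (Y.smul_mem _ (Y.sub_mem (hI w hw) hw))
  have h7 : P.B y v = s := by
    rw [hy, P.B_add_left, P.B_smul_left, ← hs, RingHom.id_apply]
    field_simp
    linear_combination (P.B w v) * h2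
  have h8 : P.B (T y) v = 0 := by
    have : T y = y + (T w - w) - (2 * (1 + s⁻¹ * P.B w v)) • (T w - w) := by
      rw [hy, map_add, map_smul, map_sub, h1]; module
    rw [this, h2, zero_mul, zero_smul, sub_zero, P.B_add_left, h7, ← hs]
    linear_combination s * h2
  refine ⟨_, span_pair_le hv hyY, (alt_nd_pair hΛ (h7 ▸ h6)).1, (alt_nd_pair hΛ (h7 ▸ h6)).2, ?_⟩
  rw [Submodule.map_span, Set.image_pair]
  refine span_pair_le ?_ ?_ <;> rw [P.mem_perp_span]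
  · rintro _ (rfl | rfl)
    · exact h3 _ hv
    · rw [← hT.B_eq, h1, h8]
  · rintro _ (rfl | rfl)
    · exact P.B_eq_zero_comm.1 h8
    · exact h3 _ hyY

variable [FiniteDimensional F V]

theorem alt_struct_two (hP : P.Nondeg) {T : End F V} (hT : Isom P T) (h : T ^ 2 = 1)
    {U : Submodule F V} (hU : ND P U) (hI : Inv T U) :
    ∃ α β, finrank F U = 2 * α + 4 * β ∧
      (∀ j ≤ α, ∀ l ≤ β, ∃ W, W ≤ U ∧ ND P W ∧ Inv T W ∧ finrank F W = 2 * j + 4 * l) ∧
      (∃ B, B ≤ U ∧ ND P B ∧ finrank F B = 2 * β ∧ B.map T ≤ P.perp B) ∧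
      ((∀ v, P.B v (T v) = 0) → fix T ≤ P.perp (fix T) → α = 0) := by
  refine nd_induction hP hT hU hI (fun A _ => (finrank F A = 2 ∧
      ((∃ v, P.B v (T v) ≠ 0) ∨ A ≤ fix T)) ∨ ∃ B, A = B ⊔ B.map T ∧ ND P B ∧ finrank F B = 2 ∧
        B.map T ≤ P.perp B ∧ finrank F A = 4)
    (fun U => ∃ α β, finrank F U = 2 * α + 4 * β ∧
      (∀ j ≤ α, ∀ l ≤ β, ∃ W, W ≤ U ∧ ND P W ∧ Inv T W ∧ finrank F W = 2 * j + 4 * l) ∧
      (∃ B, B ≤ U ∧ ND P B ∧ finrank F B = 2 * β ∧ B.map T ≤ P.perp B) ∧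
      ((∀ v, P.B v (T v) = 0) → fix T ≤ P.perp (fix T) → α = 0)) ?_ ?_ ?_
  · intro Y _ h2 h3 h4
    rcases alt_block_char_two hΛ hT h h2 h3 h4 with ⟨A, a1, a2, a3, a4, a5⟩ | ⟨B, a1, a2, a3, a4⟩
    · exact ⟨A, a1, fun h => by rw [h, finrank_bot] at a4; exact two_ne_zero a4.symm, a2, a3,
        Or.inl ⟨a4, a5⟩⟩
    · obtain ⟨b1, b2, b3⟩ := OPD.swap hP hT one_ne_zero (by rw [h, one_smul]) a2 a4
      have b4 := b3.1
      rw [a3] at b4
      exact ⟨_, sup_le a1 ((Submodule.map_mono a1).trans (inv_iff_map_le.1 h3)),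
        fun h => by rw [h, finrank_bot] at b4; omega, b1, b2, Or.inr ⟨B, rfl, a2, a3, a4, b4⟩⟩
  · refine ⟨0, 0, by simp, fun j hj l hl => ⟨⊥, le_rfl, nd_bot, inv_bot T, ?_⟩,
      ⟨⊥, le_rfl, nd_bot, by simp, by simp⟩, fun _ _ => rfl⟩
    simp [Nat.le_zero.1 hj, Nat.le_zero.1 hl]
  · rintro A Y - a1 a2 a3 b1 b2 b3 ⟨α, β, c1, c2, ⟨B, c3, c4, c5, c6⟩, c7⟩
    have hs : ∀ W, W ≤ Y → ND P W → Inv T W → A ⊔ W ≤ A ⊔ Y ∧ ND P (A ⊔ W) ∧ Inv T (A ⊔ W) ∧
        finrank F (A ⊔ W : Submodule F V) = finrank F A + finrank F W := fun W d1 d2 d3 =>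
      ⟨sup_le_sup_left d1 _, a1.sup d2 (d1.trans b3), a2.sup d3, a1.finrank_sup (d1.trans b3)⟩
    rcases a3 with ⟨a3, a4⟩ | ⟨B₀, a3, a4, a5, a6, a7⟩
    · refine ⟨α + 1, β, by rw [a1.finrank_sup b3, a3, c1]; ring, fun j hj l hl => ?_,
        ⟨B, c3.trans le_sup_right, c4, c5, c6⟩, fun d1 d2 => ?_⟩
      · rcases hj.eq_or_lt with rfl | hj
        · obtain ⟨W, d1, d2, d3, d4⟩ := c2 α le_rfl l hl
          obtain ⟨e1, e2, e3, e4⟩ := hs W d1 d2 d3
          exact ⟨_, e1, e2, e3, by rw [e4, a3, d4]; ring⟩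
        · obtain ⟨W, d1, d2⟩ := c2 j (by omega) l hl
          exact ⟨W, d1.trans le_sup_right, d2⟩
      · exfalso
        rcases a4 with ⟨v, hv⟩ | a4
        · exact hv (d1 v)
        · have := a1.eq_bot_of_le (a4.trans (d2.trans (P.perp_anti a4)))
          rw [this, finrank_bot] at a3
          exact two_ne_zero a3.symm
    · have h1 : B₀ ≤ A := a3 ▸ le_sup_left
      have h2 : B₀.map T ≤ A := a3 ▸ le_sup_right
      have h3 : Y ≤ P.perp B₀ := b3.trans (P.perp_anti h1)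
      refine ⟨α, β + 1, by rw [a1.finrank_sup b3, a7, c1]; ring, fun j hj l hl => ?_,
        ⟨B₀ ⊔ B, sup_le_sup h1 c3, a4.sup c4 (c3.trans h3),
          by rw [a4.finrank_sup (c3.trans h3), a5, c5]; ring, ?_⟩, c7⟩
      · rcases hl.eq_or_lt with rfl | hl
        · obtain ⟨W, d1, d2, d3, d4⟩ := c2 j hj β le_rfl
          obtain ⟨e1, e2, e3, e4⟩ := hs W d1 d2 d3
          exact ⟨_, e1, e2, e3, by rw [e4, a7, d4]; ring⟩
        · obtain ⟨W, d1, d2⟩ := c2 j hj l (by omega)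
          exact ⟨W, d1.trans le_sup_right, d2⟩
      · rw [Submodule.map_sup, P.perp_sup]
        exact sup_le (le_inf a6 (h2.trans (P.le_perp_comm.1 (c3.trans b3))))
          (le_inf (((Submodule.map_mono c3).trans (inv_iff_map_le.1 b2)).trans h3) c6)

omit [CharP F 2] hΛ [FiniteDimensional F V] in
theorem swap_facts [CharP F 2] (hself : ∀ x, P.B x x = 0) {A B : Submodule F V} (hc : IsCompl A B)
    (hAB : B ≤ P.perp A) {T : End F V} (hT : Isom P T) (h : T ^ 2 = 1)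
    (h1 : ∀ a ∈ A, T a ∈ B) (h2 : ∀ b ∈ B, T b ∈ A) :
    (∀ v, P.B v (T v) = 0) ∧ (∀ v ∈ fix T, ∃ a ∈ A, v = a + T a) ∧ fix T ≤ P.perp (fix T) := by
  have h3 : ∀ v, T (T v) = v := fun v => by
    rw [sq_apply (z := 1) (by rw [h, one_smul]), one_smul]
  have o1 : ∀ a ∈ A, ∀ b ∈ B, P.B a b = 0 := fun a ha b hb => hAB hb a ha
  have o2 : ∀ a ∈ A, ∀ b ∈ B, P.B b a = 0 := fun a ha b hb => P.B_eq_zero_comm.1 (o1 a ha b hb)
  have hs : ∀ x y, P.B x y + P.B y x = 0 := fun x y => by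
    have := hself (x + y)
    rw [P.B_add_left, P.B_add_right, P.B_add_right, hself, hself] at this
    linear_combination this
  have h4 : ∀ v ∈ fix T, ∃ a ∈ A, v = a + T a := by
    intro v hv
    obtain ⟨a, b, rfl⟩ := exists_add_of_isCompl hc v
    rw [mem_fix, map_add] at hv
    refine ⟨a, a.2, ?_⟩
    have : (b : V) - T a = T b - a := by
      rw [sub_eq_sub_iff_add_eq_add, add_comm, ← hv, add_comm]
    have h5 : (b : V) - T a ∈ A ⊓ B :=
      ⟨this ▸ A.sub_mem (h2 b b.2) a.2, B.sub_mem b.2 (h1 a a.2)⟩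
    rw [hc.inf_eq_bot, Submodule.mem_bot, sub_eq_zero] at h5
    rw [h5]
  refine ⟨fun v => ?_, h4, fun v hv w hw => ?_⟩
  · obtain ⟨a, b, rfl⟩ := exists_add_of_isCompl hc v
    rw [map_add T, P.B_add_left, P.B_add_right, P.B_add_right, o1 a a.2 _ (h1 a a.2),
      o2 _ (h2 b b.2) b b.2, ← hT.B_eq b, h3, zero_add, add_zero, hs]
  · obtain ⟨a, ha, rfl⟩ := h4 v hv
    obtain ⟨a', ha', rfl⟩ := h4 w hw
    rw [P.B_add_left, P.B_add_right, P.B_add_right, o1 a' ha' _ (h1 a ha), o2 a ha _ (h1 a' ha'),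
      hT.B_eq, add_zero, zero_add, CharTwo.add_self_eq_zero]

/-- In characteristic two and dimension divisible by four there is an involution all of whose
invariant nondegenerate subspaces have dimension divisible by four. -/
theorem alt_exists_bad_two (hP : P.Nondeg) (h4 : finrank F V % 4 = 0) (h0 : finrank F V ≠ 0) :
    ∃ T, Isom P T ∧ T ^ 2 = 1 ∧ T ≠ 1 ∧ ∀ W, ND P W → Inv T W → finrank F W % 4 = 0 := by
  obtain ⟨A, -, a1, a2⟩ := alt_exists_nd hΛ hP (nd_top hP) (m := finrank F V / 2)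
    (by rw [Nat.even_iff]; omega) (by rw [finrank_top]; omega)
  have h1 := P.finrank_perp hP A
  obtain ⟨e, he⟩ := alt_exists_isIso₂ (P := P.restrict A) (P' := P.restrict (P.perp A)) hΛ hΛ
    a1.nondeg (a1.perp hP).nondeg (by omega)
  obtain ⟨T, b1, b2, b3, b4⟩ := exists_swap hP a1 e he
  obtain ⟨c1, -, c2⟩ := swap_facts (alt_self hΛ) (P.isCompl_perp hP a1) le_rfl b1 b2
    (fun a ha => by rw [b3 ⟨a, ha⟩]; exact Subtype.prop _)
    fun b hb => by rw [b4 ⟨b, hb⟩]; exact Subtype.prop _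
  refine ⟨T, b1, b2, ?_, fun W d1 d2 => ?_⟩
  · rintro rfl
    have : fix (1 : End F V) = ⊤ := eq_top_iff.2 fun v _ => mem_fix.2 rfl
    rw [this, P.perp_top hP, top_le_iff] at c2
    apply h0
    rw [← finrank_top, ← c2, finrank_bot]
  · obtain ⟨α, β, e1, -, -, e2⟩ := alt_struct_two hΛ hP b1 b2 d1 d2
    rw [e2 c1 c2] at e1
    omega

end Two

theorem isPE_two_char_two [CharP F 2] [FiniteDimensional F V] (hP : P.Nondeg) {T : End F V}
    (hT : Isom P T) (h : IsPE 2 T) : T ^ 2 = 1 := by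
  rcases isPE_cases hP hT h with h | h
  · exact h
  · rw [h, ← neg_one_smul F (1 : End F V), CharTwo.neg_eq, one_smul]

theorem isPE_two_of_ne [CharP F 2] (hP : P.Nondeg) {T : End F V} (hT : Isom P T) (h : T ^ 2 = 1)
    (h1 : T ≠ 1) : IsPE 2 T :=
  isPE_of_ne hP hT (z := 1) (by rw [h, one_smul]) h1 (by
    rwa [← neg_one_smul F (1 : End F V), CharTwo.neg_eq, one_smul])

theorem isPE_of_neg_one (hP : P.Nondeg) [Nontrivial V] (h2 : (2 : F) ≠ 0) {T : End F V}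
    (hT : Isom P T) (h : T ^ 2 = -1) : IsPE 2 T := by
  have h1 : (1 : End F V) ≠ -1 := fun h3 => by
    obtain ⟨v, hv⟩ := exists_ne (0 : V)
    have := LinearMap.congr_fun h3 v
    rw [LinearMap.neg_apply, End.one_apply, eq_neg_iff_add_eq_zero, ← two_smul F] at this
    exact hv ((smul_eq_zero.1 this).resolve_left h2)
  refine isPE_of_ne hP hT (z := -1) (by rw [h, neg_smul, one_smul]) ?_ ?_
  · rintro rfl
    exact h1 (by rwa [one_pow] at h)
  · rintro rfl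
    exact h1 (by rwa [neg_one_sq] at h)

end CfsgLib.Elus2
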