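import Mathlib
import Cfsg.Agent.Lib.Elus2.Sp2

/-!
Isometries with square `-1` of symmetric or alternating forms in odd characteristic.
-/

set_option autoImplicit false

namespace CfsgLib.Elus2

open Polynomial Module CfsgLib.MatConj CfsgLib.Forms CfsgLib.Elusive

variable {F : Type*} [Field F] {V : Type*} [AddCommGroup V] [Module F V]

theorem ts_two_mul_le {σ : F →+* F} {P : PQ σ V} [FiniteDimensional F V] {U W : Submodule F V}
    (hU : ND P U) (hW : P.TS W) (hle : W ≤ U) : 2 * finrank F W ≤ finrank F U := by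
  have := (ts_comap_subtype (M := U) hW).two_mul_finrank_le hU.nondeg
  rwa [(Submodule.comapSubtypeEquivOfLe hle).finrank_eq] at this

variable {P : PQ (RingHom.id F) V}

theorem forall_isPE_odd' [FiniteDimensional F V] (hP : P.Nondeg) {r : ℕ} (hr : Odd r)
    (Φ : End F V → Prop) (hΦ : ∀ T, Φ (-T) → Φ T) :
    (∀ T, Isom P T → IsPE r T → Φ T) ↔ ∀ T, Isom P T → T ^ r = 1 → T ≠ 1 → Φ T := by
  rw [← forall_isPE_odd hP hr (fun _ => True) Φ (fun _ _ _ => trivial) hΦ]
  simp only [forall_const]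

theorem ts_fix_smul (h2 : (2 : F) ≠ 0) {T : End F V} (hT : Isom P T) {c : F} (hc : c * c = -1) :
    P.TS (fix (c • T)) := by
  have h1 : ∀ x ∈ fix (c • T), ∀ y ∈ fix (c • T), P.B x y = 0 := fun x hx y hy => by
    have h3 := mem_fix.1 hx
    have h4 := mem_fix.1 hy
    have h5 : P.B x y = c * (c * P.B x y) := by
      conv_lhs => rw [← h3, ← h4, LinearMap.smul_apply, LinearMap.smul_apply, P.B_smul_left,
        P.B_smul_right, hT.B_eq, RingHom.id_apply]
    rw [← mul_assoc, hc] at h5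
    exact (mul_eq_zero.1 (show 2 * P.B x y = 0 by linear_combination h5)).resolve_left h2
  exact ⟨fun x hx => sing_of_two h2 (h1 x hx x hx), fun y hy x hx => h1 x hx y hy⟩

theorem inv_of_le_fix_smul {T : End F V} {c : F} (hc : c ≠ 0) {W : Submodule F V}
    (h : W ≤ fix (c • T)) : Inv T W := (inv_smul_iff hc).1 (inv_of_le_fix h)

variable [FiniteDimensional F V]

/-- If `-1` is a square, an isometry with square `-1` splits every invariant nondegenerate subspace
into two totally singular eigenspaces. -/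
theorem split_neg_one (h2 : (2 : F) ≠ 0) {T : End F V} (hT : Isom P T) (h : T ^ 2 = -1) {c : F}
    (hc : c * c = -1) {U : Submodule F V} (hU : ND P U) (hI : Inv T U) :
    U ⊓ fix (c • T) ⊔ U ⊓ fix ((-c) • T) = U ∧ Disjoint (fix (c • T)) (fix ((-c) • T)) ∧
      2 * finrank F (U ⊓ fix (c • T) : Submodule F V) = finrank F U ∧
      2 * finrank F (U ⊓ fix ((-c) • T) : Submodule F V) = finrank F U := by
  have h1 : (c • T) ^ 2 = 1 := by rw [_root_.smul_pow, h, sq, hc, neg_smul, one_smul, neg_neg]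
  have h3 := Inv.eq_sup_invol h2 h1 (hI.smul c)
  rw [← neg_smul] at h3
  have h4 := ts_two_mul_le hU ((ts_fix_smul h2 hT hc).mono inf_le_right) inf_le_left
  have h5 := ts_two_mul_le hU ((ts_fix_smul h2 hT (c := -c) (by rw [neg_mul_neg, hc])).mono
    inf_le_right) inf_le_left
  have h6 := Submodule.finrank_add_le_finrank_add_finrank (U ⊓ fix (c • T)) (U ⊓ fix ((-c) • T))
  rw [h3] at h6
  refine ⟨h3, ?_, by omega, by omega⟩
  rw [Submodule.disjoint_def]
  intro v h7 h8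
  rw [mem_fix] at h7 h8
  rw [neg_smul, LinearMap.neg_apply, h7, neg_eq_iff_add_eq_zero, ← two_smul F] at h8
  exact (smul_eq_zero.1 h8).resolve_left h2

theorem plus_of_neg_one (h2 : (2 : F) ≠ 0) {T : End F V} (hT : Isom P T) (h : T ^ 2 = -1)
    (hc : IsSquare (-1 : F)) {U : Submodule F V} (hU : ND P U) (hI : Inv T U) : Plus P U := by
  obtain ⟨c, hc⟩ := hc
  exact ⟨_, inf_le_left, (split_neg_one h2 hT h hc.symm hU hI).2.2.1,
    (ts_fix_smul h2 hT hc.symm).mono inf_le_right⟩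

omit [FiniteDimensional F V] in
theorem good_X_pow_sub_C {σ : F →+* F} {k : ℕ} (hk : k ≠ 1) (z : F) : Good σ (X ^ k - C z) := by
  refine Or.inr ⟨fun h => hk ?_, fun h => hk ?_⟩
  · rw [← natDegree_X_pow_sub_C (n := k) (r := z), h, ← C_1, natDegree_X_sub_C]
  · rw [← natDegree_X_pow_sub_C (n := k) (r := z), h, ← C_1, natDegree_X_add_C]

section NS

variable [Fintype F] {σ : F →+* F} {P : PQ σ V} {r : ℕ} [hr : Fact r.Prime]

/-- Invariant totally singular subspaces of a non-split element. -/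
theorem exists_ts_nonsplit (hP : P.Nondeg) {T : End F V} (hT : Isom P T) {z : F}
    (h : T ^ r = z • 1) (hz : ∀ b : F, b ^ r ≠ z) (hσ : σ z * z = 1) {U : Submodule F V}
    (hU : ND P U) (hI : Inv T U) {m : ℕ} (hm : 2 * m ≤ finrank F U) (hd : r ∣ m) :
    ∃ W, W ≤ U ∧ P.TS W ∧ Inv T W ∧ finrank F W = m := by
  obtain ⟨k, hk⟩ := edOn_nonsplit h hz U
  obtain ⟨j, rfl⟩ := hd
  have h1 := hI.finrank_eq
  rw [hk, mdeg_replicate, natDegree_X_pow_sub_C, mul_one] at h1
  have ht := tilde_X_pow_sub_C (σ := σ) hr.out.ne_zero hσ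
  obtain ⟨W, a1, a2, a3, a4⟩ := exists_ts_edOn hP hT (squarefree_nonsplit hz)
    (aeval_X_pow_sub_C_eq_zero.2 h) (Multiset.replicate j (X ^ r - C z, 1))
    (fun x hx _ => by
      rw [Multiset.eq_of_mem_replicate hx]; exact good_X_pow_sub_C hr.out.ne_one z) hU hI (by
      rw [dl_replicate, ht, hk, ← Multiset.replicate_add, Multiset.replicate_le_replicate]
      refine le_of_mul_le_mul_right ?_ hr.out.pos
      rw [← h1]; linarith)
  exact ⟨W, a1, a2, a3, by rw [a3.finrank_eq, a4, mdeg_replicate, natDegree_X_pow_sub_C]; ring⟩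

/-- Invariant nondegenerate blocks of a non-split element. -/
theorem exists_nd_nonsplit (hP : P.Nondeg) {T : End F V} (hT : Isom P T) {z : F}
    (h : T ^ r = z • 1) (hz : ∀ b : F, b ^ r ≠ z) (hσ : σ z * z = 1) {U : Submodule F V}
    (hU : ND P U) (hI : Inv T U) (h0 : U ≠ ⊥) :
    ∃ W, W ≤ U ∧ ND P W ∧ Inv T W ∧ finrank F W = r := by
  obtain ⟨k, hk⟩ := edOn_nonsplit h hz U
  have ht := tilde_X_pow_sub_C (σ := σ) hr.out.ne_zero hσ
  have hk0 : k ≠ 0 := by
    rintro rfl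
    exact h0 (hI.eq_bot_of_edOn hk)
  obtain ⟨A, a1, a2, a3, a4⟩ := exists_nd_block hP hT (squarefree_nonsplit hz)
    (aeval_X_pow_sub_C_eq_zero.2 h) hU hI (f := X ^ r - C z)
    (by rw [hk]; exact Multiset.mem_replicate.2 ⟨hk0, rfl⟩)
    fun _ => good_X_pow_sub_C hr.out.ne_one z
  refine ⟨A, a1, a2, a3, ?_⟩
  rw [a3.finrank_eq, (a4.resolve_right fun h => h.1 ht).2, mdeg_singleton, natDegree_X_pow_sub_C,
    mul_one]

theorem exists_nd_nonsplit' (hP : P.Nondeg) {T : End F V} (hT : Isom P T) {z : F}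
    (h : T ^ r = z • 1) (hz : ∀ b : F, b ^ r ≠ z) (hσ : σ z * z = 1) {U : Submodule F V}
    (hU : ND P U) (hI : Inv T U) {m : ℕ} (hm : m ≤ finrank F U) (hd : r ∣ m) :
    ∃ W, W ≤ U ∧ ND P W ∧ Inv T W ∧ finrank F W = m := by
  obtain ⟨k, h3, h4⟩ := multiples_of_blocks hP hT hU hI hr.out.ne_zero
    fun Y _ a2 a3 a4 => exists_nd_nonsplit hP hT h hz hσ a2 a3 a4
  obtain ⟨j, rfl⟩ := hd
  exact h4 j (le_of_mul_le_mul_left (h3 ▸ hm) hr.out.pos)

end NS

variable [Fintype F] {p : ℕ} [hp : Fact p.Prime] [CharP F p]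

theorem exists_ts_neg_one (hP : P.Nondeg) (hp2 : 2 ≠ p) {T : End F V} (hT : Isom P T)
    (h : T ^ 2 = -1) {U : Submodule F V} (hU : ND P U) (hI : Inv T U) {m : ℕ}
    (hm : 2 * m ≤ finrank F U) (h' : Even m ∨ Fintype.card F % 4 = 1) :
    ∃ W, W ≤ U ∧ P.TS W ∧ Inv T W ∧ finrank F W = m := by
  have h2 := two_ne_zero_of_ne (F := F) hp2
  by_cases hq : Fintype.card F % 4 = 1
  · obtain ⟨c, hc⟩ := (isSquare_neg_one_iff' hp2).2 hq
    obtain ⟨W, a1, a2⟩ := exists_le_finrank_eq (W := U ⊓ fix (c • T)) (m := m)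
      (by have := (split_neg_one h2 hT h hc.symm hU hI).2.2.1; omega)
    exact ⟨W, a1.trans inf_le_left, (ts_fix_smul h2 hT hc.symm).mono (a1.trans inf_le_right),
      inv_of_le_fix_smul (by rintro rfl; simp at hc) (a1.trans inf_le_right), a2⟩
  · exact exists_ts_nonsplit hP hT (r := 2) (z := -1) (by rw [h, neg_smul, one_smul])
      (not_sq_neg_one hp2 hq) (by simp) hU hI hm (even_iff_two_dvd.1 (h'.resolve_right hq))

theorem even_of_neg_one (hp2 : 2 ≠ p) (hq : Fintype.card F % 4 ≠ 1) {T : End F V}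
    (h : T ^ 2 = -1) {U : Submodule F V} (hI : Inv T U) : Even (finrank F U) :=
  even_iff_two_dvd.2 (dvd_finrank_of_nonsplit (r := 2) (z := -1) (by rw [h, neg_smul, one_smul])
    (not_sq_neg_one hp2 hq) hI)

end CfsgLib.Elus2
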