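import Mathlib
import Cfsg.Agent.Lib.Elus2.Sp3

/-!
Pairs of complementary totally singular subspaces.
-/

set_option autoImplicit false

namespace CfsgLib.Elus2

open Polynomial Module CfsgLib.MatConj CfsgLib.Forms CfsgLib.Elusive

variable {F : Type*} [Field F] {σ : F →+* F} {V : Type*} [AddCommGroup V] [Module F V]
  {P : PQ σ V} [FiniteDimensional F V]

theorem disjoint_of_finrank {A B : Submodule F V}
    (h : finrank F A + finrank F B ≤ finrank F (A ⊔ B : Submodule F V)) : Disjoint A B := by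
  have := Submodule.finrank_sup_add_finrank_inf_eq A B
  rw [disjoint_iff, ← Submodule.finrank_eq_zero]
  omega

theorem exists_ts_compl (hP : P.Nondeg) {U W : Submodule F V} (hU : ND P U) (hW : P.TS W)
    (hle : W ≤ U) (hd : 2 * finrank F W = finrank F U) :
    ∃ W', P.TS W' ∧ W ⊔ W' = U ∧ finrank F W' = finrank F W := by
  classical
  let b := Module.finBasis F W
  have hs : Submodule.span F (Set.range fun i => (b i : V)) = W := by
    rw [show (fun i => (b i : V)) = W.subtype ∘ b from rfl, Set.range_comp, ← Submodule.map_span,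
      b.span_eq, Submodule.map_subtype_top]
  obtain ⟨f, h1, h2, h3, h4⟩ := P.exists_hyperbolic_family hP (fun i => (b i : V))
    (b.linearIndependent.map' W.subtype W.ker_subtype) (hs.symm ▸ hW) (P.perp U)
    (hs.symm ▸ Disjoint.mono_left hle hU) fun i h hh => hh _ (hle (b i).2)
  have h5 : Submodule.span F (Set.range f) ≤ U := by
    rw [Submodule.span_le, ← P.perp_perp hP U]
    rintro _ ⟨i, rfl⟩
    exact P.mem_perp'.2 (h4 i)
  have h6 := P.finrank_span_hyperbolic (fun i => (b i : V)) f (fun i j => hW.B_eq (b i).2 (b j).2)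
    h2 h3
  rw [Set.Sum.elim_range, Submodule.span_union, hs] at h6
  have h7 := finrank_range_le_card (R := F) f
  have h8 := Submodule.finrank_add_le_finrank_add_finrank W (Submodule.span F (Set.range f))
  rw [Fintype.card_fin, Set.finrank] at h7
  refine ⟨_, P.ts_span ?_ ?_, Submodule.eq_of_le_of_finrank_eq (sup_le hle h5) (by omega), by omega⟩
  · rintro _ ⟨i, rfl⟩; exact h1 i
  · rintro _ ⟨i, rfl⟩ _ ⟨j, rfl⟩; exact h2 i j

theorem Plus.exists_pair (hP : P.Nondeg) {U : Submodule F V} (hU : ND P U) (h : Plus P U) :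
    ∃ W W', P.TS W ∧ P.TS W' ∧ W ⊔ W' = U ∧ 2 * finrank F W = finrank F U ∧
      2 * finrank F W' = finrank F U := by
  obtain ⟨W, h1, h2, h3⟩ := h
  obtain ⟨W', h4, h5, h6⟩ := exists_ts_compl hP hU h3 h1 h2
  exact ⟨W, W', h3, h4, h5, h2, by omega⟩

theorem isCompl_of_sup {A B : Submodule F V} (h : A ⊔ B = ⊤)
    (hd : finrank F A + finrank F B ≤ finrank F V) : IsCompl A B :=
  ⟨disjoint_of_finrank (by rwa [h, finrank_top]), codisjoint_iff.2 h⟩

theorem finrank_of_pair (hP : P.Nondeg) {U W : Submodule F V} (h : IsCompl U W) (hU : P.TS U)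
    (hW : P.TS W) : 2 * finrank F U = finrank F V ∧ 2 * finrank F W = finrank F V := by
  have h1 := hU.two_mul_finrank_le hP
  have h2 := hW.two_mul_finrank_le hP
  have h3 := Submodule.finrank_add_eq_of_isCompl h
  omega

theorem perp_eq_of_lag (hP : P.Nondeg) {U : Submodule F V} (hU : P.TS U)
    (h : 2 * finrank F U = finrank F V) : P.perp U = U := by
  have := P.finrank_perp hP U
  exact (Submodule.eq_of_le_of_finrank_eq hU.2 (by omega)).symm

theorem ed_of_pair (hP : P.Nondeg) {T : End F V} (hT : Isom P T) {U W : Submodule F V}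
    (h : IsCompl U W) (hU : P.TS U) (hW : P.TS W) (h1 : Inv T U) (h2 : Inv T W) :
    ed T = edOn T U + dl σ (edOn T U) := by
  obtain ⟨h3, h4⟩ := finrank_of_pair hP h hU hW
  rw [ed_eq_add h1 h2 h, edOn_dual hP hT h2 h1 (by omega) (by
    rw [perp_eq_of_lag hP hW h4]; exact h.disjoint)]

omit [FiniteDimensional F V] in
theorem eq_of_swap_odd {T : End F V} {r : ℕ} (hr : Odd r) {z : F} (hz : z ≠ 0)
    (hT : T ^ r = z • 1) {U W : Submodule F V} (h1 : U.map T = W) (h2 : W.map T = U) : U = W := by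
  obtain ⟨k, rfl⟩ := hr
  have h3 : ∀ k, U.map (T ^ (2 * k)) = U := fun k => by
    induction k with
    | zero => simp [End.one_eq_id]
    | succ k ih =>
      rw [mul_add, pow_add, mul_one, sq, End.mul_eq_comp, End.mul_eq_comp, Submodule.map_comp,
        Submodule.map_comp, h1, h2, ih]
  rw [← map_pow_eq_of_smul hz hT U, pow_succ', End.mul_eq_comp, Submodule.map_comp, h3, h1]

/-- An involution both of whose eigenspaces are hyperbolic fixes a polar pair. -/
theorem pair_of_invol (hP : P.Nondeg) (h2 : (2 : F) ≠ 0) {T : End F V} (hT : Isom P T)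
    (h : T ^ 2 = 1) (h3 : Plus P (fix T)) (h4 : Plus P (fix (-T))) :
    ∃ U W, IsCompl U W ∧ P.TS U ∧ P.TS W ∧ Inv T U ∧ Inv T W := by
  obtain ⟨a1, a2⟩ := nd_fix_invol hP h2 hT h
  obtain ⟨A, A', b1, b2, b3, b4, b5⟩ := Plus.exists_pair hP a1 h3
  obtain ⟨B, B', c1, c2, c3, c4, c5⟩ := Plus.exists_pair hP a2 h4
  have h5 := fix_neg_le_perp h2 hT
  have d1 : A ≤ fix T := b3 ▸ le_sup_left
  have d2 : A' ≤ fix T := b3 ▸ le_sup_right
  have d3 : B ≤ fix (-T) := c3 ▸ le_sup_left
  have d4 : B' ≤ fix (-T) := c3 ▸ le_sup_right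
  have e1 := b1.sup c1 (d3.trans (h5.trans (P.perp_anti d1)))
  have e2 := b2.sup c2 (d4.trans (h5.trans (P.perp_anti d2)))
  refine ⟨A ⊔ B, A' ⊔ B', isCompl_of_sup ?_ ?_, e1, e2, inv_sup_invol d1 d3, inv_sup_invol d2 d4⟩
  · rw [sup_sup_sup_comm, b3, c3, fix_sup_fix_neg h2 h]
  · have := e1.two_mul_finrank_le hP
    have := e2.two_mul_finrank_le hP
    omega

end CfsgLib.Elus2
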