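import Mathlib
import Cfsg.Agent.Lib.Elus2.Polar
import Cfsg.Agent.Lib.Elus2.Arith

/-!
Roots of unity, determinants of split endomorphisms and further arithmetic lemmas.
-/

set_option autoImplicit false

namespace CfsgLib.Elus2

open Polynomial Module CfsgLib.MatConj CfsgLib.Forms CfsgLib.Elusive

variable {F : Type*} [Field F]

section Roots

variable {r : ℕ} [hr : Fact r.Prime] {g : F} {N : ℕ}

theorem exists_primitiveRoot [Fintype F] {N : ℕ} (h : N ∣ Fintype.card F - 1) :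
    ∃ g : F, IsPrimitiveRoot g N := by
  classical
  obtain ⟨g, hg⟩ := IsCyclic.exists_monoid_generator (α := Fˣ)
  have ho : orderOf g = Fintype.card F - 1 := by
    rw [orderOf_eq_card_of_forall_mem_powers hg, Nat.card_eq_fintype_card, Fintype.card_units]
  obtain ⟨l, hl⟩ := h
  have hpos : 0 < Fintype.card F - 1 := by have := Fintype.one_lt_card (α := F); omega
  refine ⟨(g ^ l : Fˣ), IsPrimitiveRoot.coe_units_iff.2 ?_⟩
  exact (ho ▸ IsPrimitiveRoot.orderOf g).pow hpos (by rw [hl, mul_comm])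

theorem pow_val_dvd_of_prim (hg : IsPrimitiveRoot g N) (hN : N ≠ 0) {w : F} (hw1 : w ^ N = 1)
    (hw : ∀ b : F, b ^ N = 1 → b ^ r ≠ w) {k : ℕ} (hk : w ^ k = 1) : r ^ padicValNat r N ∣ k := by
  have : NeZero N := ⟨hN⟩
  obtain ⟨j, -, rfl⟩ := hg.eq_pow_of_pow_eq_one hw1
  have hrj : ¬ r ∣ j := by
    rintro ⟨l, rfl⟩
    exact hw (g ^ l) (by rw [← pow_mul, mul_comm, pow_mul, hg.pow_eq_one, one_pow])
      (by rw [← pow_mul, mul_comm])
  rw [← pow_mul] at hk
  exact (Nat.Coprime.pow_left _ ((Nat.Prime.coprime_iff_not_dvd hr.out).2 hrj)).dvd_of_dvd_mul_left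
    (pow_padicValNat_dvd.trans (hg.dvd_of_pow_eq_one _ hk))

theorem exists_not_pow_of_prim (hg : IsPrimitiveRoot g N) (hN : N ≠ 0) (h : r ∣ N) :
    ∃ w : F, w ^ N = 1 ∧ (∀ b : F, b ^ N = 1 → b ^ r ≠ w) ∧ w ^ r ^ padicValNat r N = 1 := by
  have : NeZero N := ⟨hN⟩
  obtain ⟨l, hl⟩ := pow_padicValNat_dvd (p := r) (n := N)
  have hrl : ¬ r ∣ l := by
    rintro ⟨l', rfl⟩
    apply pow_succ_padicValNat_not_dvd (p := r) hN
    exact ⟨l', by rw [pow_succ, mul_assoc]; exact hl⟩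
  refine ⟨g ^ l, by rw [← pow_mul, mul_comm, pow_mul, hg.pow_eq_one, one_pow], fun b hb1 hb => ?_,
    by rw [← pow_mul, mul_comm, ← hl, hg.pow_eq_one]⟩
  obtain ⟨j, -, rfl⟩ := hg.eq_pow_of_pow_eq_one hb1
  rw [← pow_mul, (hg.isOfFinOrder hN).pow_eq_pow_iff_modEq, ← hg.eq_orderOf] at hb
  exact hrl ((Nat.modEq_zero_iff_dvd).1 ((hb.of_dvd h).symm.trans
    (Nat.modEq_zero_iff_dvd.2 (Dvd.intro_left _ rfl))))

theorem exists_root_of_not_dvd (h : ¬ r ∣ N) (hN : N ≠ 0) {z : F} (hz : z ^ N = 1) :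
    ∃ b : F, b ^ N = 1 ∧ b ^ r = z := by
  rcases Nat.lt_or_ge 1 N with h1 | h1
  · obtain ⟨k, -, hk⟩ := Nat.exists_mul_mod_eq_one_of_coprime
      ((Nat.Prime.coprime_iff_not_dvd hr.out).2 h) h1
    refine ⟨z ^ k, by rw [← pow_mul, mul_comm, pow_mul, hz, one_pow], ?_⟩
    rw [← pow_mul, mul_comm, ← Nat.mod_add_div (r * k) N, hk, pow_add, pow_mul, hz, one_pow,
      pow_one, mul_one]
  · obtain rfl : N = 1 := by omega
    rw [pow_one] at hz
    exact ⟨1, one_pow _, by rw [hz, one_pow]⟩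

theorem eq_one_of_not_dvd (h : ¬ r ∣ N) {z : F} (hz : z ^ N = 1) (hz' : z ^ r = 1) : z = 1 := by
  have := pow_gcd_eq_one.2 ⟨hz', hz⟩
  rwa [(Nat.Prime.coprime_iff_not_dvd hr.out).2 h, pow_one] at this

theorem exists_pow_eq_neg_one_iff_val (hg : IsPrimitiveRoot g N) (hN : N ≠ 0) (h2 : (2 : F) ≠ 0)
    {n : ℕ} (hn : n ≠ 0) :
    (∃ b : F, b ^ N = 1 ∧ b ^ n = -1) ↔ padicValNat 2 n < padicValNat 2 N := by
  constructor
  · rintro ⟨b, h1, h3⟩
    have h4 : orderOf b ∣ 2 * n := by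
      rw [orderOf_dvd_iff_pow_eq_one, mul_comm, pow_mul, h3, neg_one_sq]
    have h5 : ¬ orderOf b ∣ n := by
      rw [orderOf_dvd_iff_pow_eq_one, h3]
      exact fun h => h2 (by linear_combination -h)
    have h6 := orderOf_dvd_of_pow_eq_one h1
    have h7 : 0 < orderOf b := Nat.pos_of_dvd_of_pos h6 (Nat.pos_of_ne_zero hN)
    obtain ⟨-, ⟨a, ha⟩, h8⟩ := (dvd_two_mul_not_dvd_iff h7).1 ⟨h4, h5⟩
    rw [ha, Nat.mul_div_cancel_left _ h7] at h8
    have h9 : 2 ^ (padicValNat 2 n + 1) ∣ orderOf b * a := by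
      rw [← ha, pow_succ']; exact Nat.mul_dvd_mul_left 2 pow_padicValNat_dvd
    exact (padicValNat_dvd_iff_le hN).1
      (((Nat.coprime_two_left.2 h8).pow_left _).dvd_of_dvd_mul_right h9 |>.trans h6)
  · intro h
    obtain ⟨l, hl⟩ : 2 ^ (padicValNat 2 n + 1) ∣ N := (padicValNat_dvd_iff_le hN).2 h
    obtain ⟨a, ha⟩ := pow_padicValNat_dvd (p := 2) (n := n)
    have h3 : Odd a := by
      rw [← Nat.not_even_iff_odd]
      rintro ⟨b, rfl⟩
      apply pow_succ_padicValNat_not_dvd (p := 2) hn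
      exact ⟨b, by rw [pow_succ, mul_assoc, two_mul]; exact ha⟩
    have h4 : IsPrimitiveRoot (g ^ (l * 2 ^ padicValNat 2 n)) 2 :=
      hg.pow (Nat.pos_of_ne_zero hN) (by rw [mul_assoc, ← pow_succ, mul_comm]; exact hl)
    refine ⟨g ^ l, by rw [← pow_mul, mul_comm, pow_mul, hg.pow_eq_one, one_pow], ?_⟩
    rw [ha, pow_mul, ← pow_mul g, h4.eq_neg_one_of_two_right, h3.neg_one_pow]

theorem not_noNS_iff_prim (hg : IsPrimitiveRoot g N) (hN : N ≠ 0) (h2 : r = 2 → (2 : F) ≠ 0)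
    (h : r ∣ N) {n : ℕ} (hn : n ≠ 0) :
    ¬ NoNS r n (N + 1) ↔ ∃ (z : F) (k : ℕ), z ^ N = 1 ∧ (∀ b : F, b ^ N = 1 → b ^ r ≠ z) ∧
      n = r * k ∧ ((-1) ^ (r + 1) * z) ^ k = 1 := by
  have hsq : r = 2 → ((∃ b : F, b ^ N = 1 ∧ b ^ 2 = -1) ↔ (N + 1) % 4 = 1) := fun h3 => by
    rw [exists_pow_eq_neg_one_iff_val hg hN (h2 h3) two_ne_zero, padicValNat_self, Nat.lt_iff_add_one_le,
      ← padicValNat_dvd_iff_le hN]
    omega
  rw [NoNS, Nat.add_sub_cancel]
  constructor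
  · intro H
    rw [not_and_or] at H
    rcases H with H | H
    · obtain ⟨k, hk, hv⟩ := exists_eq_mul_of_lt_val (not_le.1 H)
      obtain ⟨w, hw1, hw, hw'⟩ := exists_not_pow_of_prim hg hN h
      refine ⟨w, k, hw1, hw, hk, ?_⟩
      obtain ⟨l, rfl⟩ := hv
      rw [mul_pow, pow_mul w, hw', one_pow, mul_one, ← pow_mul]
      apply Even.neg_one_pow
      rcases hr.out.eq_two_or_odd' with rfl | ho
      · have := one_le_padicValNat_of_dvd hN h
        exact ((Nat.even_pow.2 ⟨even_two, by omega⟩).mul_right l).mul_left _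
      · exact ho.add_one.mul_right _
    · push Not at H
      obtain ⟨rfl, ⟨k, hk⟩, h4⟩ := H
      exact ⟨-1, k, (even_iff_two_dvd.2 h).neg_one_pow, fun b hb1 hb => h4 ((hsq rfl).1 ⟨b, hb1, hb⟩),
        by omega, by norm_num⟩
  · rintro ⟨z, k, hz1, hz, hk, hd⟩ ⟨h1, h3⟩
    apply absurd h1 (not_le.2 (lt_val_of_pow_dvd hn hk ?_))
    rcases hr.out.eq_two_or_odd' with rfl | ho
    · obtain ⟨i, hi1, hi⟩ := (hsq rfl).2 (h3 rfl ⟨k, by omega⟩)
      refine pow_val_dvd_of_prim hg hN (w := -z)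
        (by rw [(even_iff_two_dvd.2 h).neg_pow, hz1]) (fun b hb1 hb => hz (i * b) ?_ ?_) ?_
      · rw [mul_pow, hi1, hb1, one_mul]
      · rw [mul_pow, hi, hb]; ring
      · rw [← hd]; norm_num
    · rw [ho.add_one.neg_one_pow, one_mul] at hd
      exact pow_val_dvd_of_prim hg hN hz1 hz hd

end Roots

section Det

variable {σ : F →+* F} {V : Type*} [AddCommGroup V] [Module F V] {P : PQ σ V}
  [FiniteDimensional F V]

theorem det_eq_mul_of_isCompl {T : End F V} {A B : Submodule F V} (hA : Inv T A) (hB : Inv T B)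
    (h : IsCompl A B) :
    LinearMap.det T = LinearMap.det (T.restrict hA) * LinearMap.det (T.restrict hB) := by
  rw [det_eq_prod_ed, det_eq_prod_ed, det_eq_prod_ed, ed_eq_add hA hB h, Multiset.map_add,
    Multiset.prod_add, edOn_eq hA, edOn_eq hB]

theorem det_restrict_of_smul {T : End F V} {A : Submodule F V} (hA : Inv T A) {c : F}
    (h : ∀ a ∈ A, T a = c • a) : LinearMap.det (T.restrict hA) = c ^ finrank F A := by
  have : T.restrict hA = c • 1 := by
    ext a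
    exact h a a.2
  rw [this, LinearMap.det_smul, map_one, mul_one]

omit [FiniteDimensional F V] in
theorem disjoint_fix_neg (h2 : (2 : F) ≠ 0) (T : End F V) : Disjoint (fix T) (fix (-T)) := by
  rw [Submodule.disjoint_def]
  intro v h7 h8
  rw [mem_fix] at h7 h8
  rw [LinearMap.neg_apply, h7, neg_eq_iff_add_eq_zero, ← two_smul F] at h8
  exact (smul_eq_zero.1 h8).resolve_left h2

omit [FiniteDimensional F V] in
theorem isCompl_fix_neg (h2 : (2 : F) ≠ 0) {T : End F V} (h : T ^ 2 = 1) :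
    IsCompl (fix T) (fix (-T)) :=
  ⟨disjoint_fix_neg h2 T, codisjoint_iff.2 (fix_sup_fix_neg h2 h)⟩

theorem det_invol (h2 : (2 : F) ≠ 0) {T : End F V} (h : T ^ 2 = 1) :
    LinearMap.det T = (-1) ^ finrank F (fix (-T)) := by
  rw [det_eq_mul_of_isCompl (inv_fix T) (inv_neg_iff.1 (inv_fix (-T))) (isCompl_fix_neg h2 h),
    det_restrict_of_smul _ (c := 1) fun a ha => by rw [mem_fix.1 ha, one_smul],
    det_restrict_of_smul _ (c := -1) fun a ha => by
      rw [neg_smul, one_smul, ← neg_eq_iff_eq_neg, ← LinearMap.neg_apply, mem_fix.1 ha],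
    one_pow, one_mul]

omit [FiniteDimensional F V] in
theorem ts_fix_anti (h2 : (2 : F) ≠ 0) {T : End F V} (hT : Isom P T) {c : F} (hc : σ c * c = -1) :
    P.TS (fix (c • T)) := by
  have h1 : ∀ x ∈ fix (c • T), ∀ y ∈ fix (c • T), P.B x y = 0 := fun x hx y hy => by
    have h3 := mem_fix.1 hx
    have h4 := mem_fix.1 hy
    have h5 : P.B x y = σ c * (c * P.B x y) := by
      conv_lhs => rw [← h3, ← h4, LinearMap.smul_apply, LinearMap.smul_apply, P.B_smul_left,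
        P.B_smul_right, hT.B_eq]
    rw [← mul_assoc, hc] at h5
    exact (mul_eq_zero.1 (show 2 * P.B x y = 0 by linear_combination h5)).resolve_left h2
  exact ⟨fun x hx => sing_of_two h2 (h1 x hx x hx), fun y hy x hx => h1 x hx y hy⟩

/-- An isometry that is a multiple of an anti-isometric involution splits every invariant
nondegenerate subspace into two totally singular eigenspaces. -/
theorem split_anti (h2 : (2 : F) ≠ 0) {T : End F V} (hT : Isom P T) {c : F} (hc : σ c * c = -1)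
    (h : (c • T) ^ 2 = 1) {U : Submodule F V} (hU : ND P U) (hI : Inv T U) :
    P.TS (U ⊓ fix (c • T)) ∧ P.TS (U ⊓ fix (-(c • T))) ∧
      U ⊓ fix (c • T) ⊔ U ⊓ fix (-(c • T)) = U ∧
      2 * finrank F (U ⊓ fix (c • T) : Submodule F V) = finrank F U ∧
      2 * finrank F (U ⊓ fix (-(c • T)) : Submodule F V) = finrank F U := by
  have h3 := Inv.eq_sup_invol h2 h (hI.smul c)
  have a1 := (ts_fix_anti h2 hT hc).mono (inf_le_right (a := U))
  have a2 := (ts_fix_anti h2 hT (c := -c) (by rw [map_neg, neg_mul_neg, hc])).mono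
    (inf_le_right (a := U))
  rw [neg_smul] at a2
  have h4 := ts_two_mul_le hU a1 inf_le_left
  have h5 := ts_two_mul_le hU a2 inf_le_left
  have h6 := Submodule.finrank_add_le_finrank_add_finrank (U ⊓ fix (c • T)) (U ⊓ fix (-(c • T)))
  rw [h3] at h6
  exact ⟨a1, a2, h3, by omega, by omega⟩

theorem nd_of_compl_perp (hP : P.Nondeg) {U W : Submodule F V} (h1 : Disjoint U W)
    (h2 : U ⊔ W = P.perp U) : ND P W := by
  rw [ND, Submodule.disjoint_def]
  intro x h3 h4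
  refine Submodule.disjoint_def.1 h1 x ?_ h3
  rw [← P.perp_perp hP U, ← h2, P.perp_sup]
  exact ⟨(h2 ▸ le_sup_right : W ≤ P.perp U) h3, h4⟩

/-- Nondegenerate invariant subspaces of twice the dimension of a totally singular one. -/
theorem exists_nd_of_ts (hP : P.Nondeg) {T : End F V} (hT : Isom P T) {a : F[X]}
    (ha : Squarefree a) (hTa : aeval T a = 0) {U W : Submodule F V} (hU : ND P U) (hI : Inv T U)
    (hW : P.TS W) (hWI : Inv T W) (hle : W ≤ U) :
    ∃ H, H ≤ U ∧ ND P H ∧ Inv T H ∧ finrank F H = 2 * finrank F W ∧ Plus P H := by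
  obtain ⟨H, h1, h2, h3, h4, h5, -⟩ := ts_split hP hT ha hTa hU hI hW.2 hWI hle
  exact ⟨H, h4, h1, h2, h5, W, h3, h5.symm, hW⟩

end Det

section Arith

theorem ts_arith_nsd {i m n : ℕ} (hmd : 2 * m ≤ n) (hΩ : n % (2 * i) < 2 * m) :
    (∀ k, 1 ≤ k → 2 * i * k ≤ n → ∃ j, j ≤ k ∧ i * j ≤ m ∧ 2 * (m - i * j) ≤ n - 2 * i * k) ↔
      i ≤ m ∧ 2 * (m % i) ≤ n % (2 * i) := by
  have h1 := Nat.mod_add_div n (2 * i)
  have h2 := Nat.mod_add_div m i
  constructor
  · intro h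
    obtain ⟨j, -, h4, h5⟩ := h _ (div_pos_of_mod_lt hmd hΩ) (by omega)
    have h6 : 1 ≤ j := Nat.pos_of_ne_zero (by rintro rfl; omega)
    have h7 : i * 1 ≤ i * j := Nat.mul_le_mul_left i h6
    have h8 := mod_le_sub h4
    omega
  · rintro ⟨h3, h4⟩ k h5 h6
    have h7 := mod_le_sub h6
    rw [mul_assoc] at h6 h7 ⊢
    rcases le_total k (m / i) with h8 | h8
    · have : i * k ≤ i * (m / i) := Nat.mul_le_mul_left i h8
      exact ⟨k, le_rfl, by omega, by omega⟩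
    · exact ⟨m / i, h8, by omega, by omega⟩

theorem ts_arith_sd {i m n t : ℕ} (hi : 0 < i) (ht : 0 < t) (hmd : 2 * m ≤ n)
    (hΩ : n % i < 2 * m) :
    (∀ k, 1 ≤ k → i * k ≤ n → ∃ j, (j = 0 ∨ 2 * j + t ≤ k + 1) ∧ i * j ≤ m ∧
      2 * (m - i * j) ≤ n - i * k) ↔ i ≤ m ∧ 2 * (m % i) ≤ n % i ∧ t + 2 * (m / i) ≤ n / i := by
  have h1 := Nat.mod_add_div n i
  have h2 := Nat.mod_add_div m i
  have h1' := Nat.mod_lt n hi
  have h2' := Nat.mod_lt m hi
  constructor
  · intro h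
    have h3 := div_pos_of_mod_lt hmd hΩ
    obtain ⟨j, h0, h4, h5⟩ := h (n / i) h3 (by omega)
    have h6 : 1 ≤ j := Nat.pos_of_ne_zero (by rintro rfl; omega)
    have h7 : i * 1 ≤ i * j := Nat.mul_le_mul_left i h6
    obtain rfl := eq_div_of_sub_lt h4 (by omega)
    refine ⟨by omega, by omega, ?_⟩
    obtain ⟨k, hk⟩ : ∃ k, n / i = k + 1 := ⟨n / i - 1, by omega⟩
    rw [hk, mul_add] at h1
    obtain ⟨j, a0, a4, a5⟩ := h k (by omega) (by omega)
    obtain rfl := eq_div_of_sub_lt a4 (by omega)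
    omega
  · rintro ⟨h3, h4, h5⟩ k h6 h7
    obtain ⟨l, hl⟩ := Nat.exists_eq_add_of_le (le_div_of_mul_le hi h7)
    rw [hl, mul_add] at h1
    by_cases h9 : 2 * (m / i) + t ≤ k + 1
    · exact ⟨m / i, Or.inr h9, by omega, by omega⟩
    by_cases h10 : k ≤ t
    · have : i * (2 * (m / i)) ≤ i * l := Nat.mul_le_mul_left i (by omega)
      rw [mul_left_comm] at this
      exact ⟨0, Or.inl rfl, by omega, by omega⟩
    · obtain ⟨s, hs⟩ : ∃ s, m / i = (k + 1 - t) / 2 + s := ⟨m / i - (k + 1 - t) / 2, by omega⟩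
      rw [hs, mul_add] at h2
      have : i * (2 * s) ≤ i * l := Nat.mul_le_mul_left i (by omega)
      rw [mul_left_comm] at this
      exact ⟨(k + 1 - t) / 2, Or.inr (by omega), by omega, by omega⟩

end Arith

end CfsgLib.Elus2
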