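import Mathlib
import Cfsg.Agent.Lib.Elus2.Roots
import Cfsg.Agent.Lib.Elus2.Polar
import Cfsg.Agent.Lib.MatConj.PrimeForm

/-!
Types of nondegenerate subspaces of a finite quadratic space.
-/

set_option autoImplicit false

namespace CfsgLib.Elus2

open Polynomial Module CfsgLib.MatConj CfsgLib.Forms CfsgLib.Elusive CfsgLib.Orth QuadraticMap

variable {F : Type*} [Field F] {V : Type*} [AddCommGroup V] [Module F V]

section General

variable {σ : F →+* F} {P : PQ σ V}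

theorem pq_ext {P P' : PQ σ V} (h1 : P.B = P'.B) (h2 : P.ε = P'.ε) (h3 : P.N = P'.N)
    (h4 : P.Λ = P'.Λ) : P = P' := by
  cases P; cases P'; cases h1; cases h2; cases h3; cases h4; rfl

theorem plus_top_map {V' : Type*} [AddCommGroup V'] [Module F V'] {P' : PQ σ V'}
    {e : V ≃ₗ[F] V'} (he : P.IsIso₂ P' e) : Plus P ⊤ → Plus P' ⊤ := by
  intro ⟨U, _, h1, h2⟩
  refine ⟨U.map e.toLinearMap, le_top, by
    rw [LinearEquiv.finrank_map_eq, h1, finrank_top, finrank_top, e.finrank_eq], ?_, ?_⟩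
  · rintro _ ⟨u, hu, rfl⟩
    exact he.sing.2 (h2.1 u hu)
  · rintro _ ⟨u, hu, rfl⟩ _ ⟨v, hv, rfl⟩
    exact (he.B_eq v u).trans (h2.B_eq hv hu)

theorem plus_top_congr {V' : Type*} [AddCommGroup V'] [Module F V'] {P' : PQ σ V'}
    {e : V ≃ₗ[F] V'} (he : P.IsIso₂ P' e) : Plus P ⊤ ↔ Plus P' ⊤ :=
  ⟨plus_top_map he, plus_top_map he.symm⟩

theorem plus_restrict {W : Submodule F V} : Plus (P.restrict W) ⊤ ↔ Plus P W :=
  ⟨fun ⟨U, _, h1, h2⟩ => ⟨U.map W.subtype, W.map_subtype_le U, by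
    rw [Submodule.finrank_map_subtype_eq, h1, finrank_top], ts_map_subtype h2⟩,
   fun ⟨U, h0, h1, h2⟩ => ⟨U.comap W.subtype, le_top, by
    rw [(Submodule.comapSubtypeEquivOfLe h0).finrank_eq, h1, finrank_top], ts_comap_subtype h2⟩⟩

theorem Plus.even {W : Submodule F V} (h : Plus P W) : Even (finrank F W) :=
  let ⟨_, _, h1, _⟩ := h; h1 ▸ even_two_mul _

variable [FiniteDimensional F V]

theorem plus_of_finrank_zero {W : Submodule F V} (h : finrank F W = 0) : Plus P W :=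
  Submodule.finrank_eq_zero.1 h ▸ plus_bot

theorem ts_exists_le {U W W' : Submodule F V} (hU : ND P U) (h : P.TS W) (h' : P.TS W')
    (h1 : W ≤ U) (h2 : W' ≤ U) (hle : finrank F W ≤ finrank F W') :
    ∃ X, X ≤ U ∧ P.TS X ∧ W ≤ X ∧ finrank F X = finrank F W' := by
  obtain ⟨X, a1, a2, a3⟩ := (ts_comap_subtype (M := U) h).exists_le hU.nondeg (ts_comap_subtype h')
    (by rwa [(Submodule.comapSubtypeEquivOfLe h1).finrank_eq,
      (Submodule.comapSubtypeEquivOfLe h2).finrank_eq])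
  refine ⟨X.map U.subtype, U.map_subtype_le X, ts_map_subtype a1, fun w hw => ⟨⟨w, h1 hw⟩, a2 hw, rfl⟩,
    ?_⟩
  rw [Submodule.finrank_map_subtype_eq, a3, (Submodule.comapSubtypeEquivOfLe h2).finrank_eq]

theorem plus_cancel (hP : P.Nondeg) {A B : Submodule F V} (hA : ND P A) (hB : ND P B)
    (h : B ≤ P.perp A) (h1 : Plus P A) (h2 : Plus P (A ⊔ B)) : Plus P B := by
  obtain ⟨W, a1, a2, a3⟩ := h1
  obtain ⟨L, b1, b2, b3⟩ := h2
  have h3 := hA.finrank_sup h
  obtain ⟨X, c1, c2, c3, c4⟩ := ts_exists_le (hA.sup hB h) a3 b3 (a1.trans le_sup_left) b1 (by omega)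
  have h4 : A ⊓ P.perp W = W := (Submodule.eq_of_le_of_finrank_eq (le_inf a1 a3.2) (by
    have := hA.finrank_inf_perp hP a1
    omega)).symm
  have h5 : X ⊔ B ≤ W ⊔ B := sup_le (fun x hx => by
    obtain ⟨a, ha, b, hb, rfl⟩ := Submodule.mem_sup.1 (c1 hx)
    refine Submodule.add_mem_sup (h4 ▸ ⟨ha, ?_⟩) hb
    simpa using (P.perp W).sub_mem (P.perp_anti c3 (c2.2 hx)) (P.perp_anti a1 (h hb))) le_sup_right
  have h6 := Submodule.finrank_mono h5
  have h7 := Submodule.finrank_sup_add_finrank_inf_eq X B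
  have h8 := Submodule.finrank_add_le_finrank_add_finrank W B
  have h9 := ts_two_mul_le hB (c2.mono inf_le_left) (inf_le_right (a := X))
  exact ⟨X ⊓ B, inf_le_right, by omega, c2.mono inf_le_left⟩

theorem plus_sup_iff_of_plus (hP : P.Nondeg) {A B : Submodule F V} (hA : ND P A) (hB : ND P B)
    (h : B ≤ P.perp A) (h1 : Plus P A) : Plus P (A ⊔ B) ↔ Plus P B :=
  ⟨plus_cancel hP hA hB h h1, fun h2 => h1.sup h2 (hA.disjoint h) h⟩

end General

variable {P : PQ (RingHom.id F) V}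

theorem exists_ofQuad (hΛ : P.Λ = ⊥) : ∃ Q : QuadraticForm F V, P = ofQuad Q := by
  have h1 : ∀ x y, P.N (x + y) = P.N x + P.N y + P.B x y := fun x y => by
    have := P.N_add x y
    rw [hΛ, AddSubgroup.mem_bot] at this
    linear_combination this
  refine ⟨⟨P.N, fun a x => ?_, P.B, h1⟩, pq_ext ?_ ?_ rfl hΛ⟩
  · have := P.N_smul a x
    rw [hΛ, AddSubgroup.mem_bot] at this
    simpa [sub_eq_zero] using this
  · ext x y
    change _ = P.N (x + y) - P.N x - P.N y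
    rw [h1]
    ring
  · have := P.Λ_ge 1
    rw [hΛ, AddSubgroup.mem_bot] at this
    exact (sub_eq_zero.1 (by simpa using this : (1 : F) - P.ε = 0)).symm

theorem nondeg_of_ofQuad {Q : QuadraticForm F V} (h : (ofQuad Q).Nondeg) :
    (polarBilin Q).Nondegenerate := nondegenerate_of_polar h

theorem restrict_ofQuad (Q : QuadraticForm F V) (W : Submodule F V) :
    (ofQuad Q).restrict W = ofQuad (Q.comp W.subtype) :=
  pq_ext (by ext x y; simp [ofQuad, polar, PQ.restrict, PQ.comap]) rfl rfl rfl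

theorem plus_top_iff {Q : QuadraticForm F V} : Plus (ofQuad Q) ⊤ ↔ IsPlus Q :=
  ⟨fun ⟨U, _, h1, h2⟩ => ⟨U, ts_ofQuad_iff.1 h2, by rwa [finrank_top] at h1⟩,
   fun ⟨U, h1, h2⟩ => ⟨U, le_top, by rwa [finrank_top], ts_ofQuad_iff.2 h1⟩⟩

theorem isIso₂_ofQuad {V' : Type*} [AddCommGroup V'] [Module F V'] {Q : QuadraticForm F V}
    {Q' : QuadraticForm F V'} {e : V →ₗ[F] V'} (h : ∀ v, Q' (e v) = Q v) :
    (ofQuad Q).IsIso₂ (ofQuad Q') e :=
  ⟨rfl, polar_map_of_map_Q e h, fun x => (ofQuad_mem Q _).2 (sub_eq_zero.2 (h x))⟩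

section Quad

variable (hΛ : P.Λ = ⊥)
include hΛ

theorem quad_sing {v : V} : P.Sing v ↔ P.N v = 0 := by rw [PQ.Sing, hΛ, AddSubgroup.mem_bot]

theorem quad_ts {U : Submodule F V} : P.TS U ↔ ∀ u ∈ U, P.N u = 0 := by
  obtain ⟨Q, rfl⟩ := exists_ofQuad hΛ
  exact ts_ofQuad_iff

theorem quad_add (x y : V) : P.N (x + y) = P.N x + P.N y + P.B x y := by
  obtain ⟨Q, rfl⟩ := exists_ofQuad hΛ
  exact Q_add Q x y

theorem quad_smul (a : F) (x : V) : P.N (a • x) = a * a * P.N x := by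
  obtain ⟨Q, rfl⟩ := exists_ofQuad hΛ
  exact Q_smul Q a x

theorem quad_zero : P.N 0 = 0 := by rw [← zero_smul F (0 : V), quad_smul hΛ]; simp

theorem quad_self (x : V) : P.B x x = 2 * P.N x := by
  obtain ⟨Q, rfl⟩ := exists_ofQuad hΛ
  exact polar_self' Q x

theorem quad_symm (x y : V) : P.B x y = P.B y x := by
  obtain ⟨Q, rfl⟩ := exists_ofQuad hΛ
  exact polar_comm Q x y

theorem quad_isIso {g : V →ₗ[F] V} : P.IsIso g ↔ ∀ x, P.N (g x) = P.N x := by
  obtain ⟨Q, rfl⟩ := exists_ofQuad hΛ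
  exact ofQuad_isIso Q g

theorem quad_badData (h2 : (2 : F) ≠ 0) : BadData P Even := by
  obtain ⟨Q, rfl⟩ := exists_ofQuad hΛ
  refine Or.inr ⟨rfl, h2, fun k => ?_⟩
  rw [ofQuad_ε, one_mul, Nat.even_add_one, Nat.not_even_iff_odd]
  refine ⟨Odd.neg_one_pow, fun h => Nat.not_even_iff_odd.1 fun h1 => h2 ?_⟩
  rw [h1.neg_one_pow] at h
  linear_combination h

theorem quad_exists_ne {U : Submodule F V} (hU : ND P U) (h0 : U ≠ ⊥) : ∃ v ∈ U, P.N v ≠ 0 := by
  by_contra h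
  push Not at h
  exact h0 (disjoint_self.1 (hU.disjoint ((quad_ts hΛ).2 h).2))

theorem quad_nd_line (h2 : (2 : F) ≠ 0) {v : V} (h : P.N v ≠ 0) : ND P (Submodule.span F {v}) :=
  nd_span_singleton (by rw [quad_self hΛ]; exact mul_ne_zero h2 h)

theorem quad_finrank_line {v : V} (h : P.N v ≠ 0) : finrank F (Submodule.span F {v}) = 1 :=
  finrank_span_singleton (by rintro rfl; exact h (quad_zero hΛ))

/-- The type of a plane spanned by two orthogonal nonsingular vectors. -/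
theorem plus_pair_iff {w u : V} (hw : P.N w ≠ 0) (h : P.B w u = 0)
    (hd : finrank F (Submodule.span F {w} ⊔ Submodule.span F {u} : Submodule F V) = 2) :
    Plus P (Submodule.span F {w} ⊔ Submodule.span F {u}) ↔ IsSquare (-(P.N w * P.N u)) := by
  have key : ∀ s t : F, P.N (s • w + t • u) = s * s * P.N w + t * t * P.N u := fun s t => by
    rw [quad_add hΛ, quad_smul hΛ, quad_smul hΛ, P.B_smul_left, P.B_smul_right, h]; simp
  constructor
  · rintro ⟨L, h1, h2, h3⟩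
    obtain ⟨v, hv, hv0⟩ := Submodule.exists_mem_ne_zero_of_ne_bot (p := L)
      (by rintro rfl; rw [finrank_bot] at h2; omega)
    obtain ⟨a, ha, b, hb, rfl⟩ := Submodule.mem_sup.1 (h1 hv)
    obtain ⟨s, rfl⟩ := Submodule.mem_span_singleton.1 ha
    obtain ⟨t, rfl⟩ := Submodule.mem_span_singleton.1 hb
    have h4 := (quad_ts hΛ).1 h3 _ hv
    rw [key] at h4
    have ht : t ≠ 0 := by
      rintro rfl
      rw [mul_zero, zero_mul, add_zero, mul_eq_zero, mul_self_eq_zero] at h4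
      exact hv0 (by simp [h4.resolve_right hw])
    exact ⟨s * P.N w / t, by field_simp; linear_combination -h4⟩
  · rintro ⟨s, hs⟩
    have h1 : s • w + P.N w • u ≠ 0 := fun h1 => by
      have h2 : Submodule.span F {w} ⊔ Submodule.span F {u} ≤ Submodule.span F {w} :=
        sup_le le_rfl ((Submodule.span_singleton_le_iff_mem _ _).2
          (Submodule.mem_span_singleton.2 ⟨-(P.N w)⁻¹ * s, by
            rw [mul_smul, eq_neg_of_add_eq_zero_left h1, neg_smul, smul_neg, neg_neg, smul_smul,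
              inv_mul_cancel₀ hw, one_smul]⟩))
      have := Submodule.finrank_mono h2
      rw [quad_finrank_line hΛ hw] at this
      omega
    refine ⟨Submodule.span F {s • w + P.N w • u}, (Submodule.span_singleton_le_iff_mem _ _).2
      (Submodule.add_mem_sup (Submodule.smul_mem _ _ (Submodule.mem_span_singleton_self _))
        (Submodule.smul_mem _ _ (Submodule.mem_span_singleton_self _))),
      by rw [finrank_span_singleton h1, hd], P.ts_span_singleton ((quad_sing hΛ).2 ?_)⟩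
    rw [key, ← hs]
    ring

variable [Finite F] [FiniteDimensional F V]

omit [FiniteDimensional F V] in
theorem quad_exists_eq {U : Submodule F V} (hU : ND P U) (h : 2 ≤ finrank F U) (c : F) :
    ∃ v ∈ U, P.N v = c := by
  obtain ⟨Q, rfl⟩ := exists_ofQuad hΛ
  obtain ⟨v, hv⟩ := exists_Q_eq (Q := Q.comp U.subtype)
    (nondeg_of_ofQuad (restrict_ofQuad Q U ▸ hU.nondeg)) h c
  exact ⟨v, v.2, hv⟩

theorem quad_exists_sing {U : Submodule F V} (h : 3 ≤ finrank F U) :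
    ∃ v ∈ U, v ≠ 0 ∧ P.N v = 0 := by
  obtain ⟨Q, rfl⟩ := exists_ofQuad hΛ
  obtain ⟨v, h1, h2⟩ := OrthE.exists_singular (Q.comp U.subtype) h
  exact ⟨v, v.2, fun h => h1 (Subtype.ext h), h2⟩

theorem quad_isIso₂ {V' : Type*} [AddCommGroup V'] [Module F V'] [FiniteDimensional F V']
    {P' : PQ (RingHom.id F) V'} (hΛ' : P'.Λ = ⊥) (hP : P.Nondeg) (hP' : P'.Nondeg)
    (he : Even (finrank F V)) (h : finrank F V = finrank F V') (ht : Plus P ⊤ ↔ Plus P' ⊤) :
    ∃ e : V ≃ₗ[F] V', P.IsIso₂ P' e := by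
  obtain ⟨Q, rfl⟩ := exists_ofQuad hΛ
  obtain ⟨Q', rfl⟩ := exists_ofQuad hΛ'
  obtain ⟨_ | m, hm⟩ := he
  · have := Module.finrank_zero_iff.1 hm
    exact ⟨LinearEquiv.ofFinrankEq _ _ h, isIso₂_ofQuad fun v => by simp [Subsingleton.elim v 0]⟩
  · obtain ⟨e, he⟩ := exists_equiv_of_isPlus_iff (nondeg_of_ofQuad hP) (nondeg_of_ofQuad hP')
      (m := m) (by omega) (by omega) (by rwa [plus_top_iff, plus_top_iff] at ht)
    exact ⟨e, isIso₂_ofQuad (e := e.toLinearMap) he⟩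

theorem quad_nd_trans (hP : P.Nondeg) {U W : Submodule F V} (hU : ND P U) (hW : ND P W)
    (he : Even (finrank F U)) (h : finrank F U = finrank F W) (ht : Plus P U ↔ Plus P W) :
    ∃ g : V ≃ₗ[F] V, P.IsIso g ∧ U.map g.toLinearMap = W := by
  obtain ⟨e, he⟩ := quad_isIso₂ (P := P.restrict U) (P' := P.restrict W) hΛ hΛ hU.nondeg
    hW.nondeg he h (by rwa [plus_restrict, plus_restrict])
  obtain ⟨g, h1, -, h2⟩ := exists_map_eq_of_isIso₂ hP e he
  exact ⟨g, h1, h2⟩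

theorem quad_exists_ts (hP : P.Nondeg) {U : Submodule F V} (hU : ND P U) {e : ℕ}
    (h : 2 * e < finrank F U) : ∃ W, W ≤ U ∧ P.TS W ∧ finrank F W = e := by
  induction e with
  | zero => exact ⟨⊥, bot_le, P.ts_bot, finrank_bot F V⟩
  | succ e ih =>
    obtain ⟨W, a1, a2, a3⟩ := ih (by omega)
    obtain ⟨H, b1, b2, b3, b4, -⟩ := exists_hyp hP hU a2 a1
    have := hU.finrank_inf_perp hP b3
    obtain ⟨v, c1, c2, c3⟩ := quad_exists_sing hΛ (U := U ⊓ P.perp H) (by omega)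
    have c4 := (Submodule.span_singleton_le_iff_mem _ _).2 c1
    refine ⟨W ⊔ Submodule.span F {v}, sup_le a1 (c4.trans inf_le_left),
      a2.sup (P.ts_span_singleton ((quad_sing hΛ).2 c3))
        (c4.trans (inf_le_right.trans (P.perp_anti b2))), ?_⟩
    rw [finrank_sup_of_disjoint ((b1.disjoint (c4.trans inf_le_right)).mono_left b2),
      finrank_span_singleton c2, a3]

theorem quad_exists_ts_iff (hP : P.Nondeg) {U : Submodule F V} (hU : ND P U) {e : ℕ} :
    (∃ W, W ≤ U ∧ P.TS W ∧ finrank F W = e) ↔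
      2 * e < finrank F U ∨ (2 * e = finrank F U ∧ Plus P U) := by
  constructor
  · rintro ⟨W, a1, a2, rfl⟩
    exact (ts_two_mul_le hU a2 a1).lt_or_eq.imp_right fun h => ⟨h, W, a1, h, a2⟩
  · rintro (h | ⟨h, W, a1, a2, a3⟩)
    · exact quad_exists_ts hΛ hP hU h
    · exact ⟨W, a1, a3, by omega⟩

theorem quad_exists_plus (hP : P.Nondeg) {U : Submodule F V} (hU : ND P U) {e : ℕ}
    (h : 2 * e < finrank F U ∨ (2 * e ≤ finrank F U ∧ Plus P U)) :
    ∃ W, W ≤ U ∧ ND P W ∧ finrank F W = 2 * e ∧ Plus P W := by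
  obtain ⟨W, a1, a2, a3⟩ := (quad_exists_ts_iff hΛ hP hU (e := e)).2 (by
    rcases h with h | ⟨h, h'⟩
    · exact Or.inl h
    · exact h.lt_or_eq.imp_right fun h => ⟨h, h'⟩)
  obtain ⟨H, b1, -, b3, b4, b5⟩ := exists_hyp hP hU a2 a1
  exact ⟨H, b3, b1, by rw [b4, a3], b5⟩

theorem plus_sup_of_minus_eq {A B : Submodule F V} (hA : ND P A) (hB : ND P B)
    (h : B ≤ P.perp A) (he : Even (finrank F A)) (hd : finrank F A = finrank F B)
    (h1 : Plus P A ↔ Plus P B) : Plus P (A ⊔ B) := by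
  obtain ⟨Q, rfl⟩ := exists_ofQuad hΛ
  obtain ⟨e, he⟩ := quad_isIso₂ (P := (ofQuad Q).restrict A) (P' := (ofQuad (-Q)).restrict B) rfl rfl
    hA.nondeg (ND.nondeg (nd_iff.2 fun x hx hx' => nd_iff.1 hB x hx fun y hy => by
      simpa [ofQuad_B, polar_neg] using hx' y hy)) he hd (by
      simp only [plus_restrict, h1]
      simp [Plus, ts_ofQuad_iff])
  have h3 : Function.Injective (A.subtype + B.subtype ∘ₗ e.toLinearMap) := by
    rw [injective_iff_map_eq_zero]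
    intro a ha
    have h3 : (a : V) = -(e a : V) := eq_neg_of_add_eq_zero_left ha
    exact Subtype.ext (Submodule.disjoint_def.1 (hA.disjoint h) a a.2
      (by rw [h3]; exact B.neg_mem (e a).2))
  refine ⟨LinearMap.range (A.subtype + B.subtype ∘ₗ e.toLinearMap), ?_, ?_, ts_ofQuad_iff.2 ?_⟩
  · rintro _ ⟨a, rfl⟩
    exact Submodule.add_mem_sup a.2 (e a).2
  · rw [LinearMap.finrank_range_of_inj h3, hA.finrank_sup h, ← hd, two_mul]
  · rintro _ ⟨a, rfl⟩
    have h4 : -Q (e a) - Q a = 0 := he.N_eq a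
    have h5 : polar Q a (e a) = 0 := h (e a).2 a a.2
    change Q (a + e a) = 0
    rw [Q_add, h5]
    linear_combination -h4

theorem plus_sup_of_minus (hP : P.Nondeg) {A B : Submodule F V} (hA : ND P A) (hB : ND P B)
    (h : B ≤ P.perp A) (he : Even (finrank F A)) (he' : Even (finrank F B))
    (h1 : ¬ Plus P A) (h2 : ¬ Plus P B) : Plus P (A ⊔ B) := by
  wlog hle : finrank F A ≤ finrank F B generalizing A B
  · exact sup_comm A B ▸ this hB hA (P.le_perp_comm.1 h) he' he h2 h1 (by omega)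
  obtain ⟨a, ha⟩ := he
  obtain ⟨b, hb⟩ := he'
  have h0 : finrank F A ≠ 0 := fun h => h1 (plus_of_finrank_zero h)
  obtain ⟨H, a1, a2, a3, a4⟩ := quad_exists_plus hΛ hP hB (e := b - a) (Or.inl (by omega))
  have a5 := a2.inf_perp hP hB a1
  have a6 := hB.finrank_inf_perp hP a1
  have a7 := a2.sup_inf_perp hP a1
  have a8 := plus_sup_of_minus_eq hΛ hA a5 (inf_le_left.trans h) ⟨a, ha⟩ (by omega)
    (iff_of_false h1 fun h3 => h2 (a7 ▸ a4.sup h3 (a2.disjoint inf_le_right) inf_le_right))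
  have a9 : A ⊔ B ⊓ P.perp H ≤ P.perp H := sup_le (P.le_perp_comm.1 (a1.trans h)) inf_le_right
  have := a4.sup a8 (a2.disjoint a9) a9
  rwa [sup_left_comm, a7] at this

theorem plus_sup_iff (hP : P.Nondeg) {A B : Submodule F V} (hA : ND P A) (hB : ND P B)
    (h : B ≤ P.perp A) (he : Even (finrank F A)) (he' : Even (finrank F B)) :
    Plus P (A ⊔ B) ↔ (Plus P A ↔ Plus P B) := by
  by_cases h1 : Plus P A
  · simp only [plus_sup_iff_of_plus hP hA hB h h1, h1, true_iff]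
  by_cases h2 : Plus P B
  · rw [sup_comm, plus_sup_iff_of_plus hP hB hA (P.le_perp_comm.1 h) h2]
    simp only [h2, iff_true]
  · simp only [h1, h2, plus_sup_of_minus hΛ hP hA hB h he he' h1 h2]

theorem plus_inf_perp_iff (hP : P.Nondeg) {A U : Submodule F V} (hA : ND P A) (hU : ND P U)
    (hle : A ≤ U) (he : Even (finrank F A)) (he' : Even (finrank F U)) :
    Plus P U ↔ (Plus P A ↔ Plus P (U ⊓ P.perp A)) := by
  have h1 := hU.finrank_inf_perp hP hle
  rw [← plus_sup_iff hΛ hP hA (hA.inf_perp hP hU hle) inf_le_right he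
    (by rw [Nat.even_iff] at *; omega), hA.sup_inf_perp hP hle]

theorem plus_perp_iff (hP : P.Nondeg) {A : Submodule F V} (hA : ND P A)
    (he : Even (finrank F A)) (he' : Even (finrank F V)) :
    Plus P ⊤ ↔ (Plus P A ↔ Plus P (P.perp A)) := by
  rw [plus_inf_perp_iff hΛ hP hA (nd_top hP) le_top he (by rwa [finrank_top]), top_inf_eq]

omit [FiniteDimensional F V] in
theorem plane_of_aniso {x y : V} {a b : F} (hab : Aniso a b) (h1 : P.N x = 1) (h2 : P.B x y = a)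
    (h3 : P.N y = b) : ND P (Submodule.span F {x, y}) ∧
      finrank F (Submodule.span F {x, y}) = 2 ∧ ¬ Plus P (Submodule.span F {x, y}) := by
  obtain ⟨Q, rfl⟩ := exists_ofQuad hΛ
  have h4 := qBin_nondegenerate (discr_ne_zero_of_anisotropic hab)
  have h5 : ∀ v, Q (famMap ![x, y] v) = qBin a b v := fun v => by
    rw [famMap_apply, Fin.sum_univ_two, qBin_apply, Q_add, Q_smul, Q_smul, polar_smul_left,
      polar_smul_right]
    simp only [Matrix.cons_val_zero, Matrix.cons_val_one, smul_eq_mul]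
    rw [show Q x = 1 from h1, show Q y = b from h3, show polar Q x y = a from h2]
    ring
  have h6 : Submodule.span F {x, y} = LinearMap.range (famMap ![x, y]) := by
    rw [range_famMap, Matrix.range_cons_cons_empty]
  have h7 := injective_of_map_Q h4 _ h5
  have h8 : finrank F (Submodule.span F {x, y}) = 2 := by
    rw [h6, LinearMap.finrank_range_of_inj h7, Module.finrank_fin_fun]
  refine ⟨?_, h8, fun ⟨L, a1, a2, a3⟩ => ?_⟩
  · rw [h6, LinearMap.range_eq_map]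
    exact ND.map (P := ofQuad (qBin a b)) (polar_map_of_map_Q _ h5) (nd_top (ofQuad_nondeg _ h4))
  · obtain ⟨v, hv, hv0⟩ := Submodule.exists_mem_ne_zero_of_ne_bot (p := L)
      (by rintro rfl; rw [finrank_bot] at a2; omega)
    obtain ⟨z, rfl⟩ := h6.le (a1 hv)
    obtain ⟨b1, b2⟩ := hab _ _ ((qBin_apply a b z).symm.trans
      ((h5 z).symm.trans (ts_ofQuad_iff.1 a3 _ hv)))
    exact hv0 (by simp [famMap_apply, b1, b2])

theorem quad_exists_minus_plane (hP : P.Nondeg) {U : Submodule F V} (hU : ND P U)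
    (h : 3 ≤ finrank F U) : ∃ A, A ≤ U ∧ ND P A ∧ finrank F A = 2 ∧ ¬ Plus P A := by
  obtain ⟨H, a1, a2, a3, L, a4, a5, a6⟩ := quad_exists_plus hΛ hP hU (e := 1) (Or.inl (by omega))
  obtain ⟨L', b1, b2, b3⟩ := exists_ts_compl hP a2 a6 a4 a5
  obtain ⟨e, he, he0⟩ := Submodule.exists_mem_ne_zero_of_ne_bot (p := L)
    (by rintro rfl; rw [finrank_bot] at a5; omega)
  obtain ⟨f', hf', h1⟩ := nd_iff'.1 a2 e (a4 he) he0
  obtain ⟨l, hl, f'', hf, rfl⟩ := Submodule.mem_sup.1 (b2.ge hf')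
  rw [P.B_add_right, a6.B_eq he hl, zero_add] at h1
  obtain ⟨f, hf, h1⟩ : ∃ f ∈ L', P.B e f = 1 :=
    ⟨(P.B e f'')⁻¹ • f'', L'.smul_mem _ hf, by rw [P.B_smul_right, inv_mul_cancel₀ h1]⟩
  have hfH : f ∈ H := b2.le (Submodule.mem_sup_right hf)
  have h2 := hU.finrank_inf_perp hP a1
  obtain ⟨w, hw, h3⟩ := quad_exists_ne hΛ (a2.inf_perp hP hU a1)
    (fun h => by rw [h, finrank_bot] at h2; omega)
  have c1 := (quad_ts hΛ).1 a6 e he
  have c2 := (quad_ts hΛ).1 b1 f hf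
  have c3 := hw.2 e (a4 he)
  have c4 := hw.2 f hfH
  obtain ⟨α, β, γ, hab⟩ : ∃ α β γ : F, Aniso (α + β) (α * β + γ * γ * P.N w) := by
    by_cases h2 : (2 : F) = 0
    · obtain ⟨ζ, hζ⟩ := exists_aniso_one (F := F)
      obtain ⟨γ, hγ⟩ := isSquare_of_charTwo h2 (ζ / P.N w)
      exact ⟨1, 0, γ, by rwa [← hγ, div_mul_cancel₀ _ h3, add_zero, mul_zero, zero_add]⟩
    · obtain ⟨δ, hδ⟩ := exists_not_isSquare h2
      obtain ⟨s, t, hst⟩ := exists_sq_add_sq_eq one_ne_zero (neg_ne_zero.2 h3) δ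
      exact ⟨s, -s, t, aniso_iff.2 fun u hu => hδ ⟨u, by linear_combination -hst - hu⟩⟩
  refine ⟨_, span_pair_le (U.add_mem (a1 (a4 he)) (a1 hfH)) (U.add_mem (U.add_mem
    (U.smul_mem α (a1 (a4 he))) (U.smul_mem β (a1 hfH))) (U.smul_mem γ hw.1)),
    plane_of_aniso hΛ hab ?_ ?_ ?_⟩
  · rw [quad_add hΛ, c1, c2, h1]; ring
  · simp only [P.B_add_left, P.B_add_right, P.B_smul_right, quad_self hΛ, quad_symm hΛ f e, c1, c2,
      c3, c4, h1]
    ring
  · simp only [quad_add hΛ, quad_smul hΛ, P.B_add_left, P.B_smul_right, P.B_smul_left, c1, c2,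
      c3, c4, h1, RingHom.id_apply]
    ring

/-- Proper nonzero even-dimensional nondegenerate subspaces exist of both types. -/
theorem quad_exists_type (hP : P.Nondeg) {U : Submodule F V} (hU : ND P U) {e : ℕ} (h0 : 0 < e)
    (h : 2 * e < finrank F U) (η : Prop) :
    ∃ W, W ≤ U ∧ ND P W ∧ finrank F W = 2 * e ∧ (Plus P W ↔ η) := by
  by_cases hη : η
  · obtain ⟨W, a1, a2, a3, a4⟩ := quad_exists_plus hΛ hP hU (Or.inl h)
    exact ⟨W, a1, a2, a3, iff_of_true a4 hη⟩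
  · obtain ⟨A, a1, a2, a3, a4⟩ := quad_exists_minus_plane hΛ hP hU (by omega)
    have := hU.finrank_inf_perp hP a1
    obtain ⟨W, b1, b2, b3, b4⟩ := quad_exists_plus hΛ hP (a2.inf_perp hP hU a1) (e := e - 1)
      (Or.inl (by omega))
    have b5 := b1.trans inf_le_right
    refine ⟨A ⊔ W, sup_le a1 (b1.trans inf_le_left), a2.sup b2 b5, by rw [a2.finrank_sup b5]; omega,
      iff_of_false ?_ hη⟩
    rwa [sup_comm, plus_sup_iff_of_plus hP b2 a2 (P.le_perp_comm.1 b5) b4]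

theorem quad_exists_type_iff (hP : P.Nondeg) {U : Submodule F V} (hU : ND P U) {s : ℕ}
    (hs : Even s) (η : Prop) :
    (∃ W, W ≤ U ∧ ND P W ∧ finrank F W = s ∧ (Plus P W ↔ η)) ↔
      (s = 0 ∧ η) ∨ (0 < s ∧ s < finrank F U) ∨ (s = finrank F U ∧ (Plus P U ↔ η)) := by
  constructor
  · rintro ⟨W, a1, a2, rfl, a3⟩
    rcases Nat.eq_zero_or_pos (finrank F W) with h | h
    · exact Or.inl ⟨h, a3.1 (plus_of_finrank_zero h)⟩
    rcases (Submodule.finrank_mono a1).lt_or_eq with h1 | h1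
    · exact Or.inr (Or.inl ⟨h, h1⟩)
    · obtain rfl := Submodule.eq_of_le_of_finrank_eq a1 h1
      exact Or.inr (Or.inr ⟨rfl, a3⟩)
  · rintro (⟨rfl, h⟩ | ⟨h, h1⟩ | ⟨rfl, h⟩)
    · exact ⟨⊥, bot_le, nd_bot, finrank_bot F V, iff_of_true plus_bot h⟩
    · obtain ⟨e, rfl⟩ := hs.two_dvd
      exact quad_exists_type hΛ hP hU (by omega) h1 η
    · exact ⟨U, le_rfl, hU, rfl, h⟩

omit [Finite F] in
theorem quad_exists_nd (hP : P.Nondeg) (h2 : (2 : F) ≠ 0) {U : Submodule F V} (hU : ND P U) {m : ℕ}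
    (h : m ≤ finrank F U) : ∃ W, W ≤ U ∧ ND P W ∧ finrank F W = m := by
  obtain ⟨k, h1, h3⟩ := multiples_of_blocks hP (isom_one P) hU (fun _ h => h) one_ne_zero
    fun Y _ h4 _ h5 => by
      obtain ⟨v, hv, h6⟩ := quad_exists_ne hΛ h4 h5
      exact ⟨_, (Submodule.span_singleton_le_iff_mem _ _).2 hv, quad_nd_line hΛ h2 h6,
        fun _ h => h, quad_finrank_line hΛ h6⟩
  obtain ⟨W, a1, a2, -, a3⟩ := h3 m (by omega)
  exact ⟨W, a1, a2, by omega⟩

end Quad

end CfsgLib.Elus2
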