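import Mathlib
import Cfsg.Agent.Lib.Elus2.Orth1
import Cfsg.Agent.Lib.OrthE.OrderP
import Cfsg.Agent.Lib.OrthE.OrderStd

/-!
Orders of orthogonal groups and isometries of odd prime order of finite quadratic spaces.
-/

set_option autoImplicit false

namespace CfsgLib.Elus2

open Polynomial Module CfsgLib.MatConj CfsgLib.Forms CfsgLib.Elusive CfsgLib.Orth QuadraticMap

variable {F : Type*} [Field F] {V : Type*} [AddCommGroup V] [Module F V]

section Arith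

theorem lex_lt {c x y a b : ℕ} (ha : a < c) (hb : b < c) :
    c * x + b < c * y + a ↔ x < y ∨ (x = y ∧ b < a) := by
  rcases lt_trichotomy x y with h | rfl | h
  · have := Nat.mul_le_mul_left c (Nat.succ_le_of_lt h)
    rw [Nat.mul_succ] at this
    omega
  · omega
  · have := Nat.mul_le_mul_left c (Nat.succ_le_of_lt h)
    rw [Nat.mul_succ] at this
    omega

theorem lex_eq {c x y a b : ℕ} (ha : a < c) (hb : b < c) :
    c * x + b = c * y + a ↔ x = y ∧ b = a := by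
  have h1 := lex_lt (x := x) (y := y) ha hb
  have h2 := lex_lt (x := y) (y := x) hb ha
  constructor
  · intro h
    omega
  · rintro ⟨rfl, rfl⟩
    rfl

theorem add_mul_eq (c m k : ℕ) : m + c * k = c * (m / c + k) + m % c := by
  have := Nat.div_add_mod m c
  rw [mul_add]
  omega

theorem nf_lt {c : ℕ} (hc : 0 < c) (m n k j : ℕ) : m + c * k < n + c * j ↔
    m / c + k < n / c + j ∨ (m / c + k = n / c + j ∧ m % c < n % c) := by
  rw [add_mul_eq c m, add_mul_eq c n, lex_lt (Nat.mod_lt _ hc) (Nat.mod_lt _ hc)]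

theorem nf_eq {c : ℕ} (hc : 0 < c) (m n k j : ℕ) : m + c * k = n + c * j ↔
    m / c + k = n / c + j ∧ m % c = n % c := by
  rw [add_mul_eq c m, add_mul_eq c n, lex_eq (Nat.mod_lt _ hc) (Nat.mod_lt _ hc)]

theorem nf_le {c : ℕ} (hc : 0 < c) (m j : ℕ) : c * j ≤ m ↔ j ≤ m / c := by
  rw [Nat.le_div_iff_mul_le hc, mul_comm]

theorem nf_eq' {c : ℕ} (hc : 0 < c) (m j : ℕ) : m = c * j ↔ j = m / c ∧ m % c = 0 := by
  have := nf_eq hc m 0 0 j
  simp only [mul_zero, add_zero, zero_add, Nat.zero_div, Nat.zero_mod] at this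
  rw [this, eq_comm]

theorem nf_lt' {c : ℕ} (hc : 0 < c) (m j : ℕ) : c * j < m ↔ j < m / c ∨ (j = m / c ∧ 0 < m % c) := by
  simpa using nf_lt hc 0 m j 0

theorem forall_exists_elim {A : ℕ → Prop} {S : ℕ → ℕ → Prop} {R : Prop} (k₁ k₂ k₃ : ℕ)
    (f g : ℕ → ℕ)
    (h1 : ∀ j₁ j₂ j₃, (A k₁ → S k₁ j₁) → (A k₂ → S k₂ j₂) → (A k₃ → S k₃ j₃) → R)
    (h2 : R → ∀ k, A k → S k (f k) ∨ S k (g k)) : (∀ k, A k → ∃ j, S k j) ↔ R := by
  refine ⟨fun h => ?_, fun h k hk => (h2 h k hk).elim (fun h => ⟨_, h⟩) fun h => ⟨_, h⟩⟩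
  have key : ∀ k, ∃ j, A k → S k j := fun k => by
    by_cases hk : A k
    · exact (h k hk).imp fun _ h _ => h
    · exact ⟨0, fun h => absurd h hk⟩
  choose j hj using key
  exact h1 _ _ _ (hj k₁) (hj k₂) (hj k₃)

theorem exists_of_dvd_sub {r q k i c : ℕ} (hq : 0 < q) (hi : i = orderOf (q : ZMod r))
    (hc : c = if Even i then i else 2 * i) (h : r ∣ q ^ k - 1) :
    ∃ l, 2 * k = c * l ∧ (Even i → Even l) := by
  rw [dvd_pow_sub_one_iff hq, ← hi] at h
  obtain ⟨s, rfl⟩ := h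
  split_ifs at hc with h1
  · exact ⟨2 * s, by rw [hc]; ring, fun _ => even_two_mul s⟩
  · exact ⟨s, by rw [hc]; ring, fun h => absurd h h1⟩

theorem exists_of_dvd_add {r q k i c : ℕ} [Fact r.Prime] (h2 : r ≠ 2) (hi0 : 0 < i)
    (hi : i = orderOf (q : ZMod r)) (hc : c = if Even i then i else 2 * i) (h : r ∣ q ^ k + 1) :
    ∃ l, 2 * k = c * l ∧ ¬ (Even i → Even l) := by
  rw [dvd_pow_add_one_iff, pow_eq_neg_one_iff h2, ← hi, dvd_two_mul_not_dvd_iff hi0] at h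
  obtain ⟨h1, ⟨s, hs⟩, h3⟩ := h
  rw [if_pos h1] at hc
  rw [hs, Nat.mul_div_cancel_left _ hi0] at h3
  exact ⟨s, hc ▸ hs, fun h => Nat.not_even_iff_odd.2 h3 (h h1)⟩

theorem two_mul_div_mod {i : ℕ} (hi : 0 < i) (m : ℕ) :
    (2 * m / i = 2 * (m / i) ∧ 2 * m % i = 2 * (m % i)) ∨
      (2 * m / i = 2 * (m / i) + 1 ∧ 2 * m % i + i = 2 * (m % i)) := by
  have h1 := Nat.div_add_mod m i
  have h2 := Nat.div_add_mod (2 * m) i
  have h3 := Nat.mod_lt m hi
  have h4 := Nat.mod_lt (2 * m) hi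
  by_cases h : 2 * (m % i) < i
  · exact Or.inl ((lex_eq h h4).1 (by rw [h2, mul_left_comm]; omega))
  · have := (lex_eq (c := i) (x := 2 * m / i) (y := 2 * (m / i) + 1) (a := 2 * (m % i) - i)
      (by omega) h4).1 (by rw [h2, mul_add, mul_left_comm]; omega)
    omega

theorem iff_aux1 {a b : Prop} : a ↔ ((b ↔ a) ↔ b) := by tauto

theorem iff_aux2 {a b : Prop} : a ↔ ((a ↔ b) ↔ b) := by tauto

theorem iff_aux3 {a b c : Prop} : ((a ↔ b) ↔ c) ↔ (a ↔ (c ↔ b)) := by tauto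

theorem mod_mod_two {c : ℕ} (hc : Even c) (n : ℕ) : n % c % 2 = n % 2 :=
  Nat.mod_mod_of_dvd n hc.two_dvd

/-- Admissible numbers of nontrivial blocks. -/
def OAdm (N a : ℕ) (τ e : Prop) (k : ℕ) : Prop :=
  1 ≤ k ∧ k ≤ N ∧ (k = N → a = 0 → (τ ↔ (e → Even k)))

/-- Invariant nondegenerate subspace with `j` nontrivial blocks. -/
def ONd (N a M b : ℕ) (τ η e : Prop) (k j : ℕ) : Prop :=
  j ≤ k ∧ j ≤ M ∧ ((j = M ∧ b = 0 ∧ (η ↔ (e → Even j))) ∨
    ((j < M ∨ 0 < b) ∧ (M + k < N + j ∨ (M + k = N + j ∧ b < a))) ∨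
    (M + k = N + j ∧ b = a ∧ ((τ ↔ (e → Even k)) ↔ (η ↔ (e → Even j)))))

/-- Invariant totally singular subspace with `j` nontrivial blocks. -/
def OTs (N a M b L g t : ℕ) (τ e : Prop) (k j : ℕ) : Prop :=
  (e → j = 0 ∨ 2 * j + t ≤ k + 1) ∧ (¬ e → j ≤ k) ∧ j ≤ L ∧
    (M + k < N + g * j ∨ (M + k = N + g * j ∧ (b < a ∨ (b = a ∧ (τ ↔ (e → Even k))))))

/-- Consequence of the divisibility of the degree by the prime. -/
def OOm (N a M b : ℕ) (τ η e : Prop) (k : ℕ) : Prop :=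
  (k = N ∧ a = 0 ∧ (τ ↔ (e → Even k))) ∨
    ((N < M + k ∨ (N = M + k ∧ a < b)) ∧ (k < N ∨ (k = N ∧ 0 < a))) ∨
    (N = M + k ∧ a = b ∧ ¬ ((τ ↔ η) ↔ (e → Even k)))

end Arith

variable {P : PQ (RingHom.id F) V} (hΛ : P.Λ = ⊥) [Fintype F] [FiniteDimensional F V]
include hΛ

theorem quad_card (hP : P.Nondeg) : ∃ a u u' : ℕ,
    Nat.card P.isom ∣ Fintype.card F ^ a * (spo (Fintype.card F) ((finrank F V - 1) / 2) * (2 * u)) ∧
    spo (Fintype.card F) (finrank F V / 2) ∣ Nat.card P.isom * u' ∧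
    ((u = 1 ∧ u' = 1) ∨ ∃ k, finrank F V = 2 * k ∧
      ((Plus P ⊤ ∧ u = Fintype.card F ^ k - 1 ∧ u' = Fintype.card F ^ k + 1) ∨
       (¬ Plus P ⊤ ∧ u = Fintype.card F ^ k + 1 ∧ u' = Fintype.card F ^ k - 1))) := by
  obtain ⟨Q, rfl⟩ := exists_ofQuad hΛ
  have h0 : Nat.card (ofQuad Q).isom = Nat.card (OrthE.O Q) := by
    congr 2
    ext g
    exact ofQuad_isIso_equiv Q g
  have hq : 0 < Fintype.card F := Fintype.card_pos
  rw [h0]
  rcases Nat.even_or_odd' (finrank F V) with ⟨_ | k, hk | hk⟩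
  · have := Module.finrank_zero_iff.1 hk
    exact ⟨0, 1, 1, by simp, by simp [hk, spo], Or.inl ⟨rfl, rfl⟩⟩
  · exact ⟨0, 1, 1, by simp [OrthE.card_O_one hP hk, hk, spo], by simp [hk, spo], Or.inl ⟨rfl, rfl⟩⟩
  · have h1 := card_zeros_eq (nondeg_of_ofQuad hP) (m := k) hk
    have h2 := OrthE.card_O_even _ (by split_ifs <;> simp) k Q hP hk h1
    rw [Nat.card_eq_fintype_card (α := F), ← OrthE.cast_prod_sub_one _ hq, ← spo] at h2
    have h3 : (finrank F V - 1) / 2 = k := by omega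
    have h4 : finrank F V / 2 = k + 1 := by omega
    have h5 : 1 ≤ Fintype.card F ^ (k + 1) := Nat.one_le_pow _ _ hq
    have h6 : Fintype.card F ^ (2 * (k + 1)) - 1 =
        (Fintype.card F ^ (k + 1) - 1) * (Fintype.card F ^ (k + 1) + 1) := by
      zify [h5, Nat.one_le_pow (2 * (k + 1)) _ hq]
      ring
    rw [h3, h4, spo_succ, h6, plus_top_iff]
    split_ifs at h2 with h7
    · have h8 : Nat.card (OrthE.O Q) = Fintype.card F ^ ((k + 1) * k) *
          (spo (Fintype.card F) k * (2 * (Fintype.card F ^ (k + 1) - 1))) := by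
        zify [h5]
        rw [h2]
        ring
      exact ⟨_, _, _, h8.dvd, ⟨2 * Fintype.card F ^ ((k + 1) * k), by rw [h8]; ring⟩,
        Or.inr ⟨_, hk, Or.inl ⟨h7, rfl, rfl⟩⟩⟩
    · have h8 : Nat.card (OrthE.O Q) = Fintype.card F ^ ((k + 1) * k) *
          (spo (Fintype.card F) k * (2 * (Fintype.card F ^ (k + 1) + 1))) := by
        zify
        rw [h2]
        ring
      exact ⟨_, _, _, h8.dvd, ⟨2 * Fintype.card F ^ ((k + 1) * k), by rw [h8]; ring⟩,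
        Or.inr ⟨_, hk, Or.inr ⟨h7, rfl, rfl⟩⟩⟩
  · have h2 := OrthE.card_O_odd _ Q hP hk
    rw [Nat.card_eq_fintype_card (α := F), ← OrthE.cast_prod_sub_one _ hq, ← spo] at h2
    have h3 : (finrank F V - 1) / 2 = k + 1 := by omega
    have h4 : finrank F V / 2 = k + 1 := by omega
    have h8 : Nat.card (OrthE.O Q) = Fintype.card F ^ ((k + 1) ^ 2) *
        (spo (Fintype.card F) (k + 1) * (2 * 1)) := by
      zify
      rw [h2]
      ring
    rw [h3, h4]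
    exact ⟨_, _, 1, h8.dvd, ⟨2 * Fintype.card F ^ ((k + 1) ^ 2), by rw [h8]; ring⟩,
      Or.inl ⟨rfl, rfl⟩⟩

omit hΛ [Fintype F] in
theorem quad_model {s : Multiset (F[X] × ℕ)} (hs : QuadReal s) :
    ∃ (P₀ : PQ (RingHom.id F) (Fin (mdeg s) → F)) (T : End F (Fin (mdeg s) → F)),
      P₀.Λ = ⊥ ∧ P₀.Nondeg ∧ Isom P₀ T ∧ ed T = s := by
  obtain ⟨Q, A, h1, h2, h3⟩ := hs.exists_quadraticForm (n := Fin (mdeg s)) (Fintype.card_fin _).symm
  exact ⟨ofQuad Q, Matrix.toLin' A.1, rfl, ofQuad_nondeg Q h1, (ofQuad_isIso Q _).2 h2, h3⟩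

theorem quad_exists_isom_odd (hP : P.Nondeg) (ho : Odd (finrank F V)) {s : Multiset (F[X] × ℕ)}
    (hs : QuadReal s) (h : mdeg s = finrank F V) : ∃ T, Isom P T ∧ ed T = s := by
  obtain ⟨P₀, T, h1, h2, h3, h4⟩ := quad_model hs
  obtain ⟨Q, rfl⟩ := exists_ofQuad hΛ
  obtain ⟨Q₀, rfl⟩ := exists_ofQuad h1
  obtain ⟨m, hm⟩ := ho
  obtain ⟨-, e, c, hc, he⟩ := exists_equiv_qOdd (nondeg_of_ofQuad hP) hm
  obtain ⟨-, e₀, c₀, hc₀, he₀⟩ := exists_equiv_qOdd (nondeg_of_ofQuad h2) (m := m)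
    (by rw [Module.finrank_fin_fun, h, hm])
  obtain ⟨T', a1, a2⟩ := exists_isom_of_isIso₂ (P := ofQuad ((c / c₀) • Q₀)) (P' := ofQuad Q)
    (e := e₀.symm.trans e) (isIso₂_ofQuad (e := (e₀.symm.trans e).toLinearMap) fun v => by
      obtain ⟨v, rfl⟩ := e₀.surjective v
      simp only [LinearEquiv.coe_coe, LinearEquiv.trans_apply, LinearEquiv.symm_apply_apply, he,
        _root_.smul_apply, he₀, smul_eq_mul]
      field_simp) (T := T) ((ofQuad_isIso _ _).2 fun v => by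
      simp only [_root_.smul_apply, (ofQuad_isIso _ _).1 h3 v])
  exact ⟨T', a1, a2.trans h4⟩

theorem quad_exists_isom_even (hP : P.Nondeg) (he : Even (finrank F V)) {s : Multiset (F[X] × ℕ)}
    (hs : QuadReal s) (h : mdeg s = finrank F V)
    (ht : ∀ (P₀ : PQ (RingHom.id F) (Fin (mdeg s) → F)) (T : End F (Fin (mdeg s) → F)),
      P₀.Λ = ⊥ → P₀.Nondeg → Isom P₀ T → ed T = s → (Plus P₀ ⊤ ↔ Plus P ⊤)) :
    ∃ T, Isom P T ∧ ed T = s := by
  obtain ⟨P₀, T, h1, h2, h3, h4⟩ := quad_model hs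
  obtain ⟨e, he⟩ := quad_isIso₂ h1 hΛ h2 hP (by rwa [Module.finrank_fin_fun, h])
    (by rw [Module.finrank_fin_fun, h]) (ht P₀ T h1 h2 h3 h4)
  obtain ⟨T', a1, a2⟩ := exists_isom_of_isIso₂ he h3
  exact ⟨T', a1, a2.trans h4⟩

theorem quad_exists_unip_odd (hP : P.Nondeg) (h2 : (2 : F) ≠ 0) {μ : Multiset ℕ}
    (h1 : ∀ a ∈ μ, 0 < a) (h3 : ∀ a, Even a → Even (μ.count a)) (h4 : μ.sum = finrank F V)
    (ho : Odd (finrank F V)) : ∃ T, Isom P T ∧ ed T = unEd μ :=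
  quad_exists_isom_odd hΛ hP ho (quadReal_pm h2 (Or.inl rfl) h1 h3) (by rw [← h4]; exact mdeg_unEd μ)

theorem quad_exists_unip (hP : P.Nondeg) (h2 : (2 : F) ≠ 0) {μ : Multiset ℕ}
    (h1 : ∀ a ∈ μ, 0 < a) (h3 : ∀ a, Even a → Even (μ.count a)) (h4 : μ.sum = finrank F V)
    (h5 : (∀ a ∈ μ, Even a) → Plus P ⊤) : ∃ T, Isom P T ∧ ed T = unEd μ := by
  rcases Nat.even_or_odd (finrank F V) with he | ho
  swap
  · exact quad_exists_unip_odd hΛ hP h2 h1 h3 h4 ho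
  by_cases h6 : ∀ a ∈ μ, Even a
  · exact quad_exists_isom_even hΛ hP he (quadReal_pm h2 (Or.inl rfl) h1 h3)
      (by rw [← h4]; exact mdeg_unEd μ) fun P₀ T _ a2 a3 a4 => iff_of_true
        (plus_of_forall_even h2 a2 a3 (nd_top a2) (inv_top T) ((edOn_top T).trans a4) h6) (h5 h6)
  push Not at h6
  obtain ⟨a, ha, h6⟩ := h6
  obtain ⟨ν, rfl⟩ := Multiset.exists_cons_of_mem ha
  rw [Multiset.sum_cons] at h4
  obtain ⟨A, -, a1, a2⟩ := quad_exists_nd hΛ hP h2 (nd_top hP) (m := a) (by rw [finrank_top]; omega)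
  have a3 := P.finrank_perp hP A
  have h7 : ∀ b, Even b → b ≠ a := fun b hb h => h6 (h ▸ hb)
  obtain ⟨S, b1, b2⟩ := quad_exists_unip_odd (P := P.restrict A) hΛ a1.nondeg h2 (μ := {a})
    (by simpa using h1 a ha) (fun b hb => by simp [h7 b hb])
    (by simp [a2]) (a2 ▸ Nat.not_even_iff_odd.1 h6)
  obtain ⟨S', c1, c2⟩ := quad_exists_unip_odd (P := P.restrict (P.perp A)) hΛ (a1.perp hP).nondeg
    h2 (μ := ν) (fun b hb => h1 b (Multiset.mem_cons_of_mem hb))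
    (fun b hb => by simpa [Multiset.count_cons_of_ne (h7 b hb)] using h3 b hb) (by omega)
    (by rw [Nat.odd_iff]; rw [Nat.even_iff] at he h6; omega)
  obtain ⟨T, d1, -, -, -, -, -, d2⟩ := exists_sum hP a1 b1 c1
  exact ⟨T, d1, by rw [d2, b2, c2, ← unEd_add, Multiset.singleton_add]⟩

variable {p r : ℕ} [hp : Fact p.Prime] [CharP F p] [hr : Fact r.Prime]

theorem quad_not_dvd_card_ts (hP : P.Nondeg) {m : ℕ} (hm : 2 * m < finrank F V) :
    ¬ p ∣ Nat.card {U : Submodule F V // finrank F U = m ∧ P.TS U} := by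
  refine not_dvd_card_ts P m (fun U W _ h2 h3 h4 => ?_) fun U W h1 h2 h3 => h1.exists_map_eq hP h2 h3
  obtain ⟨Q, rfl⟩ := exists_ofQuad hΛ
  have h5 := finrank_sup_of_disjoint h3
  have h6 := (ofQuad Q).finrank_perp hP U
  rw [h4] at h5
  have h7 : OrthE.Nondeg (Q.comp W.subtype) := by
    have := (nd_of_compl_perp hP h3 h4).nondeg
    rwa [restrict_ofQuad] at this
  have h8 : p ∣ Nat.card F := Nat.card_eq_fintype_card (α := F) ▸ char_dvd_card
  change p ∣ Nat.card {w : W // Q.comp W.subtype w = 0}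
  rcases Nat.even_or_odd' (finrank F W) with ⟨k, hk | hk⟩
  · obtain ⟨k, rfl⟩ : ∃ l, k = l + 2 := ⟨k - 2, by omega⟩
    obtain ⟨ε, -, h9⟩ := OrthE.card_zeros_even (k + 1) _ h7 hk
    rw [← Int.natCast_dvd_natCast, h9]
    have h10 := Int.natCast_dvd_natCast.2 h8
    exact (dvd_pow h10 (by omega)).add
      (((dvd_pow h10 (by omega)).sub (dvd_pow h10 (by omega))).mul_left _)
  · rw [OrthE.card_zeros_odd k _ h7 hk]
    exact dvd_pow h8 (by omega)

theorem quad_om (hP : P.Nondeg) (hrp : r ≠ p) (h2 : r ≠ 2) {i c : ℕ}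
    (hi : i = orderOf (Fintype.card F : ZMod r)) (hc : c = if Even i then i else 2 * i)
    {A : Submodule F V} (hA : ND P A) (h0 : finrank F A ≠ 0) {N : ℕ} (hN : r ∣ N)
    (h : N * Nat.card (P.restrict (P.perp A)).isom ∣ Nat.card P.isom) :
    ∃ k, (finrank F V = c * k ∧ (Plus P ⊤ ↔ (Even i → Even k))) ∨
      (finrank F V < finrank F A + c * k ∧ c * k < finrank F V) ∨
      (finrank F V = finrank F A + c * k ∧ ¬ (Plus P (P.perp A) ↔ (Even i → Even k))) := by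
  have h1 := P.finrank_perp hP A
  have hq : 0 < Fintype.card F := Fintype.card_pos
  have hi0 : 0 < i := hi ▸ ord_pos hrp
  obtain ⟨l, hl⟩ := Nat.exists_eq_add_of_le
    (show finrank F (P.perp A) / 2 ≤ (finrank F V - 1) / 2 by omega)
  obtain ⟨a, u, u₁, a1, -, a2⟩ := quad_card hΛ hP
  obtain ⟨a', u₂, u', -, b1, b2⟩ := quad_card (P := P.restrict (P.perp A)) hΛ (hA.perp hP).nondeg
  rw [hl, spo_add] at a1
  have h3 := prime_dvd_of_mul_dvd (a := 0) (b := a) hr.out (not_dvd_card hrp)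
    (spo_ne_zero Fintype.one_lt_card _) (by
      rw [pow_zero, one_mul]
      refine (mul_dvd_mul_left N b1).trans ?_
      rw [← mul_assoc]
      refine (mul_dvd_mul_right (h.trans a1) u').trans (dvd_of_eq ?_)
      rw [mul_assoc, mul_assoc, mul_assoc]) hN
  have h4 : ¬ r ∣ 2 := fun h => h2 ((Nat.prime_dvd_prime_iff_eq hr.out Nat.prime_two).1 h)
  have h5 : ¬ r ∣ 1 := hr.out.not_dvd_one
  simp only [hr.out.dvd_mul, h4, false_or] at h3
  clear a1 b1 h hN h4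
  rcases h3 with h3 | h3 | h3
  · clear a2 b2
    obtain ⟨j, c1, c2, c3⟩ := exists_of_dvd_prod_sp hr.out hq h3
    obtain ⟨k, hk⟩ := c_dvd hc (hi ▸ c3)
    exact ⟨k, Or.inr (Or.inl ⟨by omega, by omega⟩)⟩
  · clear b2
    rcases a2 with ⟨rfl, -⟩ | ⟨k, c1, ⟨c2, rfl, -⟩ | ⟨c2, rfl, -⟩⟩
    · exact absurd h3 h5
    · obtain ⟨k, d1, d2⟩ := exists_of_dvd_sub hq hi hc h3
      exact ⟨k, Or.inl ⟨by omega, iff_of_true c2 d2⟩⟩
    · obtain ⟨k, d1, d2⟩ := exists_of_dvd_add h2 hi0 hi hc h3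
      exact ⟨k, Or.inl ⟨by omega, iff_of_false c2 d2⟩⟩
  · clear a2
    rw [plus_restrict] at b2
    rcases b2 with ⟨-, rfl⟩ | ⟨k, c1, ⟨c2, -, rfl⟩ | ⟨c2, -, rfl⟩⟩
    · exact absurd h3 h5
    · obtain ⟨k, d1, d2⟩ := exists_of_dvd_add h2 hi0 hi hc h3
      exact ⟨k, Or.inr (Or.inr ⟨by omega, fun h => d2 (h.1 c2)⟩)⟩
    · obtain ⟨k, d1, d2⟩ := exists_of_dvd_sub hq hi hc h3
      exact ⟨k, Or.inr (Or.inr ⟨by omega, fun h => c2 (h.2 d2)⟩)⟩

theorem quad_plus_iff_ed (hP : P.Nondeg) (hrp : r ≠ p) (h2 : r ≠ 2) {T : End F V} (hT : Isom P T)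
    {t : Multiset F[X]} (ht : ∀ f ∈ t, f ∈ cyc F r) (h : ed T = ssEd 0 t) :
    Plus P ⊤ ↔ Even (Multiset.card t) := by
  have ht' : ∀ f ∈ t, f ∈ cycFac F r := fun f hf => mem_cycFac.2 (mem_cyc.1 (ht f hf))
  have h1 := finrank_eq_mdeg_ed T
  rw [h, mdeg_ssEd hrp 0 ht, zero_add] at h1
  obtain ⟨_ | m, hm⟩ := even_mul_card hr.out hrp h2 ht'
    (map_tilde_of_nd hP hrp hT (nd_top hP) (inv_top T) ht ((edOn_top T).trans h))
  · refine iff_of_true (plus_of_finrank_zero (by rw [finrank_top, h1, hm])) ?_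
    rw [(mul_eq_zero.1 hm).resolve_left (ord_pos hrp).ne']
    exact Even.zero
  let e : (Fin (2 * m + 2) → F) ≃ₗ[F] V := LinearEquiv.ofFinrankEq _ _
    (by rw [Module.finrank_fin_fun]; omega)
  have he := P.isIso₂_comap e.toLinearMap
  obtain ⟨T', a1, a2⟩ := exists_isom_of_isIso₂ (PQ.IsIso₂.symm (g := e) he) hT
  rw [← plus_top_congr (e := e) he]
  have a3 := P.comap_nondeg_of_equiv hP e
  obtain ⟨Q, hQ⟩ := exists_ofQuad (P := P.comap e.toLinearMap) hΛ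
  rw [hQ] at a1 a3 ⊢
  obtain ⟨A, rfl⟩ := Matrix.toLin'.surjective T'
  rw [plus_top_iff]
  exact isPlus_iff_even hr.out hrp h2 (nondeg_of_ofQuad a3) (Fintype.card_fin _)
    ((ofQuad_isIso _ _).1 a1) ht' (by rw [← ssEd_eq_edOf, ← h]; exact a2)

omit hΛ [FiniteDimensional F V] in
theorem even_card_iff (hrp : r ≠ p) {i c : ℕ} (hi : i = orderOf (Fintype.card F : ZMod r))
    (hc : c = if Even i then i else 2 * i) {k l : ℕ} (h : i * l = c * k) :
    Even l ↔ (Even i → Even k) := by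
  have hi0 : 0 < i := hi ▸ ord_pos hrp
  split_ifs at hc with h1
  · rw [hc, Nat.mul_left_cancel_iff hi0] at h
    simp only [h, h1, forall_const]
  · rw [hc, mul_comm 2, mul_assoc, Nat.mul_left_cancel_iff hi0] at h
    simp only [h, h1, even_two_mul, false_imp_iff]

theorem quad_plus_mov (hP : P.Nondeg) (hrp : r ≠ p) (h2 : r ≠ 2) {i c : ℕ}
    (hi : i = orderOf (Fintype.card F : ZMod r)) (hc : c = if Even i then i else 2 * i)
    {T : End F V} (hT : Isom P T) (hTr : T ^ r = 1) {U : Submodule F V}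
    (h1 : U ≤ P.perp (fix T)) (hU : ND P U) (hI : Inv T U) {k : ℕ} (hk : finrank F U = c * k) :
    Plus P U ↔ (Even i → Even k) := by
  obtain ⟨t, a1, a2⟩ := edOn_of_le_mov hP hrp hT hTr hI h1
  rw [← plus_restrict, quad_plus_iff_ed (P := P.restrict U) hΛ hU.nondeg hrp h2
    (isIso_restrict hT hI) a1 ((edOn_eq hI).symm.trans a2)]
  refine even_card_iff hrp hi hc ?_
  rw [← hk, hI.finrank_eq, a2, mdeg_ssEd hrp 0 a1, zero_add, hi]

theorem quad_exists_ss (hP : P.Nondeg) (hrp : r ≠ p) (h2 : r ≠ 2) {i c : ℕ}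
    (hi : i = orderOf (Fintype.card F : ZMod r)) (hc : c = if Even i then i else 2 * i)
    (k : ℕ) (t : Multiset F[X]) (h0 : c * k ≤ finrank F V)
    (ha : finrank F V = c * k → (Plus P ⊤ ↔ (Even i → Even k)))
    (h1 : ∀ f ∈ t, f ∈ cyc F r) (h3 : t.map (tilde (RingHom.id F)) = t)
    (h : i * Multiset.card t = c * k) :
    ∃ T, Isom P T ∧ ed T = ssEd (finrank F V - c * k) t := by
  have he : Even (c * k) := (c_even hc).mul_right k
  obtain ⟨U, -, a1, a2, a3⟩ := (quad_exists_type_iff hΛ hP (nd_top hP) he (Even i → Even k)).2 (by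
    rw [finrank_top]
    rcases Nat.eq_zero_or_pos k with rfl | hk
    · exact Or.inl ⟨rfl, fun _ => Even.zero⟩
    · exact Or.inr (h0.lt_or_eq.imp (fun h => ⟨Nat.mul_pos ((sdData_id hrp h2 hi hc).c_pos hrp) hk,
        h⟩) fun h => ⟨h, ha h.symm⟩))
  obtain ⟨S, b1, b2⟩ := quad_exists_isom_even (P := P.restrict U) hΛ a1.nondeg (a2 ▸ he)
    (s := ssEd 0 t) (by
      rw [ssEd_eq_edOf]
      exact quadReal_edOf hr.out hrp h2 (fun f hf => mem_cycFac.2 (mem_cyc.1 (h1 f hf))) h3 0)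
    (by rw [mdeg_ssEd hrp 0 h1, zero_add, ← hi, h, a2]) fun P₀ T c1 c2 c3 c4 => by
      rw [quad_plus_iff_ed c1 c2 hrp h2 c3 h1 c4, plus_restrict, a3, even_card_iff hrp hi hc h]
  obtain ⟨T, d1, -, -, d2⟩ := exists_ext_one hP a1 b1
  exact ⟨T, d1, by rw [d2, b2, ← ssEd_add, a2, add_zero, zero_add]⟩

theorem quad_om' (hP : P.Nondeg) (hrp : r ≠ p) (h2 : r ≠ 2) {i c : ℕ}
    (hi : i = orderOf (Fintype.card F : ZMod r)) (hc : c = if Even i then i else 2 * i)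
    {A : Submodule F V} (hA : ND P A) (h0 : finrank F A ≠ 0) {η : Prop}
    (hη : Even (finrank F A) → (Plus P A ↔ η))
    (ho : Odd (finrank F A) → Even (finrank F V)) {N : ℕ} (hN : r ∣ N)
    (h : N * Nat.card (P.restrict (P.perp A)).isom ∣ Nat.card P.isom) :
    ∃ k, OOm (finrank F V / c) (finrank F V % c) (finrank F A / c) (finrank F A % c) (Plus P ⊤) η
      (Even i) k := by
  have hc0 := (sdData_id hrp h2 hi hc).c_pos hrp
  obtain ⟨k, hk⟩ := quad_om hΛ hP hrp h2 hi hc hA h0 hN h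
  refine ⟨k, hk.imp (fun h => ?_) (Or.imp (fun h => ?_) fun h => ?_)⟩
  · rwa [nf_eq' hc0, and_assoc] at h
  · have := nf_lt hc0 (finrank F V) (finrank F A) 0 k
    rw [mul_zero, add_zero, add_zero] at this
    rwa [this, nf_lt' hc0] at h
  · have h3 := nf_eq hc0 (finrank F V) (finrank F A) 0 k
    rw [mul_zero, add_zero, add_zero] at h3
    have h4 := (c_even hc).mul_right k
    have h5 : Even (finrank F A) := by
      simp only [← Nat.not_even_iff_odd, Nat.even_iff] at *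
      omega
    have h6 := plus_perp_iff hΛ hP hA h5 (h.1 ▸ h5.add h4)
    refine ⟨(h3.1 h.1).1, (h3.1 h.1).2, fun h7 => h.2 ?_⟩
    rw [← h7, h6, hη h5]
    exact iff_aux1

theorem quad_om_nd (hP : P.Nondeg) (hrp : r ≠ p) (h2 : r ≠ 2) {i c : ℕ}
    (hi : i = orderOf (Fintype.card F : ZMod r)) (hc : c = if Even i then i else 2 * i)
    {m : ℕ} (hm : Even m) (h0 : 0 < m) (hn : m < finrank F V) (η : Prop)
    (h : r ∣ Nat.card {W : Submodule F V // finrank F W = m ∧ ND P W ∧ (Plus P W ↔ η)}) :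
    ∃ k, OOm (finrank F V / c) (finrank F V % c) (m / c) (m % c) (Plus P ⊤) η (Even i) k := by
  obtain ⟨U, -, a1, rfl, a2⟩ := (quad_exists_type_iff hΛ hP (nd_top hP) hm η).2
    (Or.inr (Or.inl ⟨h0, by rwa [finrank_top]⟩))
  exact quad_om' hΛ hP hrp h2 hi hc a1 h0.ne' (fun _ => a2)
    (fun h => absurd hm (Nat.not_even_iff_odd.2 h)) h (card_sub_mul_dvd_perp hP _
      (fun g hg U hU => ⟨by rw [LinearEquiv.finrank_map_eq, hU.1], ND.map_iso hg hU.2.1,
        (plus_map_iff hg).trans hU.2.2⟩) U ⟨rfl, a1, a2⟩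
      (fun W hW => quad_nd_trans hΛ hP a1 hW.2.1 hm hW.1.symm (a2.trans hW.2.2.symm)) a1 le_rfl)

theorem quad_om_ts (hP : P.Nondeg) (hrp : r ≠ p) (h2 : r ≠ 2) {i c : ℕ}
    (hi : i = orderOf (Fintype.card F : ZMod r)) (hc : c = if Even i then i else 2 * i)
    {m : ℕ} (h0 : 0 < m) (hn : 2 * m < finrank F V)
    (h : r ∣ Nat.card {W : Submodule F V // finrank F W = m ∧ P.TS W}) :
    ∃ k, OOm (finrank F V / c) (finrank F V % c) (2 * m / c) (2 * m % c) (Plus P ⊤) True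
      (Even i) k := by
  obtain ⟨U, -, a1, rfl⟩ := quad_exists_ts hΛ hP (nd_top hP) (e := m) (by rwa [finrank_top])
  obtain ⟨H, b1, b2, -, b3, b4⟩ := exists_hyp hP (nd_top hP) a1 le_top
  rw [← b3]
  exact quad_om' hΛ hP hrp h2 hi hc b1 (by omega) (fun _ => iff_true_intro b4)
    (fun h => absurd (b3 ▸ even_two_mul _) (Nat.not_even_iff_odd.2 h)) h
    (card_sub_mul_dvd_perp hP _
      (fun g hg U hU => ⟨by rw [LinearEquiv.finrank_map_eq, hU.1], hU.2.map hg⟩) U ⟨rfl, a1⟩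
      (fun U hU => a1.exists_map_eq hP hU.2 hU.1.symm) b1 b2)

theorem quad_fix_facts (hP : P.Nondeg) (hrp : r ≠ p) (h2 : r ≠ 2) {i c : ℕ}
    (hi : i = orderOf (Fintype.card F : ZMod r)) (hc : c = if Even i then i else 2 * i)
    {T : End F V} (hT : Isom P T) (hTr : T ^ r = 1) {k : ℕ}
    (hk : finrank F (P.perp (fix T)) = c * k) :
    (finrank F V = c * k → (Plus P ⊤ ↔ (Even i → Even k))) ∧
      (Even (finrank F (fix T)) → (Plus P (fix T) ↔ (Plus P ⊤ ↔ (Even i → Even k)))) := by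
  have h1 := nd_fix hP hrp hT hTr
  have h3 := quad_plus_mov hΛ hP hrp h2 hi hc hT hTr le_rfl (h1.perp hP)
    ((inv_fix T).perp hP hT) hk
  have h4 := P.finrank_perp hP (fix T)
  refine ⟨fun h => ?_, fun h => ?_⟩
  · rw [← h3, Submodule.eq_top_of_finrank_eq (hk.trans h.symm)]
  · rw [plus_perp_iff hΛ hP h1 h (h4 ▸ hk ▸ h.add ((c_even hc).mul_right k)), h3]
    exact iff_aux2

theorem quad_forall_ts (hP : P.Nondeg) (hrp : r ≠ p) (h2 : r ≠ 2) {i c : ℕ}
    (hi : i = orderOf (Fintype.card F : ZMod r)) (hc : c = if Even i then i else 2 * i) (m : ℕ) :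
    (∀ T, Isom P T → T ^ r = 1 → T ≠ 1 →
      ∃ W : Submodule F V, finrank F W = m ∧ P.TS W ∧ Inv T W) ↔
    ∀ k, OAdm (finrank F V / c) (finrank F V % c) (Plus P ⊤) (Even i) k →
      ∃ j, OTs (finrank F V / c) (finrank F V % c) (2 * m / c) (2 * m % c) (m / i)
        (if Even i then 2 else 1) ((r - 1) / i) (Plus P ⊤) (Even i) k j := by
  have hsd := sdData_id hrp h2 hi hc
  have hc0 := hsd.c_pos hrp
  rw [forall_ts_iff hP hrp hsd m (fun k => finrank F V = c * k → (Plus P ⊤ ↔ (Even i → Even k)))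
    (fun k e => 2 * e + c * k < finrank F V ∨
      (2 * e + c * k = finrank F V ∧ (Plus P ⊤ ↔ (Even i → Even k))))
    (fun T h1 h3 k h4 => ⟨(quad_fix_facts hΛ hP hrp h2 hi hc h1 h3 h4).1, fun e => ?_⟩)
    fun k t => quad_exists_ss hΛ hP hrp h2 hi hc k t]
  · refine forall_congr' fun k => ?_
    simp only [OAdm, and_imp, nf_le hc0, nf_eq' hc0]
    refine forall₃_congr fun _ _ _ => exists_congr fun j => ?_
    rw [OTs, ← nf_le (hsd.b_pos hrp)]
    refine and_congr_right fun _ => and_congr_right fun _ => and_congr_right fun h => ?_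
    have h3 : c * ((if Even i then 2 else 1) * j) = 2 * (i * j) := by
      rw [hc]; split_ifs <;> ring
    have h4 := nf_lt hc0 (2 * m) (finrank F V) k ((if Even i then 2 else 1) * j)
    have h5 := nf_eq hc0 (2 * m) (finrank F V) k ((if Even i then 2 else 1) * j)
    rw [and_or_left, ← or_assoc, ← h4, ← and_assoc, ← h5, h3]
    exact or_congr (by omega) (and_congr_left' (by omega))
  · have h5 := P.finrank_perp hP (fix T)
    rw [quad_exists_ts_iff hΛ hP (nd_fix hP hrp h1 h3)]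
    refine or_congr (by omega) ⟨fun h => ⟨by omega, ?_⟩, fun h => ⟨by omega, ?_⟩⟩
    · exact ((quad_fix_facts hΛ hP hrp h2 hi hc h1 h3 h4).2 ⟨e, by omega⟩).1 h.2
    · exact ((quad_fix_facts hΛ hP hrp h2 hi hc h1 h3 h4).2 ⟨e, by omega⟩).2 h.2

theorem quad_forall_nd (hP : P.Nondeg) (hrp : r ≠ p) (h2 : r ≠ 2) {i c : ℕ}
    (hi : i = orderOf (Fintype.card F : ZMod r)) (hc : c = if Even i then i else 2 * i) {m : ℕ}
    (η : Prop) (Ψ : Submodule F V → Prop)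
    (hΨ : ∀ U W' s, ND P U → ND P W' → W' ≤ P.perp U → Even (finrank F W') →
      Even (finrank F V + finrank F U) → s + finrank F W' = m →
      ((∃ W, W ≤ U ∧ ND P W ∧ finrank F W = s ∧ Ψ (W ⊔ W')) ↔
        (s = 0 ∧ Even m ∧ (η ↔ Plus P W')) ∨ (0 < s ∧ s < finrank F U) ∨
          (s = finrank F U ∧ Even m ∧ (Plus P U ↔ (η ↔ Plus P W')))))
    (hm : Odd m → Even (finrank F V)) :
    (∀ T, Isom P T → T ^ r = 1 → T ≠ 1 →
      ∃ W : Submodule F V, (finrank F W = m ∧ ND P W ∧ Ψ W) ∧ Inv T W) ↔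
    ∀ k, OAdm (finrank F V / c) (finrank F V % c) (Plus P ⊤) (Even i) k →
      ∃ j, ONd (finrank F V / c) (finrank F V % c) (m / c) (m % c) (Plus P ⊤) η (Even i) k j := by
  have hsd := sdData_id hrp h2 hi hc
  have hc0 := hsd.c_pos hrp
  rw [forall_nd_iff hP hrp hsd m Ψ (fun k => finrank F V = c * k → (Plus P ⊤ ↔ (Even i → Even k)))
    (fun k j => c * j ≤ m ∧ ((m = c * j ∧ (η ↔ (Even i → Even j))) ∨
      (c * j < m ∧ m + c * k < finrank F V + c * j) ∨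
      (m + c * k = finrank F V + c * j ∧
        ((Plus P ⊤ ↔ (Even i → Even k)) ↔ (η ↔ (Even i → Even j))))))
    (fun T h1 h3 k h4 => ⟨(quad_fix_facts hΛ hP hrp h2 hi hc h1 h3 h4).1,
      fun j W' a1 a2 a3 a4 => ?_⟩) fun k t => quad_exists_ss hΛ hP hrp h2 hi hc k t]
  · refine forall_congr' fun k => ?_
    simp only [OAdm, and_imp, nf_le hc0, nf_eq' hc0 (finrank F V)]
    refine forall₃_congr fun _ _ _ => exists_congr fun j => ?_
    rw [ONd, nf_eq' hc0, nf_lt' hc0, nf_lt hc0, nf_eq hc0, and_assoc, and_assoc]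
    exact and_congr_right fun _ => and_congr_right fun _ =>
      or_congr_right (or_congr_left (and_congr_left' (by omega)))
  · have h5 := P.finrank_perp hP (fix T)
    have h6 := (c_even hc).mul_right j
    have h7 := (c_even hc).mul_right k
    have h8 := quad_plus_mov hΛ hP hrp h2 hi hc h1 h3 a1 a2 a3 a4
    have h9 := (quad_fix_facts hΛ hP hrp h2 hi hc h1 h3 h4).2
    by_cases h : c * j ≤ m
    swap
    · exact iff_of_false (fun ⟨_, _, _, _, _⟩ => by omega) fun h' => h h'.1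
    have h10 := hΨ (fix T) W' (m - c * j) (nd_fix hP hrp h1 h3) a2 a1 (a4 ▸ h6)
      (by rw [Nat.even_iff] at *; omega) (by omega)
    simp only [← Nat.not_even_iff_odd] at hm
    rw [h8] at h10
    refine (exists_congr fun W => and_congr_right fun _ => and_congr_right fun _ =>
      and_congr_left' (by omega)).trans (h10.trans ?_)
    rw [and_iff_right h]
    refine or_congr ⟨fun h => ⟨by omega, h.2.2⟩, fun h => ⟨by omega, h.1 ▸ h6, h.2⟩⟩
      (or_congr (by omega) ⟨fun h => ⟨by omega, ?_⟩, fun h => ?_⟩)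
    · rw [← h9 (by have := h.2.1; rw [Nat.even_iff] at *; omega), h.2.2]
    · have h11 : Even m := by
        simp only [Nat.even_iff] at *
        omega
      exact ⟨by omega, h11, by rw [h9 (by rw [Nat.even_iff] at *; omega), h.2]⟩

theorem quad_forall_type (hP : P.Nondeg) (hrp : r ≠ p) (h2 : r ≠ 2) {i c : ℕ}
    (hi : i = orderOf (Fintype.card F : ZMod r)) (hc : c = if Even i then i else 2 * i) {m : ℕ}
    (hm : Even m) (η : Prop) :
    (∀ T, Isom P T → T ^ r = 1 → T ≠ 1 →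
      ∃ W : Submodule F V, (finrank F W = m ∧ ND P W ∧ (Plus P W ↔ η)) ∧ Inv T W) ↔
    ∀ k, OAdm (finrank F V / c) (finrank F V % c) (Plus P ⊤) (Even i) k →
      ∃ j, ONd (finrank F V / c) (finrank F V % c) (m / c) (m % c) (Plus P ⊤) η (Even i) k j := by
  refine quad_forall_nd hΛ hP hrp h2 hi hc η _ (fun U W' s a1 a2 a3 a4 _ a5 => ?_)
    fun h => absurd hm (Nat.not_even_iff_odd.2 h)
  have h1 : Even s := by rw [Nat.even_iff] at *; omega
  simp only [hm, true_and]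
  rw [← quad_exists_type_iff hΛ hP a1 h1]
  refine exists_congr fun W => and_congr_right fun b1 => and_congr_right fun b2 =>
    and_congr_right fun b3 => ?_
  rw [plus_sup_iff hΛ hP b2 a2 (a3.trans (P.perp_anti b1)) (b3 ▸ h1) a4]
  exact iff_aux3

end CfsgLib.Elus2
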