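import Mathlib
import Cfsg.Prelude.Def_GeometricClasses
import Cfsg.Agent.Lib.Elus2.Orth2
import Cfsg.Agent.Lib.Orth.Disc

/-!
The commutator subgroup of an orthogonal group, discriminants of subspaces, and projective
involutions in odd characteristic.
-/

set_option autoImplicit false

namespace CfsgLib.Elus2

open Polynomial Module CfsgLib.MatConj CfsgLib.Forms CfsgLib.Elusive CfsgLib.Orth QuadraticMap

variable {F : Type*} [Field F] {V : Type*} [AddCommGroup V] [Module F V] {Q : QuadraticForm F V}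

/-- The endomorphism lies in the commutator subgroup of the orthogonal group. -/
def InO (Q : QuadraticForm F V) (T : End F V) : Prop :=
  ∃ g ∈ commutator (OG Q), g.1.toLinearMap = T

/-- The isometry agrees with `S` on `W` and is trivial on the perpendicular space. -/
def On (g : OG Q) (W : Submodule F V) (S : End F V) : Prop :=
  (∀ w ∈ W, g.1 w = S w) ∧ ∀ z ∈ (ofQuad Q).perp W, g.1 z = z

/-- Trivial spinor norm. -/
def Sp1 (g : OG Q) : Prop :=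
  ∃ l : List V, (∀ v ∈ l, Q v ≠ 0) ∧ g = reflProd Q l ∧ IsSquare (l.map Q).prod

/-- The subspace has square discriminant (product of the values on an orthogonal basis). -/
def Dsq (Q : QuadraticForm F V) (W : Submodule F V) : Prop := ∃ g : OG Q, On g W (-1) ∧ Sp1 g

/-- Some element of the commutator subgroup squares to minus one. -/
def HasJ (Q : QuadraticForm F V) : Prop := ∃ T, Isom (ofQuad Q) T ∧ InO Q T ∧ T ^ 2 = -1

theorem InO.isom {T : End F V} (h : InO Q T) : Isom (ofQuad Q) T := by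
  obtain ⟨g, -, rfl⟩ := h
  exact (ofQuad_isIso Q _).2 g.2

theorem inO_iff (g : OG Q) : InO Q g.1.toLinearMap ↔ g ∈ commutator (OG Q) :=
  ⟨fun ⟨h, h1, h2⟩ => by rwa [← OG.ext (g := h) (h := g) fun v => congr($h2 v)],
    fun h => ⟨g, h, rfl⟩⟩

theorem On.mul {g h : OG Q} {A Y : Submodule F V} {S : End F V} (hg : On g A S) (hh : On h Y S)
    (hI : Inv S Y) (hAY : Y ≤ (ofQuad Q).perp A) : On (g * h) (A ⊔ Y) S := by
  refine ⟨fun w hw => ?_, fun z hz => ?_⟩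
  · obtain ⟨a, ha, y, hy, rfl⟩ := Submodule.mem_sup.1 hw
    rw [OG.mul_apply, map_add, map_add, map_add, hh.1 y hy, hg.2 _ (hAY (hI y hy)),
      hh.2 a ((ofQuad Q).le_perp_comm.1 hAY ha), hg.1 a ha]
  · rw [PQ.perp_sup] at hz
    rw [OG.mul_apply, hh.2 z hz.2, hg.2 z hz.1]

theorem on_one (S : End F V) : On (1 : OG Q) ⊥ S :=
  ⟨fun w hw => by simp [(Submodule.mem_bot F).1 hw], fun _ _ => rfl⟩

theorem sp1_one : Sp1 (1 : OG Q) := ⟨[], by simp, rfl, by simp⟩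

theorem dsq_bot : Dsq Q ⊥ := ⟨1, on_one _, sp1_one⟩

theorem inv_neg_one (U : Submodule F V) : Inv (-1 : End F V) U := fun _ h => U.neg_mem h

theorem iff_aux4 {a b c d e f : Prop} :
    (((a ↔ (b ↔ c)) ↔ (d ↔ e)) ↔ f) ↔ ((((b ↔ c) ↔ d) ↔ (e ↔ a)) ↔ f) := by tauto

theorem iff_aux5 {a b : Prop} : (a ↔ (b ↔ a)) ↔ b := by tauto

theorem isSquare_pow_iff' [Finite F] {a : F} (ha : a ≠ 0) (k : ℕ) :
    IsSquare (a ^ k) ↔ Even k ∨ IsSquare a := by
  induction k with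
  | zero => simp
  | succ k ih =>
    rw [pow_succ, isSquare_mul_iff_of_finite (pow_ne_zero _ ha) ha, ih, Nat.even_add_one]
    tauto

section Mat

variable {ι : Type} [Fintype ι] [DecidableEq ι] {Q : QuadraticForm F (ι → F)}

theorem mem_omegaGL_iff (x : GL ι F) :
    x ∈ Cfsg.Geo.omegaGL Q ↔ InO Q (Matrix.toLin' (x : Matrix ι ι F)) := by
  constructor
  · rintro ⟨x, hx, rfl⟩
    exact ⟨toOG Q x, (mem_Omega_iff Q x).1 hx, toOG_coe Q x⟩
  · rintro ⟨h, hh, h1⟩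
    refine ⟨(toOG Q).symm h, (mem_Omega_iff Q _).2 (by simpa using hh), Units.ext ?_⟩
    exact toOG_symm_val_eq Q fun v => congr($h1 v)

theorem InO.exists_gl {T : End F (ι → F)} (h : InO Q T) :
    ∃ x : GL ι F, Matrix.toLin' (x : Matrix ι ι F) = T := by
  obtain ⟨g, -, rfl⟩ := h
  exact ⟨((toOG Q).symm g).1, LinearMap.ext fun v => toOG_symm_mulVec Q g v⟩

theorem forall_omega_iff (r : ℕ) (Φ : End F (ι → F) → Prop) :
    (∀ x : GL ι F, x ∈ Cfsg.Geo.omegaGL Q →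
      (∃ z : F, ((x ^ r : GL ι F) : Matrix ι ι F) = z • 1) →
      (∀ z : F, (x : Matrix ι ι F) ≠ z • 1) → Φ (Matrix.toLin' (x : Matrix ι ι F))) ↔
    ∀ T, Isom (ofQuad Q) T → InO Q T → IsPE r T → Φ T := by
  simp only [mem_omegaGL_iff, Units.val_pow_eq_pow_val]
  constructor
  · intro h T _ h1 hT
    obtain ⟨x, rfl⟩ := h1.exists_gl
    rw [isPE_toLin'_iff] at hT
    exact h x h1 hT.1 hT.2
  · intro h x h0 h1 h2
    exact h _ h0.isom h0 ((isPE_toLin'_iff _ r).2 ⟨h1, h2⟩)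

theorem forall_omega_order_iff (r : ℕ) [Fact r.Prime] (Φ : End F (ι → F) → Prop) :
    (∀ x : GL ι F, x ∈ Cfsg.Geo.omegaGL Q → orderOf x = r →
      Φ (Matrix.toLin' (x : Matrix ι ι F))) ↔
    ∀ T, Isom (ofQuad Q) T → InO Q T → T ^ r = 1 → T ≠ 1 → Φ T := by
  have key : ∀ x : GL ι F, orderOf x = r ↔ Matrix.toLin' (x : Matrix ι ι F) ^ r = 1 ∧
      Matrix.toLin' (x : Matrix ι ι F) ≠ 1 := fun x => by
    rw [orderOf_eq_prime_iff, ← Matrix.toLin'_pow, ne_eq, ne_eq, Module.End.one_eq_id,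
      ← Matrix.toLin'_one, Matrix.toLin'.injective.eq_iff, Matrix.toLin'.injective.eq_iff,
      ← Units.val_pow_eq_pow_val, Units.val_eq_one, Units.val_eq_one]
  simp only [mem_omegaGL_iff, key]
  constructor
  · intro h T _ h1 h2 h3
    obtain ⟨x, rfl⟩ := h1.exists_gl
    exact h x h1 ⟨h2, h3⟩
  · intro h x h0 h1
    exact h _ h0.isom h0 h1.1 h1.2

omit [Fintype ι] [DecidableEq ι] in
theorem nondegOn_iff_nd {W : Submodule F (ι → F)} :
    Cfsg.Geo.IsNondegenerateOn (polar Q) W ↔ ND (ofQuad Q) W := by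
  rw [nd_iff']
  exact ⟨fun h u hu h0 => (h u hu h0).2, fun h u hu h0 =>
    ⟨(h u hu h0).imp fun x hx => ⟨hx.1, by rw [polar_comm]; exact hx.2⟩, h u hu h0⟩⟩

omit [Fintype ι] [DecidableEq ι] in
theorem plusOn_iff_plus {W : Submodule F (ι → F)} :
    Cfsg.Geo.IsPlusTypeOn Q W ↔ Plus (ofQuad Q) W :=
  exists_congr fun _ => and_congr_right fun _ => by
    rw [and_comm, ts_ofQuad_iff, Cfsg.Geo.IsTotallySingularQuad]

end Mat

theorem plus_qPlus (d : ℕ) : Plus (ofQuad (qPlus d F)) ⊤ := plus_top_iff.2 (isPlus_qPlus d)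

theorem not_plus_qMinus [Finite F] (d : ℕ) {a b : F} (h : Aniso a b) :
    ¬ Plus (ofQuad (qMinus d a b)) ⊤ := fun h1 => not_isLag_qMinus h (plus_top_iff.1 h1)

theorem finrank_minus (F : Type*) [Field F] {d : ℕ} (h : 1 ≤ d) :
    finrank F ((Fin (d - 1) ⊕ Fin (d - 1)) ⊕ Fin 2 → F) = 2 * d := by
  simp only [Module.finrank_fintype_fun_eq_card, Fintype.card_sum, Fintype.card_fin]
  omega

theorem finrank_odd (F : Type*) [Field F] (d : ℕ) :
    finrank F (Unit ⊕ (Fin d ⊕ Fin d) → F) = 2 * d + 1 := by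
  simp only [Module.finrank_fintype_fun_eq_card, Fintype.card_sum, Fintype.card_fin,
    Fintype.card_unit]
  omega

variable [FiniteDimensional F V] (hP : (ofQuad Q).Nondeg)
include hP

theorem exists_og {T : End F V} (hT : Isom (ofQuad Q) T) : ∃ g : OG Q, g.1.toLinearMap = T :=
  ⟨OG.ofMap (nondeg_of_ofQuad hP) T ((ofQuad_isIso Q T).1 hT), rfl⟩

theorem On.unique {g h : OG Q} {W : Submodule F V} {S : End F V} (hW : ND (ofQuad Q) W)
    (hg : On g W S) (hh : On h W S) : g = h := OG.ext fun v => by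
  obtain ⟨a, b, rfl⟩ := exists_add_of_isCompl ((ofQuad Q).isCompl_perp hP hW) v
  rw [map_add, map_add, hg.1 a a.2, hh.1 a a.2, hg.2 b b.2, hh.2 b b.2]

variable [Finite F]

theorem inO_of_odd (h24 : Nat.card F ≠ 2 ∨ finrank F V ≠ 4) {r : ℕ} (hr : Odd r) {T : End F V}
    (hT : Isom (ofQuad Q) T) (h : T ^ r = 1) : InO Q T := by
  obtain ⟨g, rfl⟩ := exists_og hP hT
  obtain ⟨k, rfl⟩ := hr
  have h1 : g ^ (2 * k + 1) = 1 := OG.ext fun v => by
    have := congr($h v)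
    rwa [Module.End.pow_apply, LinearEquiv.coe_coe, ← LinearEquiv.pow_apply] at this
  have h2 : g = g ^ (k + 1) * g ^ (k + 1) := by
    rw [← pow_add, show k + 1 + (k + 1) = 2 * k + 1 + 1 by ring, pow_succ, h1, one_mul]
  rw [inO_iff, h2]
  exact sq_mem_commutator (nondeg_of_ofQuad hP) h24 _

theorem forall_inO_odd (h24 : Nat.card F ≠ 2 ∨ finrank F V ≠ 4) {r : ℕ} (hr : Odd r)
    (Φ : End F V → Prop) (hΦ : ∀ T, Φ (-T) → Φ T) :
    (∀ T, Isom (ofQuad Q) T → InO Q T → IsPE r T → Φ T) ↔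
      ∀ T, Isom (ofQuad Q) T → T ^ r = 1 → T ≠ 1 → Φ T :=
  forall_isPE_odd hP hr _ Φ (fun _ => inO_of_odd hP h24 hr) hΦ

theorem forall_inO_odd' (h24 : Nat.card F ≠ 2 ∨ finrank F V ≠ 4) {r : ℕ} (hr : Odd r)
    (Φ : End F V → Prop) :
    (∀ T, Isom (ofQuad Q) T → InO Q T → T ^ r = 1 → T ≠ 1 → Φ T) ↔
      ∀ T, Isom (ofQuad Q) T → T ^ r = 1 → T ≠ 1 → Φ T :=
  forall₂_congr fun _ h1 => ⟨fun h h2 => h (inO_of_odd hP h24 hr h1 h2) h2, fun h _ => h⟩

theorem inO_iff_two (h24 : Nat.card F ≠ 2 ∨ finrank F V ≠ 4) (h2 : (2 : F) = 0) {T : End F V}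
    (hT : Isom (ofQuad Q) T) : InO Q T ↔ Even (finrank F (LinearMap.range (T - 1))) := by
  obtain ⟨g, rfl⟩ := exists_og hP hT
  rw [inO_iff, mem_commutator_iff_of_charTwo (nondeg_of_ofQuad hP) h24 h2, dickson_eq_one_iff]
  rfl

variable (h2 : (2 : F) ≠ 0)
include h2

theorem sp1_iff (g : OG Q) : Sp1 g ↔
    spinor (nondeg_of_ofQuad hP) (Or.inl (card_ne_two_of_two_ne_zero h2)) g = 1 := by
  constructor
  · rintro ⟨l, h1, rfl, h3⟩
    exact (spinor_reflProd_eq_one_iff _ _ h1).2 h3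
  · intro h
    obtain ⟨l, h1, rfl⟩ := exists_reflProd (nondeg_of_ofQuad hP)
      (Or.inl (card_ne_two_of_two_ne_zero h2)) g
    exact ⟨l, h1, rfl, (spinor_reflProd_eq_one_iff _ _ h1).1 h⟩

theorem sp1_mul (g h : OG Q) : Sp1 (g * h) ↔ (Sp1 g ↔ Sp1 h) := by
  simp only [sp1_iff hP h2, map_mul, ← units_eq_iff_eq_one, mul_eq_one_iff_eq_inv, Int.units_inv_eq_self]

theorem sp1_reflProd {l : List V} (hl : ∀ v ∈ l, Q v ≠ 0) :
    Sp1 (reflProd Q l) ↔ IsSquare (l.map Q).prod := by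
  rw [sp1_iff hP h2, spinor_reflProd_eq_one_iff _ _ hl]

theorem mem_commutator_iff_sp1 (g : OG Q) :
    g ∈ commutator (OG Q) ↔ LinearMap.det g.1.toLinearMap = 1 ∧ Sp1 g := by
  rw [mem_commutator_iff (nondeg_of_ofQuad hP) (Or.inl (card_ne_two_of_two_ne_zero h2)),
    sp1_iff hP h2, dickson_eq_one_iff_det _ h2]

omit [Finite F] in
theorem on_of_invol {g : OG Q} (h : g.1.toLinearMap ^ 2 = 1) :
    On g (fix (-g.1.toLinearMap)) (-1) := by
  refine ⟨fun w hw => neg_eq_iff_eq_neg.1 (mem_fix.1 hw), fun z hz => ?_⟩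
  rw [perp_fix_invol hP h2 (isIso_neg ((ofQuad_isIso Q _).2 g.2)) (by rwa [neg_sq]), neg_neg] at hz
  exact mem_fix.1 hz

omit [Finite F] in
theorem exists_on_neg {W : Submodule F V} (hW : ND (ofQuad Q) W) : ∃ g : OG Q, On g W (-1) := by
  obtain ⟨T, h1, h3, -, rfl⟩ := exists_invol hP h2 hW
  obtain ⟨g, rfl⟩ := exists_og hP h1
  exact ⟨g, on_of_invol hP h2 h3⟩

omit [Finite F] h2 in
theorem On.dsq_iff {g : OG Q} {W : Submodule F V} (hg : On g W (-1)) (hW : ND (ofQuad Q) W) :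
    Dsq Q W ↔ Sp1 g :=
  ⟨fun ⟨_, h1, h3⟩ => On.unique hP hW h1 hg ▸ h3, fun h => ⟨g, hg, h⟩⟩

theorem dsq_sup {A B : Submodule F V} (hA : ND (ofQuad Q) A) (hB : ND (ofQuad Q) B)
    (h : B ≤ (ofQuad Q).perp A) : Dsq Q (A ⊔ B) ↔ (Dsq Q A ↔ Dsq Q B) := by
  obtain ⟨g, hg⟩ := exists_on_neg hP h2 hA
  obtain ⟨k, hk⟩ := exists_on_neg hP h2 hB
  rw [hg.dsq_iff hP hA, hk.dsq_iff hP hB, (hg.mul hk (inv_neg_one B) h).dsq_iff hP (hA.sup hB h),
    sp1_mul hP h2]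

theorem dsq_inf_perp {A U : Submodule F V} (hA : ND (ofQuad Q) A) (hU : ND (ofQuad Q) U)
    (h : A ≤ U) : Dsq Q U ↔ (Dsq Q A ↔ Dsq Q (U ⊓ (ofQuad Q).perp A)) := by
  rw [← dsq_sup hP h2 hA (hA.inf_perp hP hU h) inf_le_right, hA.sup_inf_perp hP h]

theorem dsq_basis {W : Submodule F V} (hW : ND (ofQuad Q) W) {n : ℕ} (b : Basis (Fin n) F W)
    (h1 : ∀ i j, i ≠ j → polar Q (b i) (b j) = 0) (h3 : ∀ i, Q (b i) ≠ 0) :
    Dsq Q W ↔ IsSquare (∏ i, Q (b i)) := by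
  have h4 : ∀ v ∈ List.ofFn fun i => (b i : V), Q v ≠ 0 := by simpa using h3
  rw [On.dsq_iff hP (g := reflProd Q (List.ofFn fun i => (b i : V))) ⟨fun w hw => ?_,
    fun z hz => reflProd_apply_of_perp (List.forall_mem_ofFn_iff.2 fun i => hz _ (b i).2)⟩ hW,
    sp1_reflProd hP h2 h4, List.map_ofFn, List.prod_ofFn]
  · rfl
  · have : (reflProd Q (List.ofFn fun i => (b i : V))).1.toLinearMap ∘ₗ W.subtype = -W.subtype :=
      b.ext fun i => reflProd_apply_of_pairwise h4 (List.pairwise_ofFn.2 fun i j h => h1 i j h.ne) _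
        (List.mem_ofFn.2 ⟨i, rfl⟩)
    exact congr($this ⟨w, hw⟩)

theorem dsq_line {v : V} (hv : Q v ≠ 0) : Dsq Q (Submodule.span F {v}) ↔ IsSquare (Q v) := by
  rw [On.dsq_iff hP (g := reflProd Q [v]) ⟨fun w hw => ?_, fun z hz => reflProd_apply_of_perp
    (List.forall_mem_singleton.2 ((PQ.mem_perp_span_singleton (ofQuad Q)).1 hz))⟩ (quad_nd_line rfl h2 hv),
    sp1_reflProd hP h2 (by simpa using hv)]
  · simp
  · obtain ⟨c, rfl⟩ := Submodule.mem_span_singleton.1 hw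
    simp [reflProd_singleton, refl_apply_self hv]

theorem isometric_iff_dsq {W W' : Submodule F V} (hW : ND (ofQuad Q) W) (hW' : ND (ofQuad Q) W')
    (h : finrank F W = finrank F W') :
    (∃ e : W ≃ₗ[F] W', ∀ w : W, Q (e w) = Q w) ↔ (Dsq Q W ↔ Dsq Q W') := by
  have a1 := nondeg_of_ofQuad (restrict_ofQuad Q W ▸ hW.nondeg)
  have a2 := nondeg_of_ofQuad (restrict_ofQuad Q W' ▸ hW'.nondeg)
  have hc : ∀ (U : Submodule F V) (x y : U), polar (Q.comp U.subtype) x y = polar Q x y :=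
    fun U x y => (polar_map_of_map_Q U.subtype (fun _ => rfl) x y).symm
  obtain ⟨b, b1, b2⟩ := exists_orth_basis a1 h2
  rw [dsq_basis hP h2 hW b (by simpa only [hc] using b1) b2]
  constructor
  · rintro ⟨e, he⟩
    rw [dsq_basis hP h2 hW' (b.map e) (fun i j hij => ?_) (fun i => by simpa [he] using b2 i)]
    · simp [he]
    · exact (polar_map_of_map_Q (Q := Q.comp W.subtype) (W'.subtype ∘ₗ e.toLinearMap) he _ _).trans
        (b1 i j hij)
  · intro h3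
    obtain ⟨b', c1, c2⟩ := exists_orth_basis a2 h2
    rw [dsq_basis hP h2 hW' b' (by simpa only [hc] using c1) c2] at h3
    refine exists_equiv_of_isSquare_disc h2 a1 a2 b b' (by simp [h]) ?_
    rw [det_gram_of_orth b1, det_gram_of_orth c1, mul_mul_mul_comm, Fintype.card_fin,
      Fintype.card_fin, congrArg ((2 : F) ^ ·) h, isSquare_mul_self_mul_iff (pow_ne_zero _ h2),
      isSquare_mul_iff_of_finite (Finset.prod_ne_zero_iff.2 fun i _ => b2 i)
        (Finset.prod_ne_zero_iff.2 fun i _ => c2 i)]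
    exact h3

theorem plus_iff_dsq {W : Submodule F V} (hW : ND (ofQuad Q) W) {k : ℕ}
    (hk : finrank F W = 2 * k) : Plus (ofQuad Q) W ↔ (Dsq Q W ↔ IsSquare ((-1 : F) ^ k)) := by
  induction k generalizing W with
  | zero =>
    obtain rfl := Submodule.finrank_eq_zero.1 hk
    simp [plus_bot, dsq_bot]
  | succ k ih =>
    obtain ⟨w, a1, a2⟩ := quad_exists_ne rfl hW (by rintro rfl; simp at hk)
    have a3 := quad_nd_line rfl h2 a2
    have a4 := (Submodule.span_singleton_le_iff_mem _ _).2 a1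
    have a5 := hW.finrank_inf_perp hP a4
    rw [quad_finrank_line rfl a2] at a5
    obtain ⟨u, b1, b2⟩ := quad_exists_ne rfl (a3.inf_perp hP hW a4)
      (fun h => by rw [h, finrank_bot] at a5; omega)
    have b3 := quad_nd_line rfl h2 b2
    have b4 := (Submodule.span_singleton_le_iff_mem _ _).2 b1
    have b5 := b4.trans inf_le_right
    have c1 := a3.sup b3 b5
    have c2 := a3.finrank_sup b5
    rw [quad_finrank_line rfl a2, quad_finrank_line rfl b2] at c2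
    have c3 := sup_le a4 (b4.trans inf_le_left)
    have c4 := hW.finrank_inf_perp hP c3
    rw [plus_inf_perp_iff rfl hP c1 hW c3 (c2 ▸ even_two) (hk ▸ even_two_mul _),
      ih (c1.inf_perp hP hW c3) (by omega), dsq_inf_perp hP h2 c1 hW c3, dsq_sup hP h2 a3 b3 b5,
      plus_pair_iff rfl a2 ((PQ.mem_perp_span_singleton _).1 b1.2) c2, dsq_line hP h2 a2,
      dsq_line hP h2 b2, neg_eq_neg_one_mul, pow_succ,
      isSquare_mul_iff_of_finite (by simp) (mul_ne_zero a2 b2), isSquare_mul_iff_of_finite a2 b2,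
      isSquare_mul_iff_of_finite (by simp) (by simp)]
    exact iff_aux4.2 Iff.rfl

theorem exists_dsq {U : Submodule F V} (hU : ND (ofQuad Q) U) {s : ℕ} (h0 : 0 < s)
    (hs : s < finrank F U) (η : Prop) :
    ∃ W, W ≤ U ∧ ND (ofQuad Q) W ∧ finrank F W = s ∧ (Dsq Q W ↔ η) := by
  obtain ⟨A, a1, a2, a3⟩ := quad_exists_nd rfl hP h2 hU (m := s - 1) (by omega)
  have a4 := hU.finrank_inf_perp hP a1
  obtain ⟨c, c1, c2⟩ : ∃ c : F, c ≠ 0 ∧ (IsSquare c ↔ (η ↔ Dsq Q A)) := by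
    by_cases h : (η ↔ Dsq Q A)
    · exact ⟨1, one_ne_zero, iff_of_true IsSquare.one h⟩
    · obtain ⟨c, hc⟩ := exists_not_isSquare h2
      exact ⟨c, by rintro rfl; exact hc IsSquare.zero, iff_of_false hc h⟩
  obtain ⟨v, b1, rfl⟩ := quad_exists_eq rfl (a2.inf_perp hP hU a1) (by omega) c
  have b2 := (Submodule.span_singleton_le_iff_mem _ _).2 b1
  have b3 := quad_nd_line rfl h2 c1
  have b4 := b2.trans inf_le_right
  refine ⟨_, sup_le a1 (b2.trans inf_le_left), a2.sup b3 b4, ?_, ?_⟩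
  · rw [a2.finrank_sup b4, quad_finrank_line rfl c1]; omega
  · rw [dsq_sup hP h2 a2 b3 b4, dsq_line hP h2 c1]
    exact (iff_congr Iff.rfl c2).trans iff_aux5

theorem inO_invol {T : End F V} (hT : Isom (ofQuad Q) T) (h : T ^ 2 = 1) :
    InO Q T ↔ Even (finrank F (fix (-T))) ∧ Dsq Q (fix (-T)) := by
  obtain ⟨g, rfl⟩ := exists_og hP hT
  rw [inO_iff, mem_commutator_iff_sp1 hP h2, det_invol h2 h,
    (on_of_invol hP h2 h).dsq_iff hP (nd_fix_invol hP h2 hT h).2,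
    neg_one_pow_eq_one_iff_even fun h => h2 (by linear_combination -h)]

theorem invol_exists_dsq {T : End F V} (hT : Isom (ofQuad Q) T) (h : T ^ 2 = 1) {m : ℕ}
    (h0 : 0 < m) (hm : m < finrank F V) (h3 : 3 ≤ finrank F V) (η : Prop) :
    ∃ W : Submodule F V, (finrank F W = m ∧ ND (ofQuad Q) W ∧ (Dsq Q W ↔ η)) ∧ Inv T W := by
  have a3 := finrank_fix_invol hP h2 hT h
  wlog h4 : 2 ≤ finrank F (fix (-T)) generalizing T
  · obtain ⟨W, a1, a2⟩ := this (isIso_neg hT) (by rwa [neg_sq]) (by rw [neg_neg]; omega)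
      (by rw [neg_neg]; omega)
    exact ⟨W, a1, inv_neg_iff.1 a2⟩
  obtain ⟨a1, a2⟩ := nd_fix_invol hP h2 hT h
  obtain ⟨A, b1, b2, b3⟩ := quad_exists_nd rfl hP h2 a1 (m := m - max 1 (m - finrank F (fix T)))
    (by omega)
  obtain ⟨B, c1, c2, c3, c4⟩ := exists_dsq hP h2 a2 (s := max 1 (m - finrank F (fix T)))
    (by omega) (by omega) (η ↔ Dsq Q A)
  have h5 := c1.trans ((fix_neg_le_perp h2 hT).trans (PQ.perp_anti _ b1))
  refine ⟨A ⊔ B, ⟨by rw [b2.finrank_sup h5]; omega, b2.sup c2 h5, ?_⟩, inv_sup_invol b1 c1⟩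
  rw [dsq_sup hP h2 b2 c2 h5, c4]
  exact iff_aux5

theorem neg_one_block {T : End F V} (hT : Isom (ofQuad Q) T) (h : T ^ 2 = -1)
    {Y : Submodule F V} (hY : ND (ofQuad Q) Y) (hI : Inv T Y) (h0 : Y ≠ ⊥) :
    ∃ A, A ≤ Y ∧ ND (ofQuad Q) A ∧ Inv T A ∧ finrank F A = 2 ∧ Dsq Q A ∧
      ∃ g : OG Q, On g A T ∧ LinearMap.det g.1.toLinearMap = 1 ∧ (Sp1 g ↔ IsSquare (2 : F)) := by
  obtain ⟨v, a1, a2⟩ := quad_exists_ne rfl hY h0
  have h1 : ∀ v, T (T v) = -v := fun v => congr($h v)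
  have h3 : Q (T v) = Q v := (ofQuad_isIso Q T).1 hT v
  have a2' : Q v ≠ 0 := a2
  have a3 : Q (T v) ≠ 0 := h3 ▸ a2
  have h4 : polar Q v (T v) = 0 := by
    have := hT.B_eq v (T v)
    rw [h1, ofQuad_B, ofQuad_B, polar_neg_right, polar_comm] at this
    exact (mul_eq_zero.1 (by linear_combination -this)).resolve_left h2
  have h5 : Submodule.span F {T v} ≤ (ofQuad Q).perp (Submodule.span F {v}) :=
    (Submodule.span_singleton_le_iff_mem _ _).2 ((PQ.mem_perp_span_singleton _).2 h4)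
  have b1 := quad_nd_line (P := ofQuad Q) rfl h2 a2
  have b2 := quad_nd_line (P := ofQuad Q) rfl h2 a3
  have h6 : Q (v - T v) = 2 * Q v := by rw [Q_sub, h3, h4]; ring
  have h7 : ∀ x ∈ [v, v - T v], Q x ≠ 0 := by simp [a2', h6, h2]
  have h8 : Q (v - T v) ≠ 0 := h7 _ (by simp)
  refine ⟨_, sup_le ((Submodule.span_singleton_le_iff_mem _ _).2 a1)
    ((Submodule.span_singleton_le_iff_mem _ _).2 (hI v a1)), b1.sup b2 h5, ?_, ?_, ?_,
    reflProd Q [v, v - T v], ⟨fun w hw => ?_, fun z hz => reflProd_apply_of_perp ?_⟩, ?_, ?_⟩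
  · rw [← Submodule.span_insert]
    exact inv_span_pair (mem_span_pair_right _ _)
      (h1 v ▸ Submodule.neg_mem _ (mem_span_pair_left _ _))
  · rw [b1.finrank_sup h5, quad_finrank_line (P := ofQuad Q) rfl a2,
      quad_finrank_line (P := ofQuad Q) rfl a3]
  · rw [dsq_sup hP h2 b1 b2 h5, dsq_line hP h2 a2', dsq_line hP h2 a3, h3]
  · rw [← Submodule.span_insert, Submodule.mem_span_pair] at hw
    obtain ⟨s, t, rfl⟩ := hw
    simp only [reflProd_cons, reflProd_nil, mul_one, OG.mul_apply, map_add, map_smul,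
      refl_sub_apply h3.symm h8, refl_sub_apply' h3.symm h8, refl_apply_of_polar_eq_zero h4,
      refl_apply_self a2', h1]
  · rw [PQ.perp_sup, Submodule.mem_inf, PQ.mem_perp_span_singleton, PQ.mem_perp_span_singleton,
      ofQuad_B, ofQuad_B] at hz
    simp [polar_sub_left, hz.1, hz.2]
  · rw [det_reflProd h7]; simp
  · rw [sp1_reflProd hP h2 h7, ← isSquare_mul_self_mul_iff a2' (a := 2)]
    simp [h6, mul_comm, mul_left_comm]

theorem neg_one_main {T : End F V} (hT : Isom (ofQuad Q) T) (h : T ^ 2 = -1)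
    {U : Submodule F V} (hU : ND (ofQuad Q) U) (hI : Inv T U) :
    ∃ k, finrank F U = 2 * k ∧ Dsq Q U ∧ ∃ g : OG Q, On g U T ∧
      LinearMap.det g.1.toLinearMap = 1 ∧ (Sp1 g ↔ IsSquare ((2 : F) ^ k)) := by
  refine nd_induction hP hT hU hI (fun A _ => finrank F A = 2 ∧ Dsq Q A ∧
      ∃ g : OG Q, On g A T ∧ LinearMap.det g.1.toLinearMap = 1 ∧ (Sp1 g ↔ IsSquare (2 : F)))
    (fun U => ∃ k, finrank F U = 2 * k ∧ Dsq Q U ∧ ∃ g : OG Q, On g U T ∧
      LinearMap.det g.1.toLinearMap = 1 ∧ (Sp1 g ↔ IsSquare ((2 : F) ^ k))) ?_ ?_ ?_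
  · intro Y _ a1 a2 a3
    obtain ⟨A, b1, b2, b3, b4⟩ := neg_one_block hP h2 hT h a1 a2 a3
    exact ⟨A, b1, by rintro rfl; simp at b4, b2, b3, b4⟩
  · exact ⟨0, by simp, dsq_bot, 1, on_one T, by simp, by simp [sp1_one]⟩
  · rintro A Y - a1 - ⟨a2, a3, g, a4, a5, a6⟩ b1 b2 b3 ⟨k, c1, c2, g', c3, c4, c5⟩
    refine ⟨k + 1, by rw [a1.finrank_sup b3]; omega, (dsq_sup hP h2 a1 b1 b3).2 (iff_of_true a3 c2),
      g * g', a4.mul c3 b2 b3, by rw [det_mul, a5, c4, mul_one], ?_⟩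
    rw [sp1_mul hP h2, a6, c5, pow_succ', isSquare_mul_iff_of_finite h2 (pow_ne_zero _ h2)]

theorem inO_neg_one {T : End F V} (hT : Isom (ofQuad Q) T) (h : T ^ 2 = -1) {d : ℕ}
    (hd : finrank F V = 2 * d) : InO Q T ↔ IsSquare ((2 : F) ^ d) := by
  obtain ⟨k, h1, -, g, h3, h4, h5⟩ := neg_one_main hP h2 hT h (nd_top hP) (inv_top T)
  obtain rfl : g.1.toLinearMap = T := LinearMap.ext fun v => h3.1 v trivial
  obtain rfl : k = d := by rw [finrank_top] at h1; omega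
  rw [inO_iff, mem_commutator_iff_sp1 hP h2, h5, and_iff_right h4]

theorem neg_one_exists_nd {T : End F V} (hT : Isom (ofQuad Q) T) (h : T ^ 2 = -1) {m : ℕ}
    (hm : Even m) (hn : m ≤ finrank F V) :
    ∃ W : Submodule F V, ND (ofQuad Q) W ∧ Inv T W ∧ finrank F W = m := by
  obtain ⟨k, h1, h3⟩ := multiples_of_blocks hP hT (nd_top hP) (inv_top T) two_ne_zero
    fun Y _ a1 a2 a3 => by
      obtain ⟨A, b1, b2, b3, b4, -⟩ := neg_one_block hP h2 hT h a1 a2 a3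
      exact ⟨A, b1, b2, b3, b4⟩
  obtain ⟨j, rfl⟩ := hm.two_dvd
  obtain ⟨W, -, h4⟩ := h3 j (by rw [finrank_top] at h1; omega)
  exact ⟨W, h4⟩

theorem plus_iff_of_neg_one {T : End F V} (hT : Isom (ofQuad Q) T) (h : T ^ 2 = -1) {d : ℕ}
    (hd : finrank F V = 2 * d) : Plus (ofQuad Q) ⊤ ↔ IsSquare ((-1 : F) ^ d) := by
  obtain ⟨k, -, h1, -⟩ := neg_one_main hP h2 hT h (nd_top hP) (inv_top T)
  rw [plus_iff_dsq hP h2 (nd_top hP) (by rwa [finrank_top]), iff_true_intro h1, true_iff]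

theorem exists_neg_one_of_type {d : ℕ} (hd : finrank F V = 2 * d)
    (h : Plus (ofQuad Q) ⊤ ↔ IsSquare ((-1 : F) ^ d)) : ∃ T, Isom (ofQuad Q) T ∧ T ^ 2 = -1 := by
  let Q₀ : QuadraticForm F (Fin d ⊕ Fin d → F) := (Matrix.toBilin' 1).toQuadraticMap
  have h0 : ∀ v, Q₀ v = v ⬝ᵥ v := fun v => by simp [Q₀, Matrix.toBilin'_apply']
  have h1 : (ofQuad Q₀).Nondeg := fun x hx => funext fun i => by
    have := hx (Pi.single i 1)
    simp only [ofQuad_B, polar, h0, add_dotProduct, dotProduct_add, dotProduct_single,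
      single_dotProduct, Pi.add_apply] at this
    exact (mul_eq_zero.1 (by linear_combination this)).resolve_left h2
  have h3 : Isom (ofQuad Q₀) (Matrix.toLin' (Matrix.J (Fin d) F)) := (ofQuad_isIso _ _).2 fun v => by
    rw [h0, h0, Matrix.toLin'_apply, Matrix.dotProduct_mulVec, Matrix.vecMul_mulVec,
      Matrix.J_transpose, neg_mul, Matrix.J_squared, neg_neg, Matrix.vecMul_one]
  have h4 : Matrix.toLin' (Matrix.J (Fin d) F) ^ 2 = -1 := by
    rw [← Matrix.toLin'_pow, pow_two, Matrix.J_squared, map_neg, Matrix.toLin'_one]; rfl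
  have h5 := finrank_sum_fun F d
  obtain ⟨e, he⟩ := quad_isIso₂ (P := ofQuad Q₀) (P' := ofQuad Q) rfl rfl h1 hP
    (h5 ▸ even_two_mul d) (h5.trans hd.symm) ((plus_iff_of_neg_one h1 h2 h3 h4 h5).trans h.symm)
  refine ⟨_, Isom.conj he h3, ?_⟩
  ext v
  simp [pow_two, LinearEquiv.conj_apply, Matrix.mulVec_mulVec, Matrix.J_squared, Matrix.neg_mulVec]

omit [Finite F] in
theorem hasJ_iff [Fintype F] {d : ℕ} (hd : finrank F V = 2 * d) :
    HasJ Q ↔ (Plus (ofQuad Q) ⊤ ↔ (Even d ∨ Fintype.card F % 4 ≠ 3)) ∧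
      (Even d ∨ (Fintype.card F % 8 ≠ 3 ∧ Fintype.card F % 8 ≠ 5)) := by
  rw [← FiniteField.isSquare_two_iff, ← FiniteField.isSquare_neg_one_iff,
    ← isSquare_pow_iff' h2, ← isSquare_pow_iff' (by simp)]
  constructor
  · rintro ⟨T, h1, h3, h4⟩
    exact ⟨plus_iff_of_neg_one hP h2 h1 h4 hd, (inO_neg_one hP h2 h1 h4 hd).1 h3⟩
  · rintro ⟨h1, h3⟩
    obtain ⟨T, h4, h5⟩ := exists_neg_one_of_type hP h2 hd h1
    exact ⟨T, h4, (inO_neg_one hP h2 h4 h5 hd).2 h3, h5⟩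

theorem forall_two_nd {m : ℕ} (h0 : 0 < m) (hm : m < finrank F V) (h3 : 3 ≤ finrank F V)
    (η : Prop) (Ψ : Submodule F V → Prop)
    (hΨ : ∀ W : Submodule F V, finrank F W = m → ND (ofQuad Q) W → (Ψ W ↔ (Dsq Q W ↔ η))) :
    (∀ T, Isom (ofQuad Q) T → InO Q T → IsPE 2 T →
      ∃ W : Submodule F V, (finrank F W = m ∧ ND (ofQuad Q) W ∧ Ψ W) ∧ Inv T W) ↔
    (¬ HasJ Q ∨ (Even m ∧ η)) := by
  have := Module.nontrivial_of_finrank_pos (R := F) (M := V) (by omega)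
  constructor
  · intro h
    refine or_iff_not_imp_left.2 fun h1 => ?_
    obtain ⟨T, a1, a2, a3⟩ := not_not.1 h1
    obtain ⟨W, ⟨b1, b2, b3⟩, b4⟩ := h T a1 a2 (isPE_of_neg_one hP h2 a1 a3)
    obtain ⟨k, c1, c2, -⟩ := neg_one_main hP h2 a1 a3 b2 b4
    exact ⟨b1 ▸ c1 ▸ even_two_mul k, ((hΨ W b1 b2).1 b3).1 c2⟩
  · intro h T a1 a2 a3
    rcases isPE_cases hP a1 a3 with h4 | h4
    · obtain ⟨W, ⟨b1, b2, b3⟩, b4⟩ := invol_exists_dsq hP h2 a1 h4 h0 hm h3 η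
      exact ⟨W, ⟨b1, b2, (hΨ W b1 b2).2 b3⟩, b4⟩
    · obtain ⟨h5, h6⟩ := h.resolve_left (not_not.2 ⟨T, a1, a2, h4⟩)
      obtain ⟨W, b1, b2, b3⟩ := neg_one_exists_nd hP h2 a1 h4 h5 hm.le
      obtain ⟨k, -, c2, -⟩ := neg_one_main hP h2 a1 h4 b1 b2
      exact ⟨W, ⟨b3, b1, (hΨ W b3 b1).2 (iff_of_true c2 h6)⟩, b2⟩

omit [Finite F] in
theorem plus_iff_dsq' [Fintype F] {W : Submodule F V} (hW : ND (ofQuad Q) W)
    (he : Even (finrank F W)) (η : Prop) : (Plus (ofQuad Q) W ↔ η) ↔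
      (Dsq Q W ↔ (η ↔ (finrank F W % 4 = 0 ∨ Fintype.card F % 4 ≠ 3))) := by
  obtain ⟨k, hk⟩ := he.two_dvd
  rw [plus_iff_dsq hP h2 hW hk, isSquare_pow_iff' (by simp), FiniteField.isSquare_neg_one_iff,
    show Even k ↔ finrank F W % 4 = 0 by rw [Nat.even_iff]; omega]
  exact iff_aux3

omit [Finite F] in
theorem forall_invol_ts [Fintype F] (m : ℕ) :
    (∀ T, Isom (ofQuad Q) T → InO Q T → T ^ 2 = 1 → T ≠ 1 → T ≠ -1 →
      ∃ W : Submodule F V, finrank F W = m ∧ (ofQuad Q).TS W ∧ Inv T W) ↔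
    ∀ b, 0 < b ∧ 2 * b < finrank F V → ∃ x, x ≤ m ∧
      (2 * x + 2 * b < finrank F V ∨ (2 * x + 2 * b = finrank F V ∧
        (Plus (ofQuad Q) ⊤ ↔ (Even b ∨ Fintype.card F % 4 ≠ 3)))) ∧
      (m < x + b ∨ (m = x + b ∧ (Even b ∨ Fintype.card F % 4 ≠ 3))) := by
  have key : ∀ T b, Isom (ofQuad Q) T → InO Q T → T ^ 2 = 1 → finrank F (fix (-T)) = 2 * b →
      ((∃ W : Submodule F V, finrank F W = m ∧ (ofQuad Q).TS W ∧ Inv T W) ↔ ∃ x, x ≤ m ∧
      (2 * x + 2 * b < finrank F V ∨ (2 * x + 2 * b = finrank F V ∧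
        (Plus (ofQuad Q) ⊤ ↔ (Even b ∨ Fintype.card F % 4 ≠ 3)))) ∧
      (m < x + b ∨ (m = x + b ∧ (Even b ∨ Fintype.card F % 4 ≠ 3)))) := by
    intro T b h1 h3 h4 h5
    obtain ⟨a1, a2⟩ := nd_fix_invol hP h2 h1 h4
    have a3 := finrank_fix_invol hP h2 h1 h4
    have a4 := plus_iff_dsq hP h2 a2 h5
    rw [iff_true_intro ((inO_invol hP h2 h1 h4).1 h3).2, true_iff, isSquare_pow_iff' (by simp),
      FiniteField.isSquare_neg_one_iff] at a4
    have a5 : ∀ x, 2 * x + 2 * b = finrank F V → (Plus (ofQuad Q) (fix T) ↔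
        (Plus (ofQuad Q) ⊤ ↔ (Even b ∨ Fintype.card F % 4 ≠ 3))) := fun x hx => by
      rw [plus_perp_iff rfl hP a1 ⟨x, by omega⟩ ⟨x + b, by omega⟩, perp_fix_invol hP h2 h1 h4, a4]
      exact iff_aux2
    have a6 := fix_neg_le_perp h2 h1
    constructor
    · rintro ⟨W, b1, b2, b3⟩
      have b4 := finrank_sup_of_disjoint ((a1.disjoint a6).mono (inf_le_right (a := W))
        (inf_le_right (a := W)))
      rw [Inv.eq_sup_invol h2 h4 b3] at b4
      have b5 := (quad_exists_ts_iff rfl hP a1).1 ⟨_, inf_le_right, b2.mono inf_le_left, rfl⟩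
      have b6 := (quad_exists_ts_iff rfl hP a2).1 ⟨_, inf_le_right, b2.mono inf_le_left, rfl⟩
      exact ⟨finrank F (W ⊓ fix T : Submodule F V), by omega,
        b5.imp (by omega) fun h => ⟨by omega, (a5 _ (h.1 ▸ h5 ▸ a3)).1 h.2⟩,
        b6.imp (by omega) fun h => ⟨by omega, a4.1 h.2⟩⟩
    · rintro ⟨x, b1, b2, b3⟩
      obtain ⟨A, c1, c2, c3⟩ := (quad_exists_ts_iff rfl hP a1 (e := x)).2
        (b2.imp (by omega) fun h => ⟨by omega, (a5 _ h.1).2 h.2⟩)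
      obtain ⟨B, d1, d2, d3⟩ := (quad_exists_ts_iff rfl hP a2 (e := m - x)).2
        (b3.imp (by omega) fun h => ⟨by omega, a4.2 h.2⟩)
      refine ⟨A ⊔ B, ?_, c2.sup d2 (d1.trans (a6.trans (PQ.perp_anti _ c1))), inv_sup_invol c1 d1⟩
      rw [finrank_sup_of_disjoint ((a1.disjoint a6).mono c1 d1)]
      omega
  have k1 : ∀ T : End F V, T = 1 ↔ fix T = ⊤ := fun T =>
    ⟨by rintro rfl; exact eq_top_iff.2 fun v _ => mem_fix.2 rfl,
      fun h => LinearMap.ext fun v => mem_fix.1 (h.ge Submodule.mem_top)⟩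
  constructor
  · rintro h b ⟨h3, h4⟩
    obtain ⟨B, -, a1, a2, a3⟩ := exists_dsq hP h2 (nd_top hP) (s := 2 * b) (by omega)
      (by rwa [finrank_top]) True
    obtain ⟨T, b1, b2, -, rfl⟩ := exists_invol hP h2 a1
    have b3 := (inO_invol hP h2 b1 b2).2 ⟨a2 ▸ even_two_mul b, a3.2 trivial⟩
    have b4 := finrank_fix_invol hP h2 b1 b2
    refine (key T b b1 b3 b2 a2).1 (h T b1 b3 b2 (fun h => ?_) fun h => ?_)
    · rw [(k1 T).1 h, finrank_top] at b4; omega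
    · rw [(k1 (-T)).1 (by rw [h, neg_neg]), finrank_top] at a2; omega
  · intro h T h1 h3 h4 h5 h6
    obtain ⟨b, hb⟩ := ((inO_invol hP h2 h1 h4).1 h3).1.two_dvd
    have b4 := finrank_fix_invol hP h2 h1 h4
    have b5 := Submodule.finrank_lt (mt (k1 T).2 h5)
    have b6 := Submodule.finrank_lt (mt (k1 (-T)).2 fun h => h6 (neg_eq_iff_eq_neg.1 h))
    exact (key T b h1 h3 h4 hb).2 (h b ⟨by omega, by omega⟩)

omit [Finite F] in
theorem forall_two_ts [Fintype F] {m : ℕ} (hm : 2 * m < finrank F V) :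
    (∀ T, Isom (ofQuad Q) T → InO Q T → IsPE 2 T →
      ∃ W : Submodule F V, finrank F W = m ∧ (ofQuad Q).TS W ∧ Inv T W) ↔
    (∀ T, Isom (ofQuad Q) T → InO Q T → T ^ 2 = 1 → T ≠ 1 → T ≠ -1 →
      ∃ W : Submodule F V, finrank F W = m ∧ (ofQuad Q).TS W ∧ Inv T W) ∧
    (¬ HasJ Q ∨ Even m ∨ Fintype.card F % 4 = 1) := by
  have := Module.nontrivial_of_finrank_pos (R := F) (M := V) (by omega)
  obtain ⟨p, hp⟩ := CharP.exists F
  have : Fact p.Prime := ⟨CharP.char_is_prime F p⟩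
  have hp2 : 2 ≠ p := by rintro rfl; exact h2 CharTwo.two_eq_zero
  constructor
  · intro h
    refine ⟨fun T a1 a2 a3 a4 a5 => h T a1 a2 (isPE_of_ne hP a1 (z := 1) (by rw [a3, one_smul]) a4 a5),
      or_iff_not_imp_left.2 fun h1 => or_iff_not_imp_right.2 fun h3 => ?_⟩
    obtain ⟨T, a1, a2, a3⟩ := not_not.1 h1
    obtain ⟨W, b1, -, b3⟩ := h T a1 a2 (isPE_of_neg_one hP h2 a1 a3)
    exact b1 ▸ even_of_neg_one hp2 h3 a3 b3
  · rintro ⟨h, h'⟩ T a1 a2 a3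
    rcases isPE_cases hP a1 a3 with h4 | h4
    · exact h T a1 a2 h4 (by simpa using a3.2 1) (by simpa using a3.2 (-1))
    · obtain ⟨W, -, b1, b2, b3⟩ := exists_ts_neg_one hP hp2 a1 h4 (nd_top hP) (inv_top T) (m := m)
        (by rw [finrank_top]; omega) (h'.resolve_left (not_not.2 ⟨T, a1, a2, h4⟩))
      exact ⟨W, b3, b1, b2⟩

end CfsgLib.Elus2
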