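import Mathlib
import Cfsg.Agent.Lib.Elus2.Orth3

/-!
Unipotent isometries of finite quadratic spaces: Siegel elements and involutions in
characteristic two.
-/

set_option autoImplicit false

namespace CfsgLib.Elus2

open Polynomial Module CfsgLib.MatConj CfsgLib.Forms CfsgLib.Elusive CfsgLib.Orth QuadraticMap

variable {F : Type*} [Field F] {V : Type*} [AddCommGroup V] [Module F V] {Q : QuadraticForm F V}

section Arith

theorem le_iff_one_le_div {c : ℕ} (hc : 0 < c) (m : ℕ) : c ≤ m ↔ 1 ≤ m / c := by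
  rw [← nf_le hc, mul_one]

theorem nf_lt0 {c : ℕ} (hc : 0 < c) {m n : ℕ} (h : m < n) :
    m / c < n / c ∨ (m / c = n / c ∧ m % c < n % c) := (nf_lt hc m n 0 0).1 h

theorem nf_pos {c : ℕ} (m : ℕ) (h : 0 < m) : 0 < m / c ∨ 0 < m % c := by
  have := Nat.div_add_mod m c
  by_contra h1
  rw [Nat.eq_zero_of_not_pos fun h => h1 (Or.inl h)] at this
  omega

theorem div_sum {c : ℕ} (hc : 0 < c) {n m : ℕ} (h : m % c = n % c) :
    (n + m - 2 * (n % c)) / c = n / c + m / c := by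
  have h1 := Nat.div_add_mod m c
  have h2 := Nat.div_add_mod n c
  rw [show n + m - 2 * (n % c) = c * (n / c + m / c) by rw [mul_add]; omega,
    Nat.mul_div_cancel_left _ hc]

/-- Partitions with parts at most three. -/
def m123 (x y z : ℕ) : Multiset ℕ :=
  Multiset.replicate x 1 + Multiset.replicate y 2 + Multiset.replicate z 3

theorem sum_m123 (x y z : ℕ) : (m123 x y z).sum = x + 2 * y + 3 * z := by
  simp [m123, mul_comm]

theorem mem_m123 {x y z a : ℕ} :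
    a ∈ m123 x y z ↔ (x ≠ 0 ∧ a = 1) ∨ (y ≠ 0 ∧ a = 2) ∨ (z ≠ 0 ∧ a = 3) := by
  simp [m123, Multiset.mem_replicate, or_assoc]

theorem count_m123 (x y z a : ℕ) : (m123 x y z).count a =
    (if a = 1 then x else 0) + (if a = 2 then y else 0) + (if a = 3 then z else 0) := by
  simp [m123, Multiset.count_replicate, eq_comm]

theorem eq_m123_of_le {x y z : ℕ} {ν : Multiset ℕ} (h : ν ≤ m123 x y z) :
    ∃ x' ≤ x, ∃ y' ≤ y, ∃ z' ≤ z, ν = m123 x' y' z' := by
  obtain ⟨ν₀, h0, ν₃, h3, rfl⟩ := exists_add_of_le_add h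
  obtain ⟨ν₁, h1, ν₂, h2, rfl⟩ := exists_add_of_le_add h0
  obtain ⟨x', a1, rfl⟩ := Multiset.le_replicate_iff.1 h1
  obtain ⟨y', a2, rfl⟩ := Multiset.le_replicate_iff.1 h2
  obtain ⟨z', a3, rfl⟩ := Multiset.le_replicate_iff.1 h3
  exact ⟨x', a1, y', a2, z', a3, rfl⟩

end Arith

theorem pow_eq_of_sq {T : End F V} (h : (T - 1) * (T - 1) = 0) (n : ℕ) :
    T ^ n = 1 + (n : F) • (T - 1) := by
  induction n with
  | zero => simp
  | succ n ih =>
    have : T ^ (n + 1) = T ^ n * (1 + (T - 1)) := by rw [pow_succ, add_sub_cancel]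
    rw [this, ih, add_mul, mul_add, mul_add, smul_mul_assoc, smul_mul_assoc, h]
    simp only [one_mul, mul_one, smul_zero, add_zero, Nat.cast_succ, add_smul, one_smul]
    abel

theorem fix_eq_ker (T : End F V) : fix T = LinearMap.ker (T - 1) := by
  ext v
  simp [mem_fix, sub_eq_zero]

theorem mem_fix_of_line (h2 : (2 : F) = 0) {T : End F V} (hT : Isom (ofQuad Q) T)
    {W : Submodule F V} (h1 : finrank F W = 1) (hI : Inv T W) {v : V} (hv : v ∈ W)
    (h : Q v ≠ 0) : v ∈ fix T := by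
  have h0 : v ≠ 0 := by rintro rfl; exact h (map_zero Q)
  obtain ⟨c, hc⟩ := (finrank_eq_one_iff_of_nonzero' (⟨v, hv⟩ : W) (by simpa using h0)).1 h1
    ⟨T v, hI v hv⟩
  have h3 : c • v = T v := congrArg Subtype.val hc
  have h4 := (ofQuad_isIso Q T).1 hT v
  rw [← h3, Q_smul] at h4
  have h5 : (c - 1) * (c - 1) = 0 := mul_right_cancel₀ h (by linear_combination h4 - (c - 1) * Q v * h2)
  rw [mem_fix, ← h3, sub_eq_zero.1 (mul_self_eq_zero.1 h5), one_smul]

variable [FiniteDimensional F V]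

theorem finrank_inf_ge {X Y Z : Submodule F V} (hX : X ≤ Z) (hY : Y ≤ Z) :
    finrank F X + finrank F Y ≤ finrank F (X ⊓ Y : Submodule F V) + finrank F Z := by
  have := Submodule.finrank_sup_add_finrank_inf_eq X Y
  have := Submodule.finrank_mono (sup_le hX hY)
  omega

theorem finrank_range_add_fix (T : End F V) :
    finrank F (LinearMap.range (T - 1)) + finrank F (fix T) = finrank F V := by
  rw [fix_eq_ker, LinearMap.finrank_range_add_finrank_ker]

theorem perp_fix_eq_range {σ : F →+* F} {P : PQ σ V} (hP : P.Nondeg) {T : End F V}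
    (hT : Isom P T) : P.perp (fix T) = LinearMap.range (T - 1) := by
  refine (Submodule.eq_of_le_of_finrank_eq ?_ ?_).symm
  · rintro _ ⟨v, rfl⟩
    exact sub_mem_perp_fix hT v
  · have := finrank_range_add_fix T
    have := P.finrank_perp hP (fix T)
    omega

variable (hP : (ofQuad Q).Nondeg)
include hP

theorem siegel_facts {T : End F V} (hT : Isom (ofQuad Q) T)
    (hL : (ofQuad Q).TS (LinearMap.range (T - 1))) {W : Submodule F V} (hW : ND (ofQuad Q) W)
    (hI : Inv T W) : ∃ s, Even s ∧ 2 * s ≤ finrank F W ∧ (2 * s = finrank F W → Plus (ofQuad Q) W) ∧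
      s + finrank F (W ⊓ fix T : Submodule F V) = finrank F W ∧
      finrank F W + 2 * finrank F (LinearMap.range (T - 1)) ≤ 2 * s + finrank F V := by
  have h1 := finrank_map_add (T - 1) W
  rw [← fix_eq_ker] at h1
  have h2 : W.map (T - 1) ≤ W := by
    rintro _ ⟨w, hw, rfl⟩
    exact W.sub_mem (hI w hw) hw
  have h3 := hL.mono (LinearMap.map_le_range (p := W))
  have h4 := perp_fix_eq_range hP hT
  have h5 : LinearMap.range (T - 1) ≤ fix T := by
    rw [← (ofQuad Q).perp_perp hP (fix T), h4]; exact hL.2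
  refine ⟨_, ?_, ts_two_mul_le hW h3 h2, fun h => ⟨_, h2, h, h3⟩, h1, ?_⟩
  · have hA : LinearMap.BilinForm.IsAlt ((polarBilin Q).compl₂ (T - 1)) := fun x => by
      have h6 := Q_add Q x ((T - 1) x)
      rw [ts_ofQuad_iff.1 hL _ ⟨x, rfl⟩, show x + (T - 1) x = T x by simp,
        (ofQuad_isIso Q T).1 hT] at h6
      change polar Q x ((T - 1) x) = 0
      linear_combination -h6
    obtain ⟨C, a1, a2⟩ := exists_compl_in (inf_le_left : W ⊓ fix T ≤ W)
    have a3 := finrank_sup_of_disjoint a1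
    rw [a2] at a3
    have a4 : ND (ofAlt _ hA) C := nd_iff.2 fun x hx h => by
      have hx' : x ∈ W := a2.le (Submodule.mem_sup_right hx)
      refine Submodule.disjoint_def.1 a1 x ⟨hx', ?_⟩ hx
      rw [fix_eq_ker]
      refine nd_iff.1 hW _ (h2 ⟨x, hx', rfl⟩) fun y hy => ?_
      obtain ⟨u, hu, v, hv, rfl⟩ := Submodule.mem_sup.1 (a2.ge hy)
      rw [PQ.B_add_right, PQ.B_eq_zero_comm _ |>.1 (h4.ge ⟨x, rfl⟩ u hu.2), zero_add,
        PQ.B_eq_zero_comm]
      exact (hA.neg_eq x v).symm.trans (neg_eq_zero.2 (h v hv))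
    have := alt_even (P := (ofAlt _ hA).restrict C) rfl a4.nondeg (nd_top a4.nondeg)
    rw [finrank_top] at this
    rwa [show finrank F (W.map (T - 1)) = finrank F C by omega]
  · have a1 := hW.finrank_inf_perp hP (inf_le_left : W ⊓ fix T ≤ W)
    have a2 := finrank_inf_ge (inf_le_right : W ⊓ fix T ≤ fix T) h5
    have a3 := Submodule.finrank_mono (show W ⊓ fix T ⊓ LinearMap.range (T - 1) ≤
      W ⊓ (ofQuad Q).perp (W ⊓ fix T) from inf_le_inf inf_le_left
        (h4.ge.trans (PQ.perp_anti _ inf_le_right)))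
    have a4 := finrank_range_add_fix T
    omega

theorem siegel_plus {T : End F V} (hT : Isom (ofQuad Q) T)
    (hL : (ofQuad Q).TS (LinearMap.range (T - 1))) (hp : Plus (ofQuad Q) ⊤)
    (hn : finrank F V ≤ 2 * finrank F (LinearMap.range (T - 1)) + 2) {W : Submodule F V}
    (hW : ND (ofQuad Q) W) (hI : Inv T W) (he : Even (finrank F W)) : Plus (ofQuad Q) W := by
  obtain ⟨s, -, a2, a3, a4, -⟩ := siegel_facts hP hT hL hW hI
  refine a2.eq_or_lt.elim a3 fun a5 => ?_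
  obtain ⟨L, -, b1, b2⟩ := hp
  rw [finrank_top] at b1
  have b3 := ts_two_mul_le (nd_top hP) hL le_top
  rw [finrank_top] at b3
  obtain ⟨X, -, c1, c2, c3⟩ := ts_exists_le (nd_top hP) hL b2 le_top le_top (by omega)
  have c4 : X ≤ fix T := by
    rw [← (ofQuad Q).perp_perp hP (fix T), perp_fix_eq_range hP hT]
    exact c1.2.trans (PQ.perp_anti _ c2)
  have c5 := finrank_inf_ge (inf_le_right : W ⊓ fix T ≤ fix T) c4
  have c6 := finrank_range_add_fix T
  have c7 : W ⊓ fix T ⊓ X ≤ W := inf_le_left.trans inf_le_left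
  have c8 := ts_two_mul_le hW (c1.mono inf_le_right) c7
  rw [Nat.even_iff] at he
  exact ⟨_, c7, by omega, c1.mono inf_le_right⟩

variable [Fintype F]

theorem exists_siegel {k : ℕ}
    (h : 4 * k < finrank F V ∨ (4 * k ≤ finrank F V ∧ Plus (ofQuad Q) ⊤)) :
    ∃ T, Isom (ofQuad Q) T ∧ (ofQuad Q).TS (LinearMap.range (T - 1)) ∧
      finrank F (LinearMap.range (T - 1)) = 2 * k := by
  obtain ⟨U, -, hU, hd, hp⟩ := quad_exists_plus rfl hP (nd_top hP) (e := 2 * k)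
    (by rwa [finrank_top, ← mul_assoc])
  let M := Fin k ⊕ Fin k → F
  let Q₀ : QuadraticForm F (M × M) := LinearMap.BilinMap.toQuadraticMap
    ((spB (Fin k) F).compl₁₂ (LinearMap.fst F M M) (LinearMap.snd F M M))
  have h0 : ∀ v, Q₀ v = spB (Fin k) F v.1 v.2 := fun v => rfl
  have h1 : (ofQuad Q₀).Nondeg := fun x hx => Prod.ext
    ((spB_nondegenerate (Fin k) F).1 _ fun y => by simpa [ofQuad_B, polar, h0] using hx (0, y))
    ((spB_nondegenerate (Fin k) F).2 _ fun y => by simpa [ofQuad_B, polar, h0] using hx (y, 0))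
  let T₀ : End F (M × M) := (LinearMap.fst F M M + LinearMap.snd F M M).prod (LinearMap.snd F M M)
  have h2 : Isom (ofQuad Q₀) T₀ := (ofQuad_isIso _ _).2 fun v => by
    simp [h0, T₀, (spB_isAlt (Fin k) F).self_eq_zero]
  have h3 : finrank F M = 2 * k := finrank_sum_fun F k
  have h4 : finrank F (M × M) = 2 * (2 * k) := by rw [finrank_prod, h3, two_mul (2 * k)]
  obtain ⟨e, he⟩ := quad_isIso₂ (P := ofQuad Q₀) (P' := (ofQuad Q).restrict U) rfl rfl h1 hU.nondeg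
    (h4 ▸ even_two_mul _) (h4.trans hd.symm) (iff_of_true ⟨LinearMap.range (LinearMap.inl F M M),
      le_top, by rw [LinearMap.finrank_range_of_inj LinearMap.inl_injective, finrank_top, h3, h4],
      ts_ofQuad_iff.2 (by rintro _ ⟨y, rfl⟩; simp [h0])⟩ (plus_restrict.2 hp))
  obtain ⟨T, a1, a2, a3, -⟩ := exists_ext_one hP hU (Isom.conj he h2)
  have a4 : ∀ x, (T - 1) (e x : V) = e (x.2, 0) := fun x => by
    rw [LinearMap.sub_apply, a2, LinearEquiv.conj_apply_apply, e.symm_apply_apply,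
      Module.End.one_apply, ← Submodule.coe_sub, ← map_sub]
    congr 2
    ext1 <;> simp [T₀]
  have a5 : LinearMap.range (T - 1) =
      LinearMap.range (U.subtype ∘ₗ e.toLinearMap ∘ₗ LinearMap.inl F M M) := by
    refine le_antisymm ?_ ?_
    · rintro _ ⟨v, rfl⟩
      obtain ⟨a, b, rfl⟩ := exists_add_of_isCompl ((ofQuad Q).isCompl_perp hP hU) v
      obtain ⟨x, rfl⟩ := e.surjective a
      exact ⟨x.2, by simp [map_add, a4, a3 b b.2]⟩
    · rintro _ ⟨y, rfl⟩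
      exact ⟨e (0, y), a4 _⟩
  refine ⟨T, a1, ts_ofQuad_iff.2 ?_, ?_⟩
  · rw [a5]
    rintro _ ⟨y, rfl⟩
    exact (sub_eq_zero.1 ((ofQuad_mem Q₀ _).1 (he.N_eq (y, 0)))).trans ((h0 _).trans (map_zero _))
  · rw [a5, LinearMap.finrank_range_of_inj, h3]
    exact U.injective_subtype.comp (e.injective.comp LinearMap.inl_injective)

theorem exists_siegel_omega {p : ℕ} [hp : Fact p.Prime] [CharP F p]
    (h24 : Nat.card F ≠ 2 ∨ finrank F V ≠ 4) {k : ℕ} (hk : 0 < k)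
    (h : 4 * k < finrank F V ∨ (4 * k ≤ finrank F V ∧ Plus (ofQuad Q) ⊤)) :
    ∃ T, Isom (ofQuad Q) T ∧ InO Q T ∧ IsPE p T ∧ (ofQuad Q).TS (LinearMap.range (T - 1)) ∧
      finrank F (LinearMap.range (T - 1)) = 2 * k := by
  obtain ⟨T, h1, h2, h3⟩ := exists_siegel hP h
  have h4 : T ^ p = 1 := by
    rw [pow_eq_of_sq, CharP.cast_eq_zero, zero_smul, add_zero]
    ext v
    have := h2.2 ⟨v, rfl⟩
    rw [← perp_fix_eq_range hP h1, (ofQuad Q).perp_perp hP, fix_eq_ker] at this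
    exact this
  have h5 : T ≠ 1 := by
    rintro rfl
    rw [sub_self, LinearMap.range_zero, finrank_bot] at h3
    omega
  rcases hp.out.eq_two_or_odd' with rfl | ho
  · exact ⟨T, h1, (inO_iff_two hP h24 CharTwo.two_eq_zero h1).2 (h3 ▸ even_two_mul k),
      isPE_two_of_ne hP h1 h4 h5, h2, h3⟩
  · exact ⟨T, h1, inO_of_odd hP h24 ho h1 h4, isPE_of_odd hP h1 ho h4 h5, h2, h3⟩

section Two

variable [CharP F 2] {T : End F V} (hT : Isom (ofQuad Q) T) (h : T ^ 2 = 1)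
include hT h

omit [Fintype F] hT in
theorem exists_fix_ne_or : (∃ v ∈ fix T, Q v ≠ 0) ∨
    (Plus (ofQuad Q) ⊤ ∧ 2 * finrank F (LinearMap.range (T - 1)) = finrank F V) := by
  refine or_iff_not_imp_left.2 fun h1 => ?_
  push Not at h1
  have h2 := ts_ofQuad_iff.2 h1
  have h3 := ts_two_mul_le (nd_top hP) h2 le_top
  have h4 := finrank_range_add_fix T
  have h5 : LinearMap.range (T - 1) ≤ fix T := by
    rintro _ ⟨v, rfl⟩
    have h6 : T (T v) = v := congr($h v)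
    rw [mem_fix, LinearMap.sub_apply, map_sub, h6, Module.End.one_apply, ← neg_sub,
      ← neg_one_smul F, CharTwo.neg_eq, one_smul]
  have h6 := Submodule.finrank_mono h5
  rw [finrank_top] at h3
  exact ⟨⟨_, le_top, by rw [finrank_top]; omega, h2⟩, by omega⟩

omit [Fintype F] in
theorem plane_move {A : Submodule F V} (hA : ND (ofQuad Q) A) (hI : Inv T A)
    (hd : finrank F A = 2) (h1 : ¬ A ≤ fix T) :
    ∃ v ∈ A, v + T v ∈ fix T ∧ polar Q v (T v) ≠ 0 ∧ Q (v + T v) = polar Q v (T v) := by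
  obtain ⟨v, hv, h2⟩ := SetLike.not_le_iff_exists.1 h1
  have h3 : T (T v) = v := congr($h v)
  have h4 : (2 : F) = 0 := CharTwo.two_eq_zero
  refine ⟨v, hv, by rw [mem_fix, map_add, h3, add_comm], fun h5 => ?_, by
    rw [Q_add, (ofQuad_isIso Q T).1 hT]; linear_combination Q v * h4⟩
  have h0 : v ≠ 0 := by rintro rfl; exact h2 (Submodule.zero_mem _)
  have h6 := hA.finrank_inf_perp hP ((Submodule.span_singleton_le_iff_mem _ _).2 hv)
  rw [finrank_span_singleton h0] at h6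
  rw [hd] at h6
  obtain ⟨c, hc⟩ := (finrank_eq_one_iff_of_nonzero'
    (⟨v, hv, (PQ.mem_perp_span_singleton _).2 (by rw [ofQuad_B, polar_self', h4, zero_mul])⟩ :
      (A ⊓ (ofQuad Q).perp (Submodule.span F {v}) : Submodule F V))
      (fun h => h0 (congrArg Subtype.val h))).1
    (Nat.succ_injective h6) ⟨T v, hI v hv, (PQ.mem_perp_span_singleton _).2 h5⟩
  have h7 : c • v = T v := congrArg Subtype.val hc
  rw [← h7, map_smul, ← h7, smul_smul] at h3
  replace h3 : c * c - 1 = 0 := (smul_eq_zero_iff_left h0).1 (by rw [sub_smul, one_smul, h3, sub_self])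
  have h8 : (c - 1) * (c - 1) = 0 := by linear_combination h3 - (c - 1) * h4
  exact h2 (by rw [mem_fix, ← h7, sub_eq_zero.1 (mul_self_eq_zero.1 h8), one_smul])

theorem two_planes {A Y : Submodule F V} (hA : ND (ofQuad Q) A) (hI : Inv T A)
    (hd : finrank F A = 2) (hY : ND (ofQuad Q) Y) (hI' : Inv T Y) (hd' : finrank F Y = 2)
    (ho : Y ≤ (ofQuad Q).perp A) (η : Prop) : ∃ W, W ≤ A ⊔ Y ∧ ND (ofQuad Q) W ∧ Inv T W ∧
      finrank F W = 2 ∧ (Plus (ofQuad Q) W ↔ η) := by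
  by_cases h1 : A ≤ fix T ∧ Y ≤ fix T
  · obtain ⟨W, a1, a2, a3⟩ := quad_exists_type rfl hP (hA.sup hY ho) one_pos
      (by rw [hA.finrank_sup ho]; omega) η
    exact ⟨W, a1, a2, inv_of_le_fix (a1.trans (sup_le h1.1 h1.2)), a3⟩
  wlog h2 : ¬ A ≤ fix T generalizing A Y
  · exact sup_comm A Y ▸ this hY hI' hd' hA hI hd ((ofQuad Q).le_perp_comm.1 ho)
      (by rwa [and_comm]) fun h => h1 ⟨not_not.1 h2, h⟩
  have h4 : (2 : F) = 0 := CharTwo.two_eq_zero
  obtain ⟨w, a1, a2, a3⟩ : ∃ w ∈ Y, w ∈ fix T ∧ Q w ≠ 0 := by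
    by_cases h3 : Y ≤ fix T
    · obtain ⟨w, a1, a2⟩ := quad_exists_ne rfl hY (by rintro rfl; simp at hd')
      exact ⟨w, a1, h3 a1, a2⟩
    · obtain ⟨v, a1, a2, a3, a4⟩ := plane_move hP hT h hY hI' hd' h3
      exact ⟨_, Y.add_mem a1 (hI' v a1), a2, a4 ▸ a3⟩
  obtain ⟨v, b1, b2, b3, b4⟩ := plane_move hP hT h hA hI hd h2
  obtain ⟨s, hs⟩ := isSquare_of_charTwo h4 (polar Q v (T v))⁻¹
  have hs' : s * s * polar Q v (T v) = 1 := by rw [← hs, inv_mul_cancel₀ b3]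
  have c1 : polar Q v w = 0 := ho a1 v b1
  have c2 : polar Q (T v) w = 0 := ho a1 _ (hI v b1)
  obtain ⟨ζ, hζ, hζ'⟩ : ∃ ζ : F, (η → ζ = 0) ∧ (¬ η → Aniso 1 ζ) := by
    by_cases hη : η
    · exact ⟨0, fun _ => rfl, fun h => absurd hη h⟩
    · exact exists_aniso_one.imp fun ζ h => ⟨fun h => absurd h hη, fun _ => h⟩
  obtain ⟨t, ht⟩ := isSquare_of_charTwo h4 ((ζ * polar Q v (T v) - Q v) / Q w)
  rw [div_eq_iff a3] at ht
  have d1 : Q (s • (v + T v)) = 1 := by rw [Q_smul, b4, hs']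
  have d2 : polar Q (s • (v + T v)) (s • (v + t • w)) = 1 := by
    simp only [polar_smul_left, polar_smul_right, polar_add_left, polar_add_right, c1, c2,
      polar_self', polar_comm Q (T v) v, smul_eq_mul]
    linear_combination hs' + s * s * Q v * h4
  have d3 : Q (s • (v + t • w)) = ζ := by
    rw [Q_smul, Q_add, Q_smul, polar_smul_right, c1]
    linear_combination ζ * hs' - s * s * ht
  have hA' : LinearMap.BilinForm.IsAlt (polarBilin Q) := fun x =>
    (polar_self' Q x).trans (by rw [h4, zero_mul])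
  obtain ⟨e1, e2⟩ := alt_nd_pair (P := ofAlt _ hA') rfl (x := s • (v + T v)) (y := s • (v + t • w))
    (by rw [ofAlt_B, polarBilin_apply_apply, polar_comm, d2]; exact one_ne_zero)
  refine ⟨_, span_pair_le (Submodule.mem_sup_left (A.smul_mem s (A.add_mem b1 (hI v b1))))
    (Submodule.smul_mem _ s (Submodule.add_mem_sup b1 (Y.smul_mem t a1))), e1,
    inv_span_pair ?_ ?_, e2, ?_⟩
  · rw [map_smul, mem_fix.1 b2]; exact mem_span_pair_left _ _
  · have : T (s • (v + t • w)) = s • (v + T v) + s • (v + t • w) - (2 * s) • v := by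
      rw [map_smul, map_add, map_smul, mem_fix.1 a2]; module
    rw [this, h4, zero_mul, zero_smul, sub_zero]
    exact Submodule.add_mem _ (mem_span_pair_left _ _) (mem_span_pair_right _ _)
  · by_cases hη : η
    · refine iff_of_true ⟨Submodule.span F {s • (v + t • w)}, (Submodule.span_singleton_le_iff_mem
        _ _).2 (mem_span_pair_right _ _), ?_, PQ.ts_span_singleton _ (d3.trans (hζ hη))⟩ hη
      rw [e2, finrank_span_singleton]
      intro h0
      rw [h0, polar_zero_right] at d2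
      exact zero_ne_one d2
    · exact iff_of_false (plane_of_aniso (P := ofQuad Q) rfl (hζ' hη) d1 d2 d3).2.2 hη

theorem quad_struct_two {U : Submodule F V} (hU : ND (ofQuad Q) U) (hI : Inv T U) :
    ∃ U₁ U₂ α β, U₁ ⊔ U₂ = U ∧ U₂ ≤ (ofQuad Q).perp U₁ ∧ ND (ofQuad Q) U₁ ∧ ND (ofQuad Q) U₂ ∧
      Inv T U₁ ∧ finrank F U₁ = 2 * α ∧ finrank F U₂ = 4 * β ∧ Plus (ofQuad Q) U₂ ∧
      (∀ j, 0 < j → j < α → ∀ η : Prop, ∃ W, W ≤ U₁ ∧ ND (ofQuad Q) W ∧ Inv T W ∧
        finrank F W = 2 * j ∧ (Plus (ofQuad Q) W ↔ η)) ∧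
      ∀ l ≤ β, ∃ W, W ≤ U₂ ∧ ND (ofQuad Q) W ∧ Inv T W ∧ finrank F W = 4 * l ∧
        Plus (ofQuad Q) W := by
  have hA' : LinearMap.BilinForm.IsAlt (polarBilin Q) := fun x =>
    (polar_self' Q x).trans (by rw [CharTwo.two_eq_zero, zero_mul])
  refine nd_induction hP hT hU hI
    (fun A _ => finrank F A = 2 ∨ (finrank F A = 4 ∧ Plus (ofQuad Q) A))
    (fun U => ∃ U₁ U₂ α β, U₁ ⊔ U₂ = U ∧ U₂ ≤ (ofQuad Q).perp U₁ ∧ ND (ofQuad Q) U₁ ∧
      ND (ofQuad Q) U₂ ∧
      Inv T U₁ ∧ finrank F U₁ = 2 * α ∧ finrank F U₂ = 4 * β ∧ Plus (ofQuad Q) U₂ ∧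
      (∀ j, 0 < j → j < α → ∀ η : Prop, ∃ W, W ≤ U₁ ∧ ND (ofQuad Q) W ∧ Inv T W ∧
        finrank F W = 2 * j ∧ (Plus (ofQuad Q) W ↔ η)) ∧
      ∀ l ≤ β, ∃ W, W ≤ U₂ ∧ ND (ofQuad Q) W ∧ Inv T W ∧ finrank F W = 4 * l ∧
        Plus (ofQuad Q) W) ?_ ?_ ?_
  · intro Y _ h2 h3 h4
    rcases alt_block_char_two (P := ofAlt _ hA') rfl (alt_isIso rfl hT.B_eq) h h2 h3 h4 with
      ⟨A, a1, a2, a3, a4, -⟩ | ⟨B, a1, a2, a3, a4⟩
    · exact ⟨A, a1, by rintro rfl; simp at a4, a2, a3, Or.inl a4⟩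
    · obtain ⟨b1, b2, b3⟩ := OPD.swap hP hT one_ne_zero (by rw [h, one_smul]) a2 a4
      have b4 := b3.1
      rw [a3] at b4
      exact ⟨_, sup_le a1 ((Submodule.map_mono a1).trans (inv_iff_map_le.1 h3)),
        fun h => by rw [h, finrank_bot] at b4; omega, b1, b2, Or.inr ⟨b4,
          plus_sup_of_minus_eq rfl a2 (ND.map_iso hT a2) a4 (a3 ▸ even_two)
            ((hT.toEquiv hP).finrank_map_eq B).symm (plus_map_iff (hT.toEquiv_isIso hP)).symm⟩⟩
  · exact ⟨⊥, ⊥, 0, 0, by simp, bot_le, nd_bot, nd_bot, inv_bot T, by simp, by simp, plus_bot,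
      fun j _ h => by omega, fun l hl => ⟨⊥, le_rfl, nd_bot, inv_bot T, by simp; omega, plus_bot⟩⟩
  · rintro A Y - a1 a2 a3 b1 b2 b3 ⟨U₁, U₂, α, β, rfl, c2, c3, c4, c5, c6, c7, c8, c9, c10⟩
    have d1 := le_sup_left.trans b3
    have d2 := le_sup_right.trans b3
    rcases a3 with a3 | ⟨a3, a4⟩
    · refine ⟨A ⊔ U₁, U₂, α + 1, β, sup_assoc _ _ _, by rw [PQ.perp_sup]; exact le_inf d2 c2,
        a1.sup c3 d1, c4, a2.sup c5, by rw [a1.finrank_sup d1]; omega, c7, c8,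
        fun j h1 h2 η => ?_, c10⟩
      by_cases h3 : j < α
      · obtain ⟨W, e1, e2⟩ := c9 j h1 h3 η
        exact ⟨W, e1.trans le_sup_right, e2⟩
      by_cases h4 : j = 1
      · subst h4
        exact two_planes hP hT h a1 a2 a3 c3 c5 (by omega) d1 η
      obtain ⟨W, e1, e2, e3, e4, e5⟩ := c9 (j - 1) (by omega) (by omega) (η ↔ Plus (ofQuad Q) A)
      refine ⟨A ⊔ W, sup_le_sup_left e1 _, a1.sup e2 (e1.trans d1), a2.sup e3,
        by rw [a1.finrank_sup (e1.trans d1)]; omega, ?_⟩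
      rw [plus_sup_iff rfl hP a1 e2 (e1.trans d1) (a3 ▸ even_two) (e4 ▸ even_two_mul _), e5]
      exact iff_aux5
    · refine ⟨U₁, A ⊔ U₂, α, β + 1, sup_left_comm _ _ _,
        sup_le ((ofQuad Q).le_perp_comm.1 d1) c2, c3, a1.sup c4 d2, c5, c6,
        by rw [a1.finrank_sup d2]; omega, a4.sup c8 (a1.disjoint d2) d2, c9, fun l hl => ?_⟩
      rcases hl.eq_or_lt with rfl | hl
      · obtain ⟨W, e1, e2, e3, e4, e5⟩ := c10 β le_rfl
        exact ⟨A ⊔ W, sup_le_sup_left e1 _, a1.sup e2 (e1.trans d2), a2.sup e3,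
          by rw [a1.finrank_sup (e1.trans d2)]; omega,
          a4.sup e5 (a1.disjoint (e1.trans d2)) (e1.trans d2)⟩
      · obtain ⟨W, e1, e2⟩ := c10 l (by omega)
        exact ⟨W, e1.trans le_sup_right, e2⟩

theorem two_exists_same_type {m : ℕ} (hm : Even m) (h0 : 0 < m) (hn : m < finrank F V)
    (h1 : Plus (ofQuad Q) ⊤ → finrank F V % 4 = 2 ∨ m % 4 = 0)
    (h2 : ¬ Plus (ofQuad Q) ⊤ → finrank F V % 4 = 0 ∨ m % 4 = 2) :
    ∃ W : Submodule F V, (finrank F W = m ∧ ND (ofQuad Q) W ∧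
      (Plus (ofQuad Q) W ↔ Plus (ofQuad Q) ⊤)) ∧ Inv T W := by
  obtain ⟨U₁, U₂, α, β, c1, c2, c3, c4, c5, c6, c7, c8, c9, c10⟩ :=
    quad_struct_two hP hT h (nd_top hP) (inv_top T)
  have d1 := c3.finrank_sup c2
  have d2 := plus_sup_iff_of_plus hP c4 c3 ((ofQuad Q).le_perp_comm.1 c2) c8
  rw [sup_comm] at d2
  rw [c1] at d1 d2
  rw [finrank_top] at d1
  obtain ⟨k, rfl⟩ := hm.two_dvd
  obtain ⟨j, a1, l, a2, rfl, a3⟩ : ∃ j ≤ α, ∃ l ≤ β, k = j + 2 * l ∧
      (j = 0 → Plus (ofQuad Q) ⊤) := by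
    by_cases h3 : Plus (ofQuad Q) ⊤
    · obtain ⟨j, a1, l, a2, a3⟩ := exists_two_four (α := α) (β := β) (m := k) (by omega)
        (by have := h1 h3; rw [Nat.even_iff]; omega)
      exact ⟨j, a1, l, a2, a3, fun _ => h3⟩
    · have h4 : α ≠ 0 := fun h4 => h3 (d2.2 (plus_of_finrank_zero (by omega)))
      obtain ⟨j, a1, l, a2, a3⟩ := exists_two_four (α := α - 1) (β := β) (m := k - 1) (by omega)
        (by have := h2 h3; rw [Nat.even_iff]; omega)
      exact ⟨j + 1, by omega, l, a2, by omega, fun h => by omega⟩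
  obtain ⟨W, e1, e2, e3, e4, e5⟩ : ∃ W, W ≤ U₁ ∧ ND (ofQuad Q) W ∧ Inv T W ∧
      finrank F W = 2 * j ∧ (Plus (ofQuad Q) W ↔ Plus (ofQuad Q) ⊤) := by
    rcases Nat.eq_zero_or_pos j with rfl | h3
    · exact ⟨⊥, bot_le, nd_bot, inv_bot T, by simp, iff_of_true plus_bot (a3 rfl)⟩
    rcases a1.eq_or_lt with rfl | h4
    · exact ⟨U₁, le_rfl, c3, c5, c6, d2.symm⟩
    · exact c9 j h3 h4 _
  obtain ⟨W', f1, f2, f3, f4, f5⟩ := c10 l a2
  have h5 := f1.trans (c2.trans (PQ.perp_anti _ e1))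
  refine ⟨W ⊔ W', ⟨by rw [e2.finrank_sup h5]; omega, e2.sup f2 h5, ?_⟩, e3.sup f3⟩
  rw [sup_comm, plus_sup_iff_of_plus hP f2 e2 ((ofQuad Q).le_perp_comm.1 h5) f5, e5]

end Two

end CfsgLib.Elus2
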