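import Mathlib
import Cfsg.Agent.Lib.Elus2.Orth4

/-!
Unipotent isometries with small Jordan blocks and odd-dimensional invariant subspaces of finite
quadratic spaces.
-/

set_option autoImplicit false

namespace CfsgLib.Elus2

open Polynomial Module CfsgLib.MatConj CfsgLib.Forms CfsgLib.Elusive CfsgLib.Orth QuadraticMap

variable {F : Type*} [Field F] {V : Type*} [AddCommGroup V] [Module F V] {Q : QuadraticForm F V}
  [FiniteDimensional F V] (hP : (ofQuad Q).Nondeg) [Fintype F]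
include hP

section Unip

variable (h2 : (2 : F) ≠ 0)
include h2

theorem nd_m123 {T : End F V} (hT : Isom (ofQuad Q) T) {U W : Submodule F V} (hI : Inv T U)
    {x y z : ℕ} (h : edOn T U = unEd (m123 x y z)) (hW : ND (ofQuad Q) W) (hWI : Inv T W)
    (hle : W ≤ U) : ∃ x' ≤ x, ∃ y', ∃ z' ≤ z, edOn T W = unEd (m123 x' (2 * y') z') ∧
      finrank F W = x' + 4 * y' + 3 * z' ∧ (x' = 0 → z' = 0 → Plus (ofQuad Q) W) := by
  obtain ⟨ν, h1, h3⟩ := ND.exists_unEd hP hT hI h hW hWI hle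
  obtain ⟨x', a1, y', -, z', a3, rfl⟩ := eq_m123_of_le h1
  obtain ⟨y', rfl⟩ : 2 ∣ y' := by
    simpa [count_m123, even_iff_two_dvd] using
      ((quad_badData rfl h2).main hP hT hW hWI h3).1 2 even_two
  refine ⟨x', a1, y', z', a3, h3, by rw [hWI.finrank_eq, h3, mdeg_unEd, sum_m123]; ring, ?_⟩
  rintro rfl rfl
  exact plus_of_forall_even h2 hP hT hW hWI h3 fun a ha => by simp [mem_m123] at ha; simp [ha.2]

variable {p : ℕ} [hp : Fact p.Prime] [CharP F p]

omit hP [Fintype F] in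
theorem three_le_char : 3 ≤ p :=
  two_lt_of_ne_two hp.out (by rintro rfl; exact h2 CharTwo.two_eq_zero)

omit hP [Fintype F] in
theorem pow_of_m123 {T : End F V} {x y z : ℕ} (h : ed T = unEd (m123 x y z)) (h0 : y ≠ 0 ∨ z ≠ 0) :
    T ^ p = 1 ∧ T ≠ 1 := by
  have h3 := three_le_char (p := p) h2
  obtain ⟨h4, h5⟩ := isPE_of_unEd (p := p) h (fun a ha => by rw [mem_m123] at ha; omega)
    (h0.elim (fun h => ⟨2, by simp [mem_m123, h], by omega⟩)
      fun h => ⟨3, by simp [mem_m123, h], by omega⟩)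
  exact ⟨h4, by simpa using h5.2 1⟩

theorem exists_m123 {x y z : ℕ} (h : x + 4 * y + 3 * z = finrank F V)
    (h1 : x = 0 → z = 0 → Plus (ofQuad Q) ⊤) (h0 : y ≠ 0 ∨ z ≠ 0) :
    ∃ T, Isom (ofQuad Q) T ∧ T ^ p = 1 ∧ T ≠ 1 ∧ ∀ W, ND (ofQuad Q) W → Inv T W →
      ∃ x' ≤ x, ∃ y', ∃ z' ≤ z, finrank F W = x' + 4 * y' + 3 * z' ∧
        (x' = 0 → z' = 0 → Plus (ofQuad Q) W) := by
  obtain ⟨T, a1, a2⟩ := quad_exists_unip rfl hP h2 (μ := m123 x (2 * y) z)
    (fun a ha => by rw [mem_m123] at ha; omega)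
    (fun a ha => by
      rw [count_m123, Nat.even_iff] at *
      split_ifs <;> omega)
    (by rw [sum_m123]; omega) fun h => h1
      (by_contra fun h3 => by simpa using h 1 (by simp [mem_m123, h3]))
      (by_contra fun h3 => absurd (h 3 (by simp [mem_m123, h3])) (by decide))
  obtain ⟨a3, a4⟩ := pow_of_m123 (p := p) h2 a2 (by omega)
  refine ⟨T, a1, a3, a4, fun W b1 b2 => ?_⟩
  obtain ⟨x', c1, y', z', c2, -, c3⟩ := nd_m123 hP h2 a1 (inv_top T) ((edOn_top T).trans a2) b1 b2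
    le_top
  exact ⟨x', c1, y', z', c2, c3⟩

theorem exists_unip_line {k : ℕ} (hn : finrank F V = 4 * k + 4) {v : V} (hv : Q v ≠ 0) :
    ∃ T, Isom (ofQuad Q) T ∧ T ^ p = 1 ∧ T ≠ 1 ∧ ∀ W, ND (ofQuad Q) W → Inv T W →
      finrank F W % 4 = 1 → (Dsq Q W ↔ IsSquare (Q v)) := by
  have a1 := quad_nd_line (P := ofQuad Q) rfl h2 hv
  have a2 := quad_finrank_line (P := ofQuad Q) rfl hv
  have a3 := (ofQuad Q).finrank_perp hP (Submodule.span F {v})
  obtain ⟨S, b1, b2⟩ := quad_exists_unip_odd (P := (ofQuad Q).restrict ((ofQuad Q).perp _)) rfl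
    (a1.perp hP).nondeg h2 (μ := m123 0 (2 * k) 1) (fun a ha => by rw [mem_m123] at ha; omega)
    (fun a ha => by
      rw [count_m123, Nat.even_iff] at *
      split_ifs <;> omega) (by rw [sum_m123]; omega) (by rw [Nat.odd_iff]; omega)
  obtain ⟨T, c1, c2, -, c3, -, c4, c5⟩ := exists_sum hP a1 (isom_one _) b1
  rw [b2] at c4 c5
  rw [ed_one, a2, ← unEd_replicate_one, ← unEd_add,
    show Multiset.replicate 1 1 + m123 0 (2 * k) 1 = m123 1 (2 * k) 1 by simp [m123]] at c5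
  obtain ⟨d1, d2⟩ := pow_of_m123 (p := p) h2 c5 (Or.inr one_ne_zero)
  refine ⟨T, c1, d1, d2, fun W e1 e2 e3 => ?_⟩
  obtain ⟨x, f1, y, z, f2, f3, f4, -⟩ := nd_m123 hP h2 c1 (inv_top T) ((edOn_top T).trans c5) e1 e2
    le_top
  obtain ⟨rfl, rfl⟩ : x = 1 ∧ z = 0 := by omega
  obtain ⟨A, g1, g2, g3, g4⟩ := ((quad_badData rfl h2).main hP c1 e1 e2 f3).2 {1}
    (by simp [mem_m123]) fun a ha => by
      rw [Multiset.count_singleton, if_neg (by rintro rfl; simp at ha)]; exact Even.zero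
  have g5 : finrank F A = 1 := by rw [g3.finrank_eq, g4, mdeg_unEd, Multiset.sum_singleton]
  have g6 : A ≤ fix T := le_ker_of_edOn g3 (by simp [g4, unEd])
  have g7 := ND.edOn_eq hP c1 g2 g3 e2 g1
  rw [f3, g4, show m123 1 (2 * y) 0 = {1} + m123 0 (2 * y) 0 by simp [m123], unEd_add,
    add_right_inj] at g7
  have g8 := g2.inf_perp hP e1 g1
  obtain ⟨x, f1, y', z, f2, -, f5, f6⟩ := nd_m123 hP h2 c1 (e2.inf (g3.perp hP c1)) g7.symm g8
    (e2.inf (g3.perp hP c1)) le_rfl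
  obtain ⟨w, i1, i2⟩ := quad_exists_ne rfl g2 (by rintro rfl; simp at g5)
  obtain rfl : Submodule.span F {w} = A := Submodule.eq_of_le_of_finrank_eq
    ((Submodule.span_singleton_le_iff_mem _ _).2 i1) ((quad_finrank_line rfl i2).trans g5.symm)
  rw [dsq_inf_perp hP h2 g2 e1 g1, iff_true_intro (((plus_iff_dsq hP h2 g8 (k := 2 * y')
    (by omega)).1 (f6 (by omega) (by omega))).2 (by simp)), iff_true, dsq_line hP h2 i2]
  obtain ⟨a, b, rfl⟩ := exists_add_of_isCompl ((ofQuad Q).isCompl_perp hP a1) w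
  have i3 : T b = b := by
    have := mem_fix.1 (g6 i1)
    rwa [map_add, c2, Module.End.one_apply, add_right_inj] at this
  have i4 : Q b = 0 := by
    by_contra i4
    have i5 := (Submodule.span_singleton_le_iff_mem _ _).2 (mem_fix.2 i3)
    have := ND.edOn_le hP c1 (quad_nd_line (P := ofQuad Q) rfl h2 i4) (inv_of_le_fix i5)
      (c3.perp hP c1) ((Submodule.span_singleton_le_iff_mem _ _).2 b.2)
    rw [edOn_of_le_fix i5, quad_finrank_line (P := ofQuad Q) rfl i4, c4] at this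
    simp [ssEd, unEd, mem_m123] at this
  obtain ⟨t, ht⟩ := Submodule.mem_span_singleton.1 a.2
  have i5 : Q (a + b) = t * t * Q v := by
    rw [Q_add, i4, show polar Q a b = 0 from b.2 a a.2, ← ht, Q_smul, add_zero, add_zero]
  rw [i5]
  exact isSquare_mul_self_mul_iff (by rintro rfl; exact i2 (i5.trans (by simp)))

variable {r : ℕ} [hr : Fact r.Prime]

theorem quad_forall_dsq (hrp : r ≠ p) (hr2 : r ≠ 2) {i c : ℕ}
    (hi : i = orderOf (Fintype.card F : ZMod r)) (hc : c = if Even i then i else 2 * i) {m : ℕ}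
    (hm : Odd m) (hn : Even (finrank F V)) (η : Prop) :
    (∀ T, Isom (ofQuad Q) T → T ^ r = 1 → T ≠ 1 →
      ∃ W : Submodule F V, (finrank F W = m ∧ ND (ofQuad Q) W ∧ (Dsq Q W ↔ η)) ∧ Inv T W) ↔
    ∀ k, OAdm (finrank F V / c) (finrank F V % c) (Plus (ofQuad Q) ⊤) (Even i) k →
      ∃ j, ONd (finrank F V / c) (finrank F V % c) (m / c) (m % c) (Plus (ofQuad Q) ⊤) True
        (Even i) k j := by
  refine quad_forall_nd rfl hP hrp hr2 hi hc True _ (fun U W' s a1 a2 a3 a4 a5 a6 => ?_)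
    fun _ => hn
  simp only [Nat.not_even_iff_odd.2 hm, false_and, and_false, false_or, or_false]
  rw [Nat.even_iff, Nat.odd_iff] at *
  constructor
  · rintro ⟨W, b1, -, rfl, -⟩
    have := Submodule.finrank_mono b1
    omega
  · rintro ⟨b1, b2⟩
    obtain ⟨W, c1, c2, c3, c4⟩ := exists_dsq hP h2 a1 b1 b2 (η ↔ Dsq Q W')
    refine ⟨W, c1, c2, c3, ?_⟩
    rw [dsq_sup hP h2 c2 a2 (a3.trans (PQ.perp_anti _ c1)), c4]
    exact iff_aux3.2 Iff.rfl

theorem quad_om_dsq (hrp : r ≠ p) (hr2 : r ≠ 2) {i c : ℕ}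
    (hi : i = orderOf (Fintype.card F : ZMod r)) (hc : c = if Even i then i else 2 * i)
    {U : Submodule F V} (hU : ND (ofQuad Q) U) (hm : Odd (finrank F U)) (hn : Even (finrank F V))
    (h : r ∣ Nat.card {W : Submodule F V // finrank F W = finrank F U ∧ ND (ofQuad Q) W ∧
      (Dsq Q W ↔ Dsq Q U)}) :
    ∃ k, OOm (finrank F V / c) (finrank F V % c) (finrank F U / c) (finrank F U % c)
      (Plus (ofQuad Q) ⊤) True (Even i) k := by
  refine quad_om' rfl hP hrp hr2 hi hc hU hm.pos.ne'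
    (fun h => absurd h (Nat.not_even_iff_odd.2 hm)) (fun _ => hn) h (card_sub_mul_dvd_perp hP _
      (fun g hg W hW => ⟨by rw [LinearEquiv.finrank_map_eq, hW.1], ND.map_iso hg hW.2.1, ?a⟩) U
      ⟨rfl, hU, Iff.rfl⟩ (fun W hW => ?b) hU le_rfl)
  case a =>
    exact ((isometric_iff_dsq hP h2 hW.2.1 (ND.map_iso hg hW.2.1) (g.finrank_map_eq W).symm).1
      ⟨g.submoduleMap W, fun w => (ofQuad_isIso_equiv Q g).1 hg w⟩).symm.trans hW.2.2
  case b =>
    obtain ⟨e, he⟩ := (isometric_iff_dsq hP h2 hU hW.2.1 hW.1.symm).2 hW.2.2.symm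
    obtain ⟨g, a1, -, a2⟩ := exists_map_eq_of_isIso₂ hP e (by
      rw [restrict_ofQuad, restrict_ofQuad]; exact isIso₂_ofQuad (e := e.toLinearMap) he)
    exact ⟨g, a1, a2⟩

end Unip

theorem exists_fix_eq_bot [CharP F 2] {r : ℕ} [Fact r.Prime] (hr : r ≠ 2)
    (h3 : 3 ≤ finrank F V)
    (h : r ∣ Nat.card {W : Submodule F V // finrank F W = 1 ∧ ∃ v ∈ W, Q v ≠ 0}) :
    ∃ T, Isom (ofQuad Q) T ∧ T ^ r = 1 ∧ T ≠ 1 ∧ fix T = ⊥ := by
  have hsd := sdData_id (F := F) hr hr rfl rfl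
  set i := orderOf (Fintype.card F : ZMod r) with hi
  set c := if Even i then i else 2 * i with hc
  have hc2 := c_even hc
  have key : ∀ η : Prop, ∃ k, (finrank F V = c * k ∧ (Plus (ofQuad Q) ⊤ ↔ (Even i → Even k))) ∨
      (finrank F V = 2 + c * k ∧ ¬ ((η ↔ Plus (ofQuad Q) ⊤) ↔ (Even i → Even k))) := fun η => by
    obtain ⟨A, -, a1, a2, a3⟩ := quad_exists_type rfl hP (nd_top hP) one_pos
      (by rwa [finrank_top]) η
    obtain ⟨v, a4, a5⟩ := quad_exists_ne rfl a1 (by rintro rfl; simp at a2)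
    have a6 := quad_finrank_line rfl a5
    have htr : ∀ W : Submodule F V, (finrank F W = 1 ∧ ∃ v ∈ W, Q v ≠ 0) →
        ∃ g : V ≃ₗ[F] V, (ofQuad Q).IsIso g ∧ (Submodule.span F {v}).map g.toLinearMap = W := by
      rintro W ⟨b1, w, b2, b3⟩
      obtain ⟨t, ht⟩ := isSquare_of_charTwo CharTwo.two_eq_zero (Q w / Q v)
      rw [div_eq_iff (show Q v ≠ 0 from a5)] at ht
      have h4 : Q (t • v) = Q w := by rw [Q_smul, ht]
      obtain ⟨g, hg⟩ := exists_OG_apply_eq (nondeg_of_ofQuad hP) h4 (h4 ▸ b3)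
      refine ⟨g.1, (ofQuad_isIso_equiv Q _).2 g.2, ?_⟩
      rw [← Submodule.span_singleton_smul_eq (IsUnit.mk0 t (by rintro rfl; simp_all)),
        Submodule.map_span, Set.image_singleton]
      exact Submodule.eq_of_le_of_finrank_eq ((Submodule.span_singleton_le_iff_mem _ _).2 (hg ▸ b2))
        ((quad_finrank_line (P := ofQuad Q) rfl (hg ▸ b3 : Q (g.1 (t • v)) ≠ 0)).trans b1.symm)
    obtain ⟨k, hk⟩ := quad_om rfl hP hr hr hi hc a1 (by omega) h (card_sub_mul_dvd_perp hP _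
      (fun g hg W ⟨b1, w, b2, b3⟩ => ⟨by rw [LinearEquiv.finrank_map_eq, b1], g w, ⟨w, b2, rfl⟩,
        by rwa [(ofQuad_isIso_equiv Q g).1 hg]⟩) _ ⟨a6, v, Submodule.mem_span_singleton_self v, a5⟩
      htr a1 ((Submodule.span_singleton_le_iff_mem _ _).2 a4))
    have h4 := hc2.mul_right k
    have h5 : Even (finrank F V) := finrank_top F V ▸ alt_even (P := ofAlt (polarBilin Q)
      fun x => (polar_self' Q x).trans (by rw [CharTwo.two_eq_zero, zero_mul])) rfl hP (nd_top hP)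
    refine ⟨k, hk.imp_right fun hk => hk.elim (fun hk => ?_) fun hk => ⟨by omega, fun h => hk.2 ?_⟩⟩
    · rw [Nat.even_iff] at h4 h5
      omega
    · rw [← h, plus_perp_iff rfl hP a1 (a2 ▸ even_two) h5, a3]
      exact (iff_aux5.symm.trans (iff_congr Iff.rfl iff_comm))
  obtain ⟨k, h4, h5⟩ : ∃ k, finrank F V = c * k ∧ (Plus (ofQuad Q) ⊤ ↔ (Even i → Even k)) := by
    obtain ⟨k, hk | hk⟩ := key True
    · exact ⟨k, hk⟩
    obtain ⟨l, hl | hl⟩ := key False
    · exact ⟨l, hl⟩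
    obtain rfl : k = l := Nat.eq_of_mul_eq_mul_left (hsd.c_pos hr) (by omega)
    exact absurd (not_iff.1 (by simpa using hk.2)) (by simpa using hl.2)
  obtain ⟨t, a1, a2, a3, -⟩ := hsd.exists_mult (fun _ => rfl) hr k
  obtain ⟨T, b1, b2⟩ := quad_exists_ss rfl hP hr hr hi hc k t h4.ge (fun _ => h5) a1 a2 a3
  obtain ⟨c1, c2, c3, -⟩ := exists_of_ed hP hr hsd b1 a1 (k := k)
    (Nat.pos_of_ne_zero (by rintro rfl; omega)) a3 b2
  have := (ofQuad Q).finrank_perp hP (fix T)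
  exact ⟨T, b1, c1, c2, Submodule.finrank_eq_zero.1 (by omega)⟩

end CfsgLib.Elus2
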