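import Mathlib
import Cfsg.Agent.Lib.Elus2.Roots
import Cfsg.Agent.Lib.Forms.StabMat
import Cfsg.Agent.Lib.MatConj.Unitary
import Cfsg.Agent.Lib.Unitary.Order

/-!
Fixed subspaces of unitary isometries of prime order modulo scalars.
-/

set_option autoImplicit false

namespace CfsgLib.Elus2

open Polynomial Module CfsgLib.MatConj CfsgLib.Forms CfsgLib.Elusive CfsgLib.Unitary

variable {F : Type*} [Field F] {V : Type*} [AddCommGroup V] [Module F V]

section Herm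

variable {σ : F →+* F} {P : PQ σ V} (hH : P.IsHerm)
include hH

theorem herm_exists_line {Y : Submodule F V} (hY : ND P Y) (h0 : Y ≠ ⊥) :
    ∃ A, A ≤ Y ∧ ND P A ∧ finrank F A = 1 := by
  obtain ⟨z, hz, h⟩ := hH.exists_norm_eq hY h0 (map_one σ)
  exact ⟨_, (Submodule.span_singleton_le_iff_mem _ _).2 hz, nd_span_singleton (by simp [h]),
    finrank_span_singleton (by rintro rfl; simp at h)⟩

theorem herm_badData : BadData P fun _ => False := Or.inl ⟨hH.σ_ne, fun _ h => h⟩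

variable [FiniteDimensional F V]

theorem herm_exists_nd (hP : P.Nondeg) {U : Submodule F V} (hU : ND P U) {m : ℕ}
    (h : m ≤ finrank F U) : ∃ W, W ≤ U ∧ ND P W ∧ finrank F W = m := by
  obtain ⟨k, h1, h2⟩ := multiples_of_blocks hP (isom_one P) hU (fun _ h => h) one_ne_zero
    fun Y _ h2 _ h4 => by
      obtain ⟨A, a1, a2, a3⟩ := herm_exists_line hH h2 h4
      exact ⟨A, a1, a2, fun _ h => h, a3⟩
  obtain ⟨W, a1, a2, -, a3⟩ := h2 m (by omega)
  exact ⟨W, a1, a2, by omega⟩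

theorem herm_exists_plane (hP : P.Nondeg) {Y : Submodule F V} (hY : ND P Y)
    (h : 2 ≤ finrank F Y) : ∃ A, A ≤ Y ∧ ND P A ∧ finrank F A = 2 ∧ Plus P A := by
  obtain ⟨u, hu, h1⟩ := hH.exists_norm_eq hY (by rintro rfl; simp at h) (map_one σ)
  have a1 : ND P (Submodule.span F {u}) := nd_span_singleton (by simp [h1])
  have a2 := (Submodule.span_singleton_le_iff_mem _ _).2 hu
  have a3 := hY.finrank_inf_perp hP a2
  rw [finrank_span_singleton (by rintro rfl; simp at h1)] at a3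
  obtain ⟨w, hw, h2⟩ := hH.exists_norm_eq (a1.inf_perp hP hY a2)
    (fun h3 => by rw [h3, finrank_bot] at a3; omega) (map_one σ)
  obtain ⟨e, f, b1, b2, b3, b4, b5, -⟩ := hH.exists_hyperbolic_pair h1 h2
    (P.mem_perp_span_singleton.1 hw.2)
  have b6 := span_pair_le (F := F) hu hw.1
  have b7 := P.finrank_span_pair b4 b5
  refine ⟨_, span_pair_le (b6 b2) (b6 b1), P.disjoint_perp_pair b4 b3 b5, b7,
    Submodule.span F {f}, Submodule.span_mono (by simp), ?_,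
    P.ts_span_singleton ((hH.sing_iff f).2 b4)⟩
  rw [b7, finrank_span_singleton (by rintro rfl; simp at b5)]

theorem herm_exists_ts (hP : P.Nondeg) {U : Submodule F V} (hU : ND P U) {e : ℕ}
    (h : 2 * e ≤ finrank F U) : ∃ W, W ≤ U ∧ P.TS W ∧ finrank F W = e := by
  induction e generalizing U with
  | zero => exact ⟨⊥, bot_le, P.ts_bot, finrank_bot F V⟩
  | succ e ih =>
    obtain ⟨A, a1, a2, a3, L, a4, a5, a6⟩ := herm_exists_plane hH hP hU (by omega)
    have := hU.finrank_inf_perp hP a1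
    obtain ⟨W, b1, b2, b3⟩ := ih (a2.inf_perp hP hU a1) (by omega)
    have b4 := b1.trans inf_le_right
    refine ⟨L ⊔ W, sup_le (a4.trans a1) (b1.trans inf_le_left),
      a6.sup b2 (b4.trans (P.perp_anti a4)), ?_⟩
    rw [finrank_sup_of_disjoint ((a2.disjoint b4).mono_left a4)]
    omega

theorem herm_plus (hP : P.Nondeg) {U : Submodule F V} (hU : ND P U) (h : Even (finrank F U)) :
    Plus P U := by
  obtain ⟨e, he⟩ := h
  obtain ⟨W, a1, a2, a3⟩ := herm_exists_ts hH hP hU (e := e) (by omega)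
  exact ⟨W, a1, by omega, a2⟩

theorem herm_exists_ts_iff (hP : P.Nondeg) {U : Submodule F V} (hU : ND P U) {e : ℕ} :
    (∃ W, W ≤ U ∧ P.TS W ∧ finrank F W = e) ↔ 2 * e ≤ finrank F U :=
  ⟨fun ⟨_, a1, a2, a3⟩ => a3 ▸ ts_two_mul_le hU a2 a1, herm_exists_ts hH hP hU⟩

end Herm

/-- The prime-to-`q` part of the order of the unitary group. -/
def uo (q n : ℕ) : ℕ := ∏ i ∈ Finset.range n, (if Even i then q ^ (i + 1) + 1 else q ^ (i + 1) - 1)

theorem uo_ne_zero {q : ℕ} (hq : 1 < q) (n : ℕ) : uo q n ≠ 0 :=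
  Finset.prod_ne_zero_iff.2 fun i _ => by
    split_ifs
    · omega
    · exact Nat.sub_ne_zero_of_lt (Nat.one_lt_pow (by omega) hq)

theorem uo_add (q m k : ℕ) : uo q (m + k) = uo q m * ∏ i ∈ Finset.range k,
    (if Even (m + i) then q ^ (m + i + 1) + 1 else q ^ (m + i + 1) - 1) :=
  Finset.prod_range_add _ _ _

theorem uo_two_mul (q d : ℕ) :
    uo q (2 * d) = glo (q ^ 2) d * ∏ i ∈ Finset.range d, (q ^ (2 * i + 1) + 1) := by
  induction d with
  | zero => simp [uo, glo]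
  | succ d ih =>
    rw [uo, glo, mul_add, mul_one, Finset.prod_range_succ, Finset.prod_range_succ,
      Finset.prod_range_succ, Finset.prod_range_succ, ← uo, ← glo, ih, if_pos (even_two_mul d),
      if_neg (Nat.not_even_iff_odd.2 (odd_two_mul_add_one d)), ← pow_mul]
    ring_nf

theorem uc_dvd {r q i c j : ℕ} [hr : Fact r.Prime] (h2 : r ≠ 2) (hq : 0 < q) (hi0 : 0 < i)
    (hi : i = orderOf (q : ZMod r))
    (hc : c = if i % 4 = 0 then i else if i % 4 = 2 then i / 2 else 2 * i)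
    (h : r ∣ if Even j then q ^ (j + 1) + 1 else q ^ (j + 1) - 1) :
    c ∣ j + 1 ∧ (Even j → i % 4 = 2) := by
  split_ifs at h with hj
  · rw [dvd_pow_add_one_iff, pow_eq_neg_one_iff h2, ← hi, dvd_two_mul_not_dvd_iff hi0] at h
    obtain ⟨⟨a, rfl⟩, ⟨b, hb⟩, -⟩ := h
    have h1 : j + 1 = a * b := by nlinarith
    have h3 : Odd a := (Nat.odd_mul.1 (h1 ▸ hj.add_one)).1
    rw [Nat.odd_iff] at h3
    rw [if_neg (by omega), if_pos (by omega), show (a + a) / 2 = a by omega] at hc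
    exact ⟨hc ▸ ⟨b, h1⟩, fun _ => by omega⟩
  · rw [dvd_pow_sub_one_iff hq, ← hi] at h
    refine ⟨?_, fun h => absurd h hj⟩
    split_ifs at hc with h1 h3
    · rwa [hc]
    · rw [hc]; exact (Nat.div_dvd_of_dvd (by omega)).trans h
    · rw [hc]
      exact Nat.Coprime.mul_dvd_of_dvd_of_dvd (Nat.coprime_two_left.2 (Nat.odd_iff.2 (by omega)))
        (by rw [Nat.not_even_iff] at hj; omega) h

section U

variable [Fintype F] {q : ℕ} (hF : Fintype.card F = q ^ 2)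

theorem conj_mul_self (c : F) : conj hF c * c = c ^ (q + 1) := by rw [conj_apply, pow_succ]

include hF in
theorem exists_prim_u : ∃ g : F, IsPrimitiveRoot g (q + 1) :=
  exists_primitiveRoot (by rw [hF, sq_sub_one_eq q (Nat.pos_of_ne_zero (q_ne_zero hF))]; simp)

variable {p r : ℕ} [hp : Fact p.Prime] [CharP F p] [hr : Fact r.Prime]

omit hr in
include hF in
theorem char_dvd_q : p ∣ q := hp.out.dvd_of_dvd_pow (hF ▸ char_dvd_card)

omit hr in
include hF in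
theorem char_not_dvd_q_add_one : ¬ p ∣ q + 1 := fun h =>
  hp.out.one_lt.ne' (Nat.dvd_one.1 ((Nat.dvd_add_right (char_dvd_q hF)).1 h))

include hF in
theorem not_dvd_q (hrp : r ≠ p) : ¬ r ∣ q := fun h =>
  not_dvd_card (F := F) hrp (hF ▸ Dvd.dvd.pow h two_ne_zero)

omit hr in
include hF in
theorem two_dvd_q_add_one (h : 2 ≠ p) : 2 ∣ q + 1 := by
  have := not_dvd_q hF h
  omega

omit hr in
theorem conj_eq_pow : ∃ a, q = p ^ a ∧ ∀ x, conj hF x = x ^ p ^ a := by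
  have h0 : CharP F p := inferInstance
  obtain ⟨p', k, -, h2, -, h3⟩ := exists_char hF
  obtain rfl : p' = p := CharP.eq F h2 h0
  exact ⟨k, h3, fun x => by rw [conj_apply, h3]⟩

theorem ord_eq_two_iff (h2 : r ≠ 2) : orderOf (q : ZMod r) = 2 ↔ r ∣ q + 1 := by
  have := dvd_pow_add_one_iff (r := r) (q := q) 1
  rw [pow_one, pow_eq_neg_one_iff h2, mul_one, Nat.dvd_prime Nat.prime_two, Nat.dvd_one] at this
  rw [this]
  omega

theorem sdData_u (hrp : r ≠ p) (h2 : r ≠ 2) {i b c : ℕ} (hi : i = orderOf (q : ZMod r))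
    (hb : b = if Even i then i / 2 else i)
    (hc : c = if i % 4 = 0 then i else if i % 4 = 2 then i / 2 else 2 * i) :
    SDData (conj hF) r (i % 4 = 2) b c := by
  obtain ⟨a, h1, h3⟩ := conj_eq_pow (p := p) hF
  have hi0 := orderOf_pos_of_not_dvd (not_dvd_q hF hrp)
  refine ⟨fun _ _ => Or.inl (conj_ne_id hF), fun f hf => ?_, ?_, fun h => ?_, fun h => ?_⟩
  · rw [tilde_eq_iff hrp h3 hf, ← h1, hi, ← exists_odd_pow_eq_neg_one_iff h2 hi0, hF]
    refine exists_congr fun j => ?_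
    rw [Nat.cast_pow, ← pow_mul, ← pow_succ]
  · rw [hF, Nat.cast_pow, orderOf_pow' _ two_ne_zero, ← hi, hb]
    split_ifs with h
    · rw [Nat.gcd_eq_right (even_iff_two_dvd.1 h)]
    · rw [Nat.coprime_two_right.2 (Nat.not_even_iff_odd.1 h), Nat.div_one]
  · rw [hc, hb, if_neg (by omega), if_pos h, if_pos (Nat.even_iff.2 (by omega))]
  · rw [hc, hb, if_neg h]
    simp only [Nat.even_iff]
    split_ifs <;> omega

theorem sdData_u_one (hrp : r ≠ p) (h : r ∣ q + 1) : SDData (conj hF) r True 1 1 := by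
  obtain ⟨a, h1, h3⟩ := conj_eq_pow (p := p) hF
  refine ⟨fun _ _ => Or.inl (conj_ne_id hF), fun f hf => iff_true_intro ?_, ?_, fun _ => rfl,
    fun h => absurd trivial h⟩
  · rw [tilde_eq_iff hrp h3 hf, ← h1]
    exact ⟨0, by rw [pow_zero, one_mul, ← pow_one (q : ZMod r), ← dvd_pow_add_one_iff, pow_one]; exact h⟩
  · rw [eq_comm, orderOf_eq_one_iff_dvd Fintype.card_pos, hF,
      sq_sub_one_eq q (Nat.pos_of_ne_zero (q_ne_zero hF))]
    exact h.mul_right _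

variable {P : PQ (conj hF) V} [FiniteDimensional F V]

omit hp hr in
theorem herm_card_isom (hH : P.IsHerm) (hP : P.Nondeg) {n : ℕ} (hn : finrank F V = n) :
    Nat.card P.isom = q ^ (n * (n - 1) / 2) * uo q n := by
  obtain ⟨e⟩ := hH.nonempty_isom_gu hF hP hn
  rw [Nat.card_congr e.toEquiv, card_GU hF]
  rfl

omit hp hr in
theorem herm_exists_isIso₂ {V' : Type*} [AddCommGroup V'] [Module F V'] [FiniteDimensional F V']
    {P' : PQ (conj hF) V'} (hH : P.IsHerm) (hH' : P'.IsHerm) (hP : P.Nondeg) (hP' : P'.Nondeg)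
    (h : finrank F V = finrank F V') : ∃ e : V ≃ₗ[F] V', P.IsIso₂ P' e := by
  obtain ⟨e, he⟩ := hH.exists_isIso₂_uPQ hF hP h
  obtain ⟨e', he'⟩ := hH'.exists_isIso₂_uPQ hF hP' rfl
  refine ⟨e.trans e'.symm, hH.isIso₂ hH' fun x y => ?_⟩
  rw [LinearEquiv.trans_apply, LinearEquiv.trans_apply, he'.symm.B_eq, he.B_eq]

omit hp hr in
theorem herm_nd_trans (hH : P.IsHerm) (hP : P.Nondeg) {U W : Submodule F V} (hU : ND P U)
    (hW : ND P W) (h : finrank F U = finrank F W) :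
    ∃ g : V ≃ₗ[F] V, P.IsIso g ∧ U.map g.toLinearMap = W := by
  obtain ⟨e, he⟩ := herm_exists_isIso₂ hF (hH.restrict U) (hH.restrict W) hU.nondeg hW.nondeg h
  obtain ⟨g, h1, -, h2⟩ := exists_map_eq_of_isIso₂ hP e he
  exact ⟨g, h1, h2⟩

omit hp hr in
theorem herm_exists_isom (hH : P.IsHerm) (hP : P.Nondeg) {s : Multiset (F[X] × ℕ)} (hs : Valid s)
    (hX : ∀ x ∈ s, x.1 ≠ X) (hd : dl (conj hF) s = s) (h : mdeg s = finrank F V) :
    ∃ T, Isom P T ∧ ed T = s := by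
  obtain ⟨e, he⟩ := hH.exists_isIso₂_uPQ hF hP rfl
  let := unitaryStar hF
  obtain ⟨B, h1, h2⟩ := exists_unitary_edM_eq (n := Fin (finrank F V)) (exists_not_fixed hF) hs hX
    (by rw [Fintype.card_fin]; exact h.symm) hd
  obtain ⟨g, rfl⟩ := exists_GU_eq hF h1
  obtain ⟨T, h3, h4⟩ := exists_isom_of_isIso₂ he.symm
    (T := Matrix.toLin' ((g : GL (Fin (finrank F V)) F) : Matrix (Fin (finrank F V)) (Fin (finrank F V)) F))
    ((uPQ_isIso hF _ _).2 ((mem_GU_iff' _).1 g.2))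
  exact ⟨T, h3, h4.trans h2⟩

omit hp hr in
theorem herm_det_pow (hH : P.IsHerm) (hP : P.Nondeg) {T : End F V} (hT : Isom P T) :
    LinearMap.det T ^ (q + 1) = 1 := by
  obtain ⟨e, he⟩ := hH.exists_isIso₂_uPQ hF hP rfl
  obtain ⟨T', h1, h2⟩ := exists_isom_of_isIso₂ he hT
  obtain ⟨M, rfl⟩ := Matrix.toLin'.surjective T'
  rw [det_eq_prod_ed, ← h2, ← det_eq_prod_ed, LinearMap.det_toLin']
  exact det_norm_of_pres hF ((uPQ_isIso hF _ _).1 h1)

omit hr in
theorem herm_dvd_card_sing (hH : P.IsHerm) (hP : P.Nondeg) (h : 2 ≤ finrank F V) :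
    p ∣ Nat.card {v // P.Sing v} := by
  obtain ⟨e, he⟩ := hH.exists_isIso₂_uPQ hF hP rfl
  rw [Nat.card_congr (e.toEquiv.subtypeEquiv (q := fun v => Cfsg.hermForm _ F q v v = 0) fun v => by
    rw [← he.sing, (uPQ_isHerm hF _).sing_iff]; rfl)]
  obtain ⟨k, hk⟩ := Nat.exists_eq_add_of_le h
  have h1 := card_norm_zero_int hF (finrank F V)
  have h2 : (q : ℤ) ≠ 0 := by exact_mod_cast q_ne_zero hF
  refine (char_dvd_q hF).trans (Int.natCast_dvd_natCast.1 ⟨(q : ℤ) ^ k *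
    ((q : ℤ) ^ (2 + k) + q * (-1) ^ k - (-1) ^ k), mul_left_cancel₀ h2 ?_⟩)
  rw [h1, hk]
  have : ((-1 : ℤ) ^ k) ^ 2 = 1 := by rw [← pow_mul, mul_comm, pow_mul, neg_one_sq, one_pow]
  linear_combination (-(q : ℤ)) * this

omit hr in
theorem herm_not_dvd_card_ts (hH : P.IsHerm) (hP : P.Nondeg) {m : ℕ} (hm : 2 * m ≤ finrank F V) :
    ¬ p ∣ Nat.card {U : Submodule F V // finrank F U = m ∧ P.TS U} := by
  refine not_dvd_card_ts P m (fun U W _ h2 h3 h4 => ?_) fun U W h1 h2 h3 => h1.exists_map_eq hP h2 h3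
  refine herm_dvd_card_sing hF (hH.restrict W) (nd_of_compl_perp hP h3 h4).nondeg ?_
  have h5 := finrank_sup_of_disjoint h3
  have h6 := P.finrank_perp hP U
  rw [h4] at h5
  omega

theorem herm_mod_lt (hH : P.IsHerm) (hP : P.Nondeg) (hrp : r ≠ p) (h2 : r ≠ 2) {i c : ℕ}
    (hi : i = orderOf (q : ZMod r))
    (hc : c = if i % 4 = 0 then i else if i % 4 = 2 then i / 2 else 2 * i)
    {A : Submodule F V} (hA : ND P A) {N : ℕ} (hN : r ∣ N)
    (h : N * Nat.card (P.restrict (P.perp A)).isom ∣ Nat.card P.isom) :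
    finrank F V % c < finrank F A := by
  have h1 := P.finrank_perp hP A
  rw [herm_card_isom hF (hH.restrict _) (hA.perp hP).nondeg rfl,
    herm_card_isom hF hH hP (h1.symm.trans (add_comm _ _)), uo_add] at h
  obtain ⟨j, h3, h4⟩ := (Prime.dvd_finsetProd_iff hr.out.prime _).1
    (prime_dvd_of_mul_dvd hr.out (not_dvd_q hF hrp) (uo_ne_zero (two_le_q hF) _) h hN)
  rw [Finset.mem_range] at h3
  exact mod_lt_of_ord_dvd ⟨_, by omega, by omega, (uc_dvd h2 (Nat.pos_of_ne_zero (q_ne_zero hF))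
    (hi ▸ orderOf_pos_of_not_dvd (not_dvd_q hF hrp)) hi hc h4).1⟩

theorem herm_exists_ss (hH : P.IsHerm) (hP : P.Nondeg) (hrp : r ≠ p) {sd : Prop} {b c : ℕ}
    (hsd : SDData (conj hF) r sd b c) (k : ℕ) (t : Multiset F[X]) (h0 : c * k ≤ finrank F V)
    (h1 : ∀ f ∈ t, f ∈ cyc F r) (h3 : t.map (tilde (conj hF)) = t)
    (h : b * Multiset.card t = c * k) :
    ∃ T, Isom P T ∧ ed T = ssEd (finrank F V - c * k) t := by
  refine herm_exists_isom hF hH hP (valid_ssEd _ h1) (fun x hx => ?_) (by rw [dl_ssEd, h3])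
    (by rw [mdeg_ssEd hrp _ h1, ← hsd.b_eq, h]; omega)
  rcases Multiset.mem_add.1 hx with hx | hx
  · rw [Multiset.eq_of_mem_replicate hx]; exact X_sub_one_ne_X
  · obtain ⟨f, hf, rfl⟩ := Multiset.mem_map.1 hx
    exact ne_X_of_mem_cyc (h1 f hf)

omit hp hr in
theorem herm_exists_unip (hH : P.IsHerm) (hP : P.Nondeg) {μ : Multiset ℕ} (h1 : ∀ a ∈ μ, 0 < a)
    (h3 : μ.sum = finrank F V) : ∃ T, Isom P T ∧ ed T = unEd μ := by
  refine herm_exists_isom hF hH hP (valid_unEd h1) (fun x hx => ?_) (dl_unEd μ)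
    (by rw [mdeg_unEd, h3])
  obtain ⟨f, hf, rfl⟩ := Multiset.mem_map.1 hx
  exact X_sub_one_ne_X

omit hp in
theorem herm_cases (hP : P.Nondeg) {T : End F V} (hT : Isom P T) (h : IsPE r T) :
    (∃ b : F, b ^ (q + 1) = 1 ∧ Isom P (b • T) ∧ (b • T) ^ r = 1 ∧ b • T ≠ 1) ∨
      ∃ z : F, z ^ (q + 1) = 1 ∧ T ^ r = z • 1 ∧ ∀ b : F, b ^ (q + 1) = 1 → b ^ r ≠ z := by
  have := Module.nontrivial_of_finrank_pos (Nat.pos_of_ne_zero h.finrank_ne_zero)
  obtain ⟨z, hz⟩ := h.1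
  have h1 := norm_eq_one_of_isIso hP (hz ▸ isIso_pow hT r)
  rw [conj_mul_self] at h1
  by_cases h2 : ∃ b : F, b ^ (q + 1) = 1 ∧ b ^ r = z
  · obtain ⟨b, h2, rfl⟩ := h2
    have h3 : b ≠ 0 := by rintro rfl; simp at h2
    have h4 : b⁻¹ ^ (q + 1) = 1 := by rw [inv_pow, h2, inv_one]
    exact Or.inl ⟨b⁻¹, h4, isIso_smul hT (by rw [conj_mul_self, h4]), smul_pow_eq_one h3 hz,
      fun h5 => (h.smul (inv_ne_zero h3)).2 1 (by rw [h5, one_smul])⟩
  · push Not at h2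
    exact Or.inr ⟨z, h1, hz, h2⟩

omit hp in
theorem forall_su_coprime (hH : P.IsHerm) (hP : P.Nondeg) (h : ¬ r ∣ q + 1) (Φ : End F V → Prop)
    (hs : ∀ T (c : F), c ≠ 0 → Φ (c • T) → Φ T) :
    (∀ T, Isom P T → LinearMap.det T = 1 → IsPE r T → Φ T) ↔
      ∀ T, Isom P T → T ^ r = 1 → T ≠ 1 → Φ T := by
  constructor
  · intro h1 T h2 h3 h4
    refine h1 T h2 (eq_one_of_not_dvd h (herm_det_pow hF hH hP h2) (by rw [← map_pow, h3, map_one]))
      ⟨⟨1, by rw [h3, one_smul]⟩, fun c hc => h4 ?_⟩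
    have : Nontrivial V := by
      by_contra h5
      rw [not_nontrivial_iff_subsingleton] at h5
      exact h4 (Subsingleton.elim _ _)
    have h5 := norm_eq_one_of_isIso hP (hc ▸ h2)
    rw [conj_mul_self] at h5
    rw [hc, _root_.smul_pow, one_pow, ← one_smul F (1 : End F V), smul_smul, mul_one] at h3
    rw [hc, eq_one_of_not_dvd h h5 (smul_left_injective F one_ne_zero h3), one_smul]
  · intro h1 T h2 _ h4
    rcases herm_cases hF hP h2 h4 with ⟨b, a1, a2, a3, a4⟩ | ⟨z, a1, -, a3⟩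
    · exact hs T b (by rintro rfl; simp at a1) (h1 _ a2 a3 a4)
    · obtain ⟨b, b1, b2⟩ := exists_root_of_not_dvd h (Nat.succ_ne_zero q) a1
      exact absurd b2 (a3 b b1)

end U

theorem forall_su_iff [Fintype F] {q : ℕ} (hF : Fintype.card F = q ^ 2) {n : ℕ} (r : ℕ)
    (Φ : End F (Fin n → F) → Prop) :
    (∀ x : Matrix.SpecialLinearGroup (Fin n) F, x ∈ Cfsg.SU n F q →
      (∃ c : F, ((x ^ r : Matrix.SpecialLinearGroup (Fin n) F) : Matrix (Fin n) (Fin n) F) = c • 1) →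
      (∀ c : F, (x : Matrix (Fin n) (Fin n) F) ≠ c • 1) →
        Φ (Matrix.toLin' (x : Matrix (Fin n) (Fin n) F))) ↔
    ∀ T : End F (Fin n → F), Isom (uPQ hF n) T → LinearMap.det T = 1 → IsPE r T → Φ T := by
  constructor
  · intro h T h1 hd hT
    obtain ⟨A, rfl⟩ := Matrix.toLin'.surjective T
    rw [LinearMap.det_toLin'] at hd
    rw [isPE_toLin'_iff] at hT
    exact h ⟨A, hd⟩ ((mem_SU_iff' _).2 ((uPQ_isIso hF _ _).1 h1)) hT.1 hT.2
  · intro h x h0 h1 h2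
    exact h _ ((uPQ_isIso hF _ _).2 ((mem_SU_iff' _).1 h0)) (by rw [LinearMap.det_toLin', x.2])
      ((isPE_toLin'_iff _ r).2 ⟨h1, h2⟩)

theorem u_nd_iff [Fintype F] {q : ℕ} (hF : Fintype.card F = q ^ 2) {n : ℕ}
    {W : Submodule F (Fin n → F)} :
    (∀ u ∈ W, u ≠ 0 → ∃ v ∈ W, Cfsg.hermForm n F q u v ≠ 0) ↔ ND (uPQ hF n) W := by
  simp only [nd_iff', uPQ_B, ne_eq, herm_eq_zero_comm hF]

end CfsgLib.Elus2
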