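import Mathlib
import Cfsg.Agent.Lib.Elus2.Uni

/-!
Unitary isometries of prime order `r` modulo scalars when `r` divides `q + 1`.
-/

set_option autoImplicit false

namespace CfsgLib.Elus2

open Polynomial Module CfsgLib.MatConj CfsgLib.Forms CfsgLib.Elusive CfsgLib.Unitary

variable {F : Type*} [Field F] {V : Type*} [AddCommGroup V] [Module F V]
  [Fintype F] {q : ℕ} (hF : Fintype.card F = q ^ 2)
  {p r : ℕ} [hp : Fact p.Prime] [CharP F p] [hr : Fact r.Prime]

omit hp in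
include hF in
theorem not_pow_of_ns (h2 : r ≠ 2) (h : r ∣ q + 1) {z : F} (hz1 : z ^ (q + 1) = 1)
    (hz : ∀ b : F, b ^ (q + 1) = 1 → b ^ r ≠ z) (b : F) : b ^ r ≠ z := by
  rintro rfl
  have hq := two_le_q hF
  have hb : b ≠ 0 := by
    rintro rfl
    simp [hr.out.ne_zero] at hz1
  refine hz b (eq_one_of_not_dvd (r := r) (N := q - 1) (fun h3 => h2 ?_) ?_ ?_) rfl
  · have := (Nat.dvd_sub h h3)
    rw [show q + 1 - (q - 1) = 2 by omega] at this
    exact (Nat.prime_dvd_prime_iff_eq hr.out Nat.prime_two).1 this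
  · rw [← pow_mul, ← sq_sub_one_eq q (by omega), ← hF]
    exact FiniteField.pow_card_sub_one_eq_one b hb
  · rw [← pow_mul, mul_comm, pow_mul, hz1]

omit hr in
theorem exists_anti (h2 : 2 ≠ p) {z : F} (hz1 : z ^ (q + 1) = 1)
    (hz : ∀ b : F, b ^ (q + 1) = 1 → b ^ 2 ≠ z) : ∃ c, conj hF c * c = -1 ∧ c ^ 2 * z = 1 := by
  have hq := two_le_q hF
  have h1 := two_dvd_q_add_one hF h2
  obtain ⟨g, hg⟩ := exists_primitiveRoot (F := F) (N := 2 * (q + 1)) (by
    rw [hF, sq_sub_one_eq q (by omega), mul_comm 2]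
    exact Nat.mul_dvd_mul_left _ (by omega))
  obtain ⟨j, -, rfl⟩ := (hg.pow (by omega) rfl).eq_pow_of_pow_eq_one hz1
  have h3 : g ≠ 0 := hg.ne_zero (by omega)
  refine ⟨(g ^ j)⁻¹, ?_, by rw [← pow_mul, mul_comm 2, pow_mul, inv_pow, inv_mul_cancel₀ (by positivity)]⟩
  rw [conj_mul_self, inv_pow, inv_eq_iff_eq_inv, inv_neg, inv_one]
  refine (mul_self_eq_one_iff.1 ?_).resolve_left fun h4 => hz _ h4 ?_
  · rw [← pow_add, ← two_mul, ← pow_mul, mul_comm j, pow_mul, hg.pow_eq_one, one_pow]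
  · rw [← pow_mul, ← pow_mul, mul_comm]

variable {P : PQ (conj hF) V} [FiniteDimensional F V]

omit [Fintype F] [FiniteDimensional F V] in
theorem anti_sq {T : End F V} {z c : F} (h : T ^ 2 = z • 1) (hc : c ^ 2 * z = 1) :
    (c • T) ^ 2 = 1 := by rw [_root_.smul_pow, h, smul_smul, hc, one_smul]

section NS

variable (hP : P.Nondeg) (hrp : r ≠ p) (hq : r ∣ q + 1) {T : End F V} (hT : Isom P T) {z : F}
  (h : T ^ r = z • 1) (hz1 : z ^ (q + 1) = 1) (hz : ∀ b : F, b ^ (q + 1) = 1 → b ^ r ≠ z)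
include hrp hq hT h hz1 hz

theorem ns_dvd {W : Submodule F V} (hW : ND P W) (hI : Inv T W) : r ∣ finrank F W := by
  by_cases h2 : r = 2
  · subst h2
    obtain ⟨c, h3, h4⟩ := exists_anti hF hrp hz1 hz
    exact ⟨_, (split_anti (two_ne_zero_of_ne hrp) hT h3 (anti_sq h h4) hW hI).2.2.2.1.symm⟩
  · exact dvd_finrank_of_nonsplit h (not_pow_of_ns hF h2 hq hz1 hz) hI

include hP

theorem ns_exists_ts {m : ℕ} (hm : 2 * m ≤ finrank F V) (hd : r ∣ m ∨ r = 2) :
    ∃ W, P.TS W ∧ Inv T W ∧ finrank F W = m := by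
  by_cases h2 : r = 2
  · subst h2
    obtain ⟨c, h3, h4⟩ := exists_anti hF hrp hz1 hz
    obtain ⟨a1, -, -, a2, -⟩ := split_anti (two_ne_zero_of_ne hrp) hT h3 (anti_sq h h4) (nd_top hP)
      (inv_top T)
    rw [finrank_top] at a2
    obtain ⟨W, b1, b2⟩ := exists_le_finrank_eq (W := ⊤ ⊓ fix (c • T)) (m := m) (by omega)
    exact ⟨W, a1.mono b1, inv_of_le_fix_smul (by rintro rfl; simp at h3) (b1.trans inf_le_right), b2⟩
  · obtain ⟨W, -, a⟩ := exists_ts_nonsplit hP hT h (not_pow_of_ns hF h2 hq hz1 hz)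
      (by rw [conj_mul_self, hz1]) (nd_top hP) (inv_top T) (by rwa [finrank_top])
      (hd.resolve_right h2)
    exact ⟨W, a⟩

theorem ns_exists_nd {m : ℕ} (hm : m ≤ finrank F V) (hd : r ∣ m) :
    ∃ W, ND P W ∧ Inv T W ∧ finrank F W = m := by
  by_cases h2 : r = 2
  · subst h2
    obtain ⟨j, rfl⟩ := hd
    obtain ⟨W, a1, a2, a3⟩ := ns_exists_ts hF hP hrp hq hT h hz1 hz hm (Or.inr rfl)
    obtain ⟨H, -, b1, b2, b3, -⟩ := exists_nd_of_ts hP hT
      (squarefree_X_pow_sub_C hrp (by rintro rfl; simp at hz1)) (aeval_X_pow_sub_C_eq_zero.2 h)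
      (nd_top hP) (inv_top T) a1 a2 le_top
    exact ⟨H, b1, b2, by rw [b3, a3]⟩
  · obtain ⟨W, -, a⟩ := exists_nd_nonsplit' hP hT h (not_pow_of_ns hF h2 hq hz1 hz)
      (by rw [conj_mul_self, hz1]) (nd_top hP) (inv_top T) (by rwa [finrank_top]) hd
    exact ⟨W, a⟩

theorem ns_det (hn : finrank F V ≠ 0) (hd : LinearMap.det T = 1) :
    ¬ NoNS r (finrank F V) (q + 2) := by
  obtain ⟨g, hg⟩ := exists_prim_u hF
  rw [not_noNS_iff_prim hg (Nat.succ_ne_zero q) (fun h => two_ne_zero_of_ne (h ▸ hrp)) hq hn]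
  by_cases h2 : r = 2
  · subst h2
    obtain ⟨c, h3, h4⟩ := exists_anti hF hrp hz1 hz
    obtain ⟨-, -, -, -, a2⟩ := split_anti (two_ne_zero_of_ne hrp) hT h3 (anti_sq h h4) (nd_top hP)
      (inv_top T)
    have h5 := det_invol (two_ne_zero_of_ne hrp) (anti_sq h h4)
    rw [finrank_top, top_inf_eq] at a2
    refine ⟨z, _, hz1, hz, a2.symm, ?_⟩
    rw [LinearMap.det_smul, hd, mul_one, ← a2, pow_mul] at h5
    rw [mul_pow, ← pow_mul, pow_mul', ← h5, show (2 + 1) = 2 + 1 from rfl, pow_succ, mul_assoc,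
      ← mul_pow, h4, one_pow, mul_one, h5, ← pow_mul, pow_mul', neg_one_sq, one_pow]
  · obtain ⟨k, hk⟩ := edOn_nonsplit h (not_pow_of_ns hF h2 hq hz1 hz) ⊤
    rw [edOn_top] at hk
    refine ⟨z, k, hz1, hz, ?_, by rw [← det_of_ed_nonsplit hk, hd]⟩
    rw [finrank_eq_mdeg_ed T, hk, mdeg_replicate, natDegree_X_pow_sub_C]
    ring

end NS

theorem ns_pair (hP : P.Nondeg) (hrp : 2 ≠ p) {T : End F V} (hT : Isom P T) {z : F}
    (h : T ^ 2 = z • 1) (hz1 : z ^ (q + 1) = 1) (hz : ∀ b : F, b ^ (q + 1) = 1 → b ^ 2 ≠ z) :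
    ∃ U W, IsCompl U W ∧ P.TS U ∧ P.TS W ∧ Inv T U ∧ Inv T W := by
  obtain ⟨c, h3, h4⟩ := exists_anti hF hrp hz1 hz
  obtain ⟨a1, a2, a3, a4, a5⟩ := split_anti (two_ne_zero_of_ne hrp) hT h3 (anti_sq h h4) (nd_top hP)
    (inv_top T)
  rw [finrank_top] at a4 a5
  have hc : c ≠ 0 := by rintro rfl; simp at h3
  exact ⟨_, _, isCompl_of_sup a3 (by omega), a1, a2, inv_of_le_fix_smul hc inf_le_right,
    (inv_smul_iff hc).1 (inv_neg_iff.1 (inv_of_le_fix inf_le_right))⟩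

omit [Fintype F] in
theorem tilde_X_sub_C {σ : F →+* F} {w : F} (hw : w ≠ 0) :
    tilde σ (X - C w) = X - C (σ w)⁻¹ := by
  have h0 : (X - C w : F[X]).coeff 0 ≠ 0 := by simpa using hw
  have h1 := monic_tilde σ h0
  have h2 := natDegree_tilde σ h0
  rw [natDegree_X_sub_C] at h2
  rw [h1.eq_X_add_C h2, coeff_zero_tilde σ (monic_X_sub_C w)]
  simp [sub_eq_add_neg]

theorem exists_ns (hH : P.IsHerm) (hP : P.Nondeg) (hrp : r ≠ p) (hq : r ∣ q + 1)
    (hn : finrank F V ≠ 0) (h : ¬ NoNS r (finrank F V) (q + 2)) :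
    ∃ (T : End F V) (z : F), Isom P T ∧ LinearMap.det T = 1 ∧ IsPE r T ∧ T ^ r = z • 1 ∧
      z ^ (q + 1) = 1 ∧ ∀ b : F, b ^ (q + 1) = 1 → b ^ r ≠ z := by
  obtain ⟨g, hg⟩ := exists_prim_u hF
  obtain ⟨z, k, h1, h3, h4, h5⟩ := (not_noNS_iff_prim hg (Nat.succ_ne_zero q)
    (fun h => two_ne_zero_of_ne (h ▸ hrp)) hq hn).1 h
  have hk : k ≠ 0 := by rintro rfl; exact hn h4
  by_cases h2 : r = 2
  · subst h2
    obtain ⟨c, h6, h7⟩ := exists_anti hF hrp h1 h3
    have hc : c ≠ 0 := by rintro rfl; simp at h6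
    have hz : z = c⁻¹ ^ 2 := by rw [inv_pow]; exact eq_inv_of_mul_eq_one_right h7
    have e1 : (conj hF c⁻¹)⁻¹ = -c⁻¹ := by
      rw [map_inv₀, inv_inv]; field_simp; linear_combination h6
    obtain ⟨T, a1, a2⟩ := herm_exists_isom hF hH hP
      (s := Multiset.replicate k (X - C c⁻¹, 1) + Multiset.replicate k (X - C (-c⁻¹), 1))
      (fun x hx => by
        rcases Multiset.mem_add.1 hx with hx | hx <;> rw [Multiset.eq_of_mem_replicate hx] <;>
          exact ⟨irreducible_X_sub_C _, monic_X_sub_C _, one_pos⟩)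
      (fun x hx => by
        rcases Multiset.mem_add.1 hx with hx | hx <;> rw [Multiset.eq_of_mem_replicate hx] <;>
          simpa using hc)
      (by rw [dl_add, dl_replicate, dl_replicate, tilde_X_sub_C (inv_ne_zero hc),
        tilde_X_sub_C (neg_ne_zero.2 (inv_ne_zero hc)), map_neg, inv_neg, e1, neg_neg, add_comm])
      (by rw [mdeg_add, mdeg_replicate, mdeg_replicate, natDegree_X_sub_C, natDegree_X_sub_C, h4]; ring)
    have a3 : T ^ 2 = z • 1 := by
      rw [pow_eq_smul_iff_ed, a2]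
      intro x hx
      rcases Multiset.mem_add.1 hx with hx | hx <;> rw [Multiset.eq_of_mem_replicate hx, pow_one,
        dvd_iff_isRoot] <;> simp [hz]
    refine ⟨T, z, a1, ?_, ⟨⟨z, a3⟩, ne_smul_of_mem_ed_two (x := (X - C c⁻¹, 1))
      (y := (X - C (-c⁻¹), 1)) (a2 ▸ Multiset.mem_add.2 (Or.inl (Multiset.mem_replicate.2 ⟨hk, rfl⟩)))
      (a2 ▸ Multiset.mem_add.2 (Or.inr (Multiset.mem_replicate.2 ⟨hk, rfl⟩))) fun h8 => ?_⟩, a3, h1, h3⟩
    · rw [det_eq_prod_ed, a2]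
      refine Eq.trans ?_ h5
      rw [hz]
      simp only [Multiset.map_add, Multiset.map_replicate, Multiset.prod_add,
        Multiset.prod_replicate, natDegree_X_sub_C, coeff_sub, coeff_X_zero, coeff_C_zero, ← mul_pow]
      congr 1
      ring
    · have h9 := C_injective (sub_right_injective (congrArg Prod.fst h8))
      rw [eq_neg_iff_add_eq_zero, ← two_mul] at h9
      exact mul_ne_zero (two_ne_zero_of_ne hrp) (inv_ne_zero hc) h9
  · have h6 := not_pow_of_ns hF h2 hq h1 h3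
    have h7 := X_pow_sub_C_irreducible_of_prime hr.out h6
    obtain ⟨T, a1, a2⟩ := herm_exists_isom hF hH hP (s := Multiset.replicate k (X ^ r - C z, 1))
      (fun x hx => by
        rw [Multiset.eq_of_mem_replicate hx]
        exact ⟨h7, monic_X_pow_sub_C z hr.out.ne_zero, one_pos⟩)
      (fun x hx h8 => by
        rw [Multiset.eq_of_mem_replicate hx] at h8
        have := congrArg natDegree h8
        rw [natDegree_X_pow_sub_C, natDegree_X] at this
        exact hr.out.ne_one this)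
      (by rw [dl_replicate, tilde_X_pow_sub_C hr.out.ne_zero (by rw [conj_mul_self, h1])])
      (by rw [mdeg_replicate, natDegree_X_pow_sub_C, h4]; ring)
    obtain ⟨a3, a4⟩ := isPE_of_nonsplit hk a2
    exact ⟨T, z, a1, by rw [det_of_ed_nonsplit a2, h5], a4, a3, h1, h3⟩

/-- A split element of determinant one with `2 * a` distinct non-trivial eigenvalues, each of
multiplicity one. -/
theorem exists_split_nodup (hH : P.IsHerm) (hP : P.Nondeg) (hrp : r ≠ p) (h2 : r ≠ 2)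
    (hq : r ∣ q + 1) {a : ℕ} (h1 : 1 ≤ a) (h3 : 2 * a ≤ r - 1) (h4 : 2 * a ≤ finrank F V) :
    ∃ (T : End F V) (t : Multiset F[X]), Isom P T ∧ LinearMap.det T = 1 ∧ IsPE r T ∧ T ^ r = 1 ∧
      (∀ f ∈ t, f ∈ cyc F r) ∧ t.Nodup ∧ Multiset.card t = 2 * a ∧
      ed T = ssEd (finrank F V - 2 * a) t := by
  have hsd := sdData_u_one hF hrp hq
  have hid : ∀ x : F, RingHom.id F (RingHom.id F x) = x := fun _ => rfl
  have hinv : ∀ f ∈ cyc F r, tilde (RingHom.id F) (tilde (RingHom.id F) f) = f := fun f hf =>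
    tilde_tilde hid (mem_cyc.1 hf).2.1 (coeff_ne_of_mem_cyc hf)
  obtain ⟨t₀, h5⟩ := exists_eq_add_map (tilde (RingHom.id F)) (cyc F r).val (by
      refine Multiset.eq_of_le_of_card_le ((Multiset.le_iff_subset ((cyc F r).nodup.map_on
        fun f hf g hg h => by rw [← hinv f hf, h, hinv g hg])).2 fun g hg => ?_) (by simp)
      obtain ⟨f, hf, rfl⟩ := Multiset.mem_map.1 hg
      exact tilde_mem_cyc hid hf hrp)
    (fun f hf h => by
      rw [tilde_id_eq_iff hrp h2 hf, ← hsd.b_eq] at h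
      exact Nat.not_even_one h) hinv
  have h6 := congrArg Multiset.card h5
  rw [Finset.card_val, card_cyc hrp, ← hsd.b_eq, Multiset.card_add, Multiset.card_map] at h6
  obtain ⟨t₁, h7, h8⟩ := exists_le_card_eq (t := t₀) (j := a) (by omega)
  have h9 : t₁ + t₁.map (tilde (RingHom.id F)) ≤ (cyc F r).val :=
    h5 ▸ add_le_add h7 (Multiset.map_le_map h7)
  have h10 : ∀ f ∈ t₁ + t₁.map (tilde (RingHom.id F)), f ∈ cyc F r := fun f hf =>
    Multiset.mem_of_le h9 hf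
  have h11 : Multiset.card (t₁ + t₁.map (tilde (RingHom.id F))) = 2 * a := by
    rw [Multiset.card_add, Multiset.card_map, h8, two_mul]
  have h12 := Multiset.nodup_of_le h9 (cyc F r).nodup
  obtain ⟨T, a1, a2⟩ := herm_exists_ss hF hH hP hrp hsd (2 * a) _ (by omega) h10
    (by
      conv_rhs => rw [← Multiset.map_id' (t₁ + _)]
      exact Multiset.map_congr rfl fun f hf => (hsd.sd_iff f (h10 f hf)).2 trivial) (by rw [h11])
  rw [one_mul] at a2
  have a3 : T ^ r = 1 := pow_eq_one_iff_ed.2 (a2 ▸ dvd_of_mem_ssEd _ h10)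
  refine ⟨T, _, a1, ?_, ⟨⟨1, by rw [a3, one_smul]⟩, ?_⟩, a3, h10, h12, h11, a2⟩
  · rw [det_eq_prod_ed, a2, ssEd]
    simp only [Multiset.map_add, Multiset.map_replicate, Multiset.prod_add,
      Multiset.prod_replicate, Multiset.map_map, Function.comp_def, pow_one, natDegree_X_sub_one]
    rw [← Multiset.prod_map_mul, Multiset.prod_eq_one fun x hx => ?_]
    · simp
    · obtain ⟨f, hf, rfl⟩ := Multiset.mem_map.1 hx
      have hf' := h10 f (Multiset.mem_add.2 (Or.inl hf))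
      have h0 := coeff_ne_of_mem_cyc hf'
      rw [natDegree_tilde _ h0, coeff_zero_tilde _ (mem_cyc.1 hf').2.1, RingHom.id_apply,
        mul_mul_mul_comm, mul_inv_cancel₀ h0, mul_one, ← mul_pow]
      simp
  · obtain ⟨f, hf⟩ := Multiset.card_pos_iff_exists_mem.1 (show 0 < Multiset.card t₁ by omega)
    have hf' := h10 f (Multiset.mem_add.2 (Or.inl hf))
    refine ne_smul_of_mem_ed_two (x := (f, 1)) (y := (tilde (RingHom.id F) f, 1)) ?_ ?_ fun h => ?_
    · rw [a2, ssEd]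
      exact Multiset.mem_add.2 (Or.inr (Multiset.mem_map_of_mem _ (Multiset.mem_add.2 (Or.inl hf))))
    · rw [a2, ssEd]
      exact Multiset.mem_add.2 (Or.inr (Multiset.mem_map_of_mem _
        (Multiset.mem_add.2 (Or.inr (Multiset.mem_map_of_mem _ hf)))))
    · have := (congrArg Prod.fst h).symm
      rw [tilde_id_eq_iff hrp h2 hf', ← hsd.b_eq] at this
      exact Nat.not_even_one this

omit hr in
include hF in
theorem even_of_det_invol (h2 : 2 ≠ p) {T : End F V} (hd : LinearMap.det T = 1) {b : F}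
    (hb : b ^ (q + 1) = 1) (h : (b • T) ^ 2 = 1) (hn : finrank F V ≠ 0)
    (hv : padicValNat 2 (q + 1) ≤ padicValNat 2 (finrank F V)) :
    Even (finrank F (fix (-(b • T)))) := by
  obtain ⟨g, hg⟩ := exists_prim_u hF
  by_contra h3
  have h4 := det_invol (two_ne_zero_of_ne h2) h
  rw [LinearMap.det_smul, hd, mul_one, (Nat.not_even_iff_odd.1 h3).neg_one_pow] at h4
  exact absurd hv (not_le.2 ((exists_pow_eq_neg_one_iff_val hg (Nat.succ_ne_zero q)
    (two_ne_zero_of_ne h2) hn).1 ⟨b, hb, h4⟩))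

omit hr in
theorem exists_odd_invol (hP : P.Nondeg) (h2 : 2 ≠ p) {A : Submodule F V} (hA : ND P A)
    (ho : Odd (finrank F A)) (hlt : finrank F A < finrank F V)
    (hv : padicValNat 2 (finrank F V) < padicValNat 2 (q + 1)) :
    ∃ (T : End F V) (b : F), b ≠ 0 ∧ Isom P T ∧ T ^ 2 = 1 ∧ fix T = P.perp A ∧ fix (-T) = A ∧
      Isom P (b • T) ∧ LinearMap.det (b • T) = 1 ∧ IsPE 2 (b • T) := by
  obtain ⟨g, hg⟩ := exists_prim_u hF
  have h2' := two_ne_zero_of_ne (F := F) h2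
  obtain ⟨b, h3, h4⟩ := (exists_pow_eq_neg_one_iff_val hg (Nat.succ_ne_zero q) h2'
    (by omega)).2 hv
  obtain ⟨T, a1, a2, a3, a4⟩ := exists_invol hP h2' hA
  have hb : b ≠ 0 := by rintro rfl; simp at h3
  refine ⟨T, b, hb, a1, a2, a3, a4, isIso_smul a1 (by rw [conj_mul_self, h3]), by
    rw [LinearMap.det_smul, h4, det_invol h2' a2, a4, ho.neg_one_pow, neg_mul_neg, one_mul],
    IsPE.smul ⟨⟨1, by rw [a2, one_smul]⟩, fun c hc => ?_⟩ hb⟩
  have h5 := P.finrank_perp hP A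
  obtain ⟨v, hv, hv0⟩ := Submodule.exists_mem_ne_zero_of_ne_bot (p := fix T)
    (fun h => by rw [a3] at h; rw [h, finrank_bot] at h5; omega)
  obtain ⟨w, hw, hw0⟩ := Submodule.exists_mem_ne_zero_of_ne_bot (p := fix (-T))
    (fun h => by rw [a4] at h; rw [h, finrank_bot] at ho; exact Nat.not_odd_zero ho)
  rw [mem_fix, hc] at hv hw
  have h6 : c = 1 := smul_left_injective F hv0 (by simpa using hv)
  rw [h6, one_smul, LinearMap.neg_apply, End.one_apply, neg_eq_iff_add_eq_zero, ← two_smul F] at hw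
  exact hw0 ((smul_eq_zero.1 hw).resolve_left h2')

theorem herm_forall_nd (hH : P.IsHerm) (hP : P.Nondeg) (hrp : r ≠ p) {sd : Prop} {b c : ℕ}
    (hsd : SDData (conj hF) r sd b c) (m : ℕ) :
    (∀ T, Isom P T → T ^ r = 1 → T ≠ 1 →
      ∃ W : Submodule F V, finrank F W = m ∧ ND P W ∧ Inv T W) ↔
    ∀ k, 1 ≤ k → c * k ≤ finrank F V → ∃ j ≤ k, c * j ≤ m ∧ m - c * j ≤ finrank F V - c * k := by
  have := forall_nd_iff hP hrp hsd m (fun _ => True) (fun _ => True)
    (fun k j => c * j ≤ m ∧ m - c * j ≤ finrank F V - c * k)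
    (fun T h1 h3 k h4 => ⟨trivial, fun j W' _ _ _ _ => ?_⟩)
    fun k t h0 _ => herm_exists_ss hF hH hP hrp hsd k t h0
  · simpa only [and_true, and_assoc, forall_const] using this
  · have h5 := PQ.finrank_perp _ hP (fix T)
    constructor
    · rintro ⟨W, b1, -, b2, -⟩
      have := Submodule.finrank_mono b1
      omega
    · rintro ⟨h6, h7⟩
      obtain ⟨W, b1, b2, b3⟩ := herm_exists_nd hH hP (nd_fix hP hrp h1 h3) (m := m - c * j)
        (by omega)
      exact ⟨W, b1, b2, by omega, trivial⟩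

theorem herm_forall_ts (hH : P.IsHerm) (hP : P.Nondeg) (hrp : r ≠ p) {sd : Prop} {b c : ℕ}
    (hsd : SDData (conj hF) r sd b c) (m : ℕ) :
    (∀ T, Isom P T → T ^ r = 1 → T ≠ 1 →
      ∃ W : Submodule F V, finrank F W = m ∧ P.TS W ∧ Inv T W) ↔
    ∀ k, 1 ≤ k → c * k ≤ finrank F V → ∃ j, (sd → j = 0 ∨ 2 * j + (r - 1) / b ≤ k + 1) ∧
      (¬ sd → j ≤ k) ∧ b * j ≤ m ∧ 2 * (m - b * j) ≤ finrank F V - c * k := by
  have := forall_ts_iff hP hrp hsd m (fun _ => True) (fun k e => 2 * e ≤ finrank F V - c * k)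
    (fun T h1 h3 k h4 => ⟨trivial, fun e => ?_⟩)
    fun k t h0 _ => herm_exists_ss hF hH hP hrp hsd k t h0
  · simpa only [forall_const] using this
  · have h5 := PQ.finrank_perp _ hP (fix T)
    rw [herm_exists_ts_iff hH hP (nd_fix hP hrp h1 h3)]
    omega

/-- Reduction for primes dividing `q + 1`. -/
theorem forall_su_dvd (hP : P.Nondeg) (Φ : End F V → Prop)
    (hs : ∀ T (c : F), c ≠ 0 → Φ (c • T) → Φ T)
    (h1 : ∀ T (b : F), Isom P T → LinearMap.det T = 1 → b ^ (q + 1) = 1 → Isom P (b • T) →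
      (b • T) ^ r = 1 → b • T ≠ 1 → Φ (b • T))
    (h2 : ∀ T (z : F), Isom P T → LinearMap.det T = 1 → T ^ r = z • 1 → z ^ (q + 1) = 1 →
      (∀ b : F, b ^ (q + 1) = 1 → b ^ r ≠ z) → Φ T) (T : End F V) (hT : Isom P T)
    (hd : LinearMap.det T = 1) (h : IsPE r T) : Φ T := by
  rcases herm_cases hF hP hT h with ⟨b, a1, a2, a3, a4⟩ | ⟨z, a1, a2, a3⟩
  · exact hs T b (by rintro rfl; simp at a1) (h1 T b hT hd a1 a2 a3 a4)
  · exact h2 T z hT hd a2 a1 a3

omit [Fintype F] hp hr in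
theorem noNS_iff_of_ne (h2 : r ≠ 2) (n q : ℕ) :
    NoNS r n (q + 2) ↔ padicValNat r n ≤ padicValNat r (q + 1) := by
  simp [NoNS, h2]

end CfsgLib.Elus2
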